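import Cfsg.Agent.OPlusWreath94.Factor
import Cfsg.Agent.UnitTensor96.Dihedral

/-!
Characteristic two: with only scalar coefficients every element is monomial.
-/

set_option autoImplicit false
set_option linter.unusedSectionVars false

namespace CfsgLib.OPlusWreath94

open Matrix Module
open CfsgLib.TensorMax (InM pure pure_mulVec memb mem_memb pure_mem_memb pure_eq_zero_iff)
open CfsgLib.UnitTensor96 (conj_or_central)
open CfsgLib.WreathTensor14 (TV pv slot slot_pv monoGroup smemb symm_pure_mem mem_smemb finrank_smemb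
  exists_member_image pv_ne_zero linearMap_ext_pv mem_mono_one rootV rootV_mem_smemb range_rootV
  rootV_comp rootV_eq_zero nil mono_classify)
open CfsgLib.SympWreath17 (IsSymp Isom tform tform_slot OnlyScal sdual sctr sctr_pure sphi
  sphi_pure_right sphi_pure_pure dotProduct_sdual kronE_sim)

variable {F : Type*} [Field F] [Finite F] {m s : ℕ}
  {f : LinearMap.BilinForm F (Fin m → F)}
  {M : Subgroup (TV F m (s + 1) ≃ₗ[F] TV F m (s + 1))}

lemma nW_mem (k : Fin (s + 1)) (w : Fin m → F) (x : TV F m (s + 1)) : nW f k w x ∈ smemb k w :=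
  rootV_mem_smemb _ _ _ _

lemma finrank_span_pair_le (w w' : Fin m → F) :
    finrank F (Submodule.span F ({w, w'} : Set (Fin m → F))) ≤ 2 := by
  classical
  refine le_trans ?_ (Finset.card_le_two (a := w) (b := w'))
  have := finrank_span_finset_le_card (R := F) ({w, w'} : Finset (Fin m → F))
  rwa [Finset.coe_pair, Set.finrank] at this

section
variable (hM : FBase f M)
include hM

lemma range_nW (k : Fin (s + 1)) {w : Fin m → F} (hw : w ≠ 0) :
    LinearMap.range (nW f k w) = smemb k w := range_rootV k w (sdual_ne_zero hM.symp hw)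

lemma nW_eq_zero {k : Fin (s + 1)} {w w' : Fin m → F} (h : f w' w = 0) {x : TV F m (s + 1)}
    (hx : x ∈ smemb k w') : nW f k w x = 0 :=
  rootV_eq_zero (by rw [dotProduct_sdual, h]) hx

lemma nW_nW (k : Fin (s + 1)) (w : Fin m → F) (x : TV F m (s + 1)) :
    nW f k w (nW f k w x) = 0 := rootV_comp k (by rw [dotProduct_sdual, hM.symp.alt]) x

lemma nW_eq_zero_iff (k : Fin (s + 1)) {w : Fin m → F} (hw : w ≠ 0) (x : TV F m (s + 1)) :
    nW f k w x = 0 ↔ ∀ u ∈ smemb k w, tform f (s + 1) x u = 0 := by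
  rw [nW_apply, LinearEquiv.map_eq_zero_iff, pure_eq_zero_iff hw]
  refine ⟨fun h u hu => ?_, fun h => (tform_nd hM.symp s).1 _ fun y => ?_⟩
  · obtain ⟨y, hy⟩ := mem_memb.1 hu
    rw [← tform_slot k, show slot k u = _ from hy.symm, sphi_pure_right, h, map_zero,
      LinearMap.zero_apply]
  · rw [← sphi_pure_right, ← (slot k).apply_symm_apply (pure y w), tform_slot]
    exact h _ (symm_pure_mem k y w)

/-- The root element. -/
lemma exists_root (k : Fin (s + 1)) (w : Fin m → F) : ∃ x ∈ M, (∀ v, x v = v + nW f k w v) ∧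
    ∀ u v, tform f (s + 1) (x u) (x v) = tform f (s + 1) u v := by
  obtain ⟨g, hg, hgx⟩ := exists_slot_transvection hM.symp k 1 w
  refine ⟨slotElem k g, hM.kron_mem _ (slotElem_isom k hg), fun v => by rw [hgx, one_smul],
    fun u v => ?_⟩
  have h := kronE_sim (f := f) (gs := Fin.insertNth (α := fun _ => GL (Fin m) F) k g 1)
    (cs := fun _ => 1) (fun i x y => by rw [one_mul]; exact slotElem_isom k hg i x y) u v
  rwa [Finset.prod_const_one, one_mul] at h

/-- If the conjugate of a root element is monomial, so is the conjugating element. -/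
theorem mono_of_conj (hsc : OnlyScal f M) (hk : 4 ≤ m)
    (hIH : ∀ k, ∀ a ∈ WreathTensor14.factor M k, a ∈ monoGroup F m s)
    {g : TV F m (s + 1) ≃ₗ[F] TV F m (s + 1)} (hg : g ∈ M) {j : Fin (s + 1)} {w : Fin m → F}
    (hw : w ≠ 0)
    (hall : ∀ x ∈ M, (∀ v, (x : TV F m (s + 1) ≃ₗ[F] TV F m (s + 1)) v = v + nW f j w v) →
      g⁻¹ * x * g ∈ monoGroup F m (s + 1)) :
    g ∈ monoGroup F m (s + 1) := by
  obtain ⟨x, hx, hxv, -⟩ := exists_root hM j w
  have hnil : nil (g⁻¹ * x * g) = g.symm.toLinearMap ∘ₗ nW f j w ∘ₗ g.toLinearMap :=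
    LinearMap.ext fun v => by
      change g.symm (x (g v)) - v = g.symm (nW f j w (g v))
      rw [hxv, map_add, LinearEquiv.symm_apply_apply, add_sub_cancel_left]
  have hr : LinearMap.range (nil (g⁻¹ * x * g)) = (smemb j w).map g.symm.toLinearMap := by
    rw [hnil, LinearMap.range_comp, LinearMap.range_comp_of_range_eq_top _ g.range,
      range_nW hM j hw]
  have hrank : finrank F (LinearMap.range (nil (g⁻¹ * x * g))) = m ^ s := by
    rw [hr, LinearEquiv.finrank_map_eq, finrank_smemb _ hw]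
  have hne : g⁻¹ * x * g ≠ 1 := fun h => by
    rw [h, show nil (1 : TV F m (s + 1) ≃ₗ[F] TV F m (s + 1)) = 0 from
      LinearMap.ext fun v => sub_self v, LinearMap.range_zero, finrank_bot] at hrank
    exact (pow_pos (show 0 < m by omega) s).ne hrank
  rcases mono_classify (by omega) (hall x hx hxv) (fun v => by
      rw [hnil]
      simp [nW_nW hM j]) hne hrank.le with ⟨k, w', hw', hkw⟩ | hswap
  · have := mono_of_member hM hsc hk hIH (M.inv_mem hg) hw hw' fun z hz => by
      rw [← hkw, hr]; exact ⟨z, hz, rfl⟩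
    simpa using (monoGroup F m (s + 1)).inv_mem this
  · exact absurd hswap.1 (by omega)

/-- A root element keeping a large part of the image of a member forces a monomial element. -/
theorem mono_of_meet (hsc : OnlyScal f M) (hk : 4 ≤ m)
    (hIH : ∀ k, ∀ a ∈ WreathTensor14.factor M k, a ∈ monoGroup F m s) {d : ℕ}
    (hd : ∀ g ∈ M, ∀ (k : Fin (s + 1)) (v : Fin m → F) (j : Fin (s + 1)) (w : Fin m → F),
      v ≠ 0 → w ≠ 0 →
      d < finrank F ↥((smemb k v).map (g : TV F m (s + 1) ≃ₗ[F] TV F m (s + 1)).toLinearMap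
        ⊓ smemb j w) → g ∈ monoGroup F m (s + 1))
    {g : TV F m (s + 1) ≃ₗ[F] TV F m (s + 1)} (hg : g ∈ M) {k j : Fin (s + 1)} {v z : Fin m → F}
    (hv : v ≠ 0) (hz : z ≠ 0)
    (S : Submodule F (TV F m (s + 1))) (hS : S ≤ (smemb k v).map g.toLinearMap)
    (hdS : d < finrank F S)
    (hNS : ∀ x ∈ S, nW f j z x ∈ (smemb k v).map g.toLinearMap) :
    g ∈ monoGroup F m (s + 1) := by
  refine mono_of_conj hM hsc hk hIH hg (j := j) hz fun x hx hxv =>
    hd _ (M.mul_mem (M.mul_mem (M.inv_mem hg) hx) hg) k v k v hv hv ?_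
  set T := (smemb k v).map g.toLinearMap
  have hle : (S.map x.toLinearMap).map g.symm.toLinearMap
      ≤ (smemb k v).map (g⁻¹ * x * g).toLinearMap ⊓ smemb k v := by
    rintro _ ⟨_, ⟨y, hy, rfl⟩, rfl⟩
    obtain ⟨y', hy', hyy⟩ := hS hy
    refine ⟨⟨y', hy', ?_⟩, ?_⟩
    · change g.symm (x (g y')) = g.symm (x y)
      rw [show g y' = y from hyy]
    · obtain ⟨z', hz', hzz'⟩ : x y ∈ T := by
        rw [hxv]; exact T.add_mem (hS hy) (hNS y hy)
      rw [LinearEquiv.coe_coe, LinearEquiv.coe_coe, show x y = g z' from hzz'.symm, g.symm_apply_apply]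
      exact hz'
  refine lt_of_lt_of_le hdS (le_of_eq_of_le ?_ (Submodule.finrank_mono hle))
  rw [LinearEquiv.finrank_map_eq, LinearEquiv.finrank_map_eq]

end

/-- A non-monomial element with an image of a member in a position of largest intersection. -/
structure Pos (f : LinearMap.BilinForm F (Fin m → F))
    (M : Subgroup (TV F m (s + 1) ≃ₗ[F] TV F m (s + 1)))
    (g : TV F m (s + 1) ≃ₗ[F] TV F m (s + 1)) (k : Fin (s + 1)) (v : Fin m → F) (j : Fin (s + 1))
    (w : Fin m → F) : Prop where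
  base : FBase f M
  sc : OnlyScal f M
  four : 4 ≤ m
  IH : ∀ k, ∀ a ∈ WreathTensor14.factor M k, a ∈ monoGroup F m s
  hg : g ∈ M
  hng : g ∉ monoGroup F m (s + 1)
  hv : v ≠ 0
  hw : w ≠ 0
  hd : ∀ g' ∈ M, ∀ (k' : Fin (s + 1)) (v' : Fin m → F) (j' : Fin (s + 1)) (w' : Fin m → F),
    v' ≠ 0 → w' ≠ 0 →
    finrank F ↥((smemb k v).map g.toLinearMap ⊓ smemb j w)
      < finrank F ↥((smemb k' v').map (g' : TV F m (s + 1) ≃ₗ[F] TV F m (s + 1)).toLinearMap
        ⊓ smemb j' w') → g' ∈ monoGroup F m (s + 1)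

/-- The elements that are isometries in `M` and move vectors inside `S`. -/
def moveGroup (f : LinearMap.BilinForm F (Fin m → F))
    (M : Subgroup (TV F m (s + 1) ≃ₗ[F] TV F m (s + 1))) (S : Submodule F (TV F m (s + 1))) :
    Subgroup (TV F m (s + 1) ≃ₗ[F] TV F m (s + 1)) where
  carrier := {h | h ∈ M ∧ (∀ u v, tform f (s + 1) (h u) (h v) = tform f (s + 1) u v) ∧
    ∀ z, h z - z ∈ S}
  one_mem' := ⟨M.one_mem, fun u v => rfl, fun z => by simp⟩
  mul_mem' := fun {h h'} hh hh' => ⟨M.mul_mem hh.1 hh'.1,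
    fun u v => by rw [LinearEquiv.mul_apply, LinearEquiv.mul_apply, hh.2.1, hh'.2.1],
    fun z => by
      rw [LinearEquiv.mul_apply, ← sub_add_sub_cancel _ (h' z)]
      exact S.add_mem (hh.2.2 _) (hh'.2.2 z)⟩
  inv_mem' := fun {h} hh => ⟨M.inv_mem hh.1,
    fun u v => by
      conv_rhs => rw [← h.apply_symm_apply u, ← h.apply_symm_apply v, hh.2.1]
      rfl,
    fun z => by
      have h2 := S.neg_mem (hh.2.2 (h.symm z))
      rw [LinearEquiv.apply_symm_apply, neg_sub] at h2
      exact h2⟩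

lemma eq_mult_one (hM : FBase f M) {h : TV F m (s + 1) ≃ₗ[F] TV F m (s + 1)}
    (hiso : ∀ u v, tform f (s + 1) (h u) (h v) = tform f (s + 1) u v) {j : Fin (s + 1)}
    {B : (Fin m → F) →ₗ[F] (Fin m → F)}
    (hB : ∀ u z, slot j (h ((slot j).symm (pure u z))) = pure u (B z)) (y z : Fin m → F) :
    f (B y) (B z) = f y z := by
  obtain ⟨u, v, huv⟩ := exists_tform_ne_zero (t := s) hM.symp (by have := hM.two_le; omega)
  refine mul_right_cancel₀ huv ?_
  rw [← sphi_pure_pure, ← sphi_pure_pure, ← hB, ← hB, tform_slot, hiso, ← tform_slot j,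
    LinearEquiv.apply_symm_apply, LinearEquiv.apply_symm_apply]

/-- Contractions transported by an element of the second factor. -/
lemma sctr_right (hM : FBase f M) {h : TV F m (s + 1) ≃ₗ[F] TV F m (s + 1)}
    (hiso : ∀ u v, tform f (s + 1) (h u) (h v) = tform f (s + 1) u v) {j : Fin (s + 1)}
    {B : (Fin m → F) →ₗ[F] (Fin m → F)}
    (hB : ∀ u z, slot j (h ((slot j).symm (pure u z))) = pure u (B z)) (z : Fin m → F)
    (X : TV F m (s + 1)) : sctr f (B z) (slot j (h X)) = sctr f z (slot j X) := by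
  refine sub_eq_zero.1 ((tform_nd hM.symp s).1 _ fun u => ?_)
  rw [map_sub, LinearMap.sub_apply, ← sphi_pure_right, ← sphi_pure_right, ← hB, tform_slot, hiso,
    ← tform_slot j, LinearEquiv.apply_symm_apply, sub_self]

/-- The rows of a vector in the sum of two members. -/
lemma rows_mem {j : Fin (s + 1)} {w w' : Fin m → F} {X : TV F m (s + 1)}
    (hX : X ∈ smemb j w ⊔ smemb j w') (i : Fin s → Fin m) :
    slot j X i ∈ Submodule.span F ({w, w'} : Set (Fin m → F)) := by
  obtain ⟨a, ha, b, hb, rfl⟩ := Submodule.mem_sup.1 hX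
  obtain ⟨u, hu⟩ := mem_memb.1 ha
  obtain ⟨u', hu'⟩ := mem_memb.1 hb
  rw [LinearEquiv.coe_coe] at hu hu'
  rw [map_add, ← hu, ← hu']
  refine Submodule.mem_span_pair.2 ⟨u i, u' i, funext fun l => ?_⟩
  simp [TensorMax.pure, vecMulVec_apply]

/-- A member of another factor has rows in every direction. -/
lemma member_eq_of_rows {j k : Fin (s + 1)} {w : Fin m → F} (hw : w ≠ 0)
    {E : Submodule F (Fin m → F)} {d : Fin m → F} (hd : d ∉ E)
    (h : ∀ X ∈ smemb k w, ∀ i, slot j X i ∈ E) : k = j := by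
  by_contra hkj
  have hd0 : d ≠ 0 := fun h0 => hd (h0 ▸ E.zero_mem)
  set x : Fin (s + 1) → Fin m → F := Function.update (fun _ => w) j d
  have hx : ∀ i, x i ≠ 0 := fun i => by
    rcases eq_or_ne i j with rfl | h' <;> simp [x, *]
  obtain ⟨i, hi⟩ := Function.ne_iff.1 (pv_ne_zero (x := Fin.removeNth j x) fun i => hx _)
  have h1 := h (pv x) (by
    rw [mem_smemb, slot_pv, show x k = w by simp [x, hkj]]
    exact pure_mem_memb _ _) i
  rw [slot_pv, show x j = d by simp [x],
    show (pure (pv (Fin.removeNth j x)) d : Matrix _ _ F) i = pv (Fin.removeNth j x) i • d from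
      funext fun l => by simp [TensorMax.pure, vecMulVec_apply]] at h1
  exact hd ((E.smul_mem_iff hi).1 h1)

namespace Pos

variable {g : TV F m (s + 1) ≃ₗ[F] TV F m (s + 1)} {k j : Fin (s + 1)} {v w : Fin m → F}
  (H : Pos f M g k v j w)
include H

/-- The map onto the image. -/
lemma exists_P : ∃ P : TV F m (s + 1) →ₗ[F] TV F m (s + 1),
    (∀ Y, P Y = g (nW f k v (g.symm Y))) := ⟨g.toLinearMap ∘ₗ nW f k v ∘ₗ g.symm.toLinearMap, fun _ => rfl⟩

lemma isoT : ∀ x ∈ (smemb k v).map g.toLinearMap, ∀ y ∈ (smemb k v).map g.toLinearMap,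
    tform f (s + 1) x y = 0 := by
  rintro _ ⟨x, hx, rfl⟩ _ ⟨y, hy, rfl⟩
  obtain ⟨c, hc⟩ := H.base.sim g H.hg
  rw [LinearEquiv.coe_coe, hc, (nW_eq_zero_iff H.base k H.hv x).1 (nW_eq_zero H.base (H.base.symp.alt v) hx) y hy,
    mul_zero]

lemma P_eq_zero_iff {P : TV F m (s + 1) →ₗ[F] TV F m (s + 1)}
    (hP : ∀ Y, P Y = g (nW f k v (g.symm Y))) (Y : TV F m (s + 1)) :
    P Y = 0 ↔ ∀ t ∈ (smemb k v).map g.toLinearMap, tform f (s + 1) Y t = 0 := by
  obtain ⟨c, hc0, hc⟩ := exists_mult H.base H.hg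
  rw [hP, LinearEquiv.map_eq_zero_iff, nW_eq_zero_iff H.base k H.hv]
  refine ⟨fun h => ?_, fun h u hu => ?_⟩
  · rintro _ ⟨u, hu, rfl⟩
    rw [← g.apply_symm_apply Y, LinearEquiv.coe_coe, hc, h u hu, mul_zero]
  · have h1 := h _ ⟨u, hu, rfl⟩
    rw [← g.apply_symm_apply Y, LinearEquiv.coe_coe, hc] at h1
    exact (mul_eq_zero.1 h1).resolve_left hc0

lemma P_mem {P : TV F m (s + 1) →ₗ[F] TV F m (s + 1)}
    (hP : ∀ Y, P Y = g (nW f k v (g.symm Y))) (Y : TV F m (s + 1)) :
    P Y ∈ (smemb k v).map g.toLinearMap := by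
  rw [hP]; exact ⟨_, nW_mem k v _, rfl⟩

lemma P_surj {P : TV F m (s + 1) →ₗ[F] TV F m (s + 1)}
    (hP : ∀ Y, P Y = g (nW f k v (g.symm Y))) {t : TV F m (s + 1)}
    (ht : t ∈ (smemb k v).map g.toLinearMap) : ∃ Y, P Y = t := by
  obtain ⟨z, hz, rfl⟩ := ht
  obtain ⟨y, hy⟩ := (range_nW H.base k H.hv).ge hz
  exact ⟨g y, by rw [hP, g.symm_apply_apply, hy]; rfl⟩

/-- The conjugated root element. -/
lemma exists_y {P : TV F m (s + 1) →ₗ[F] TV F m (s + 1)}
    (hP : ∀ Y, P Y = g (nW f k v (g.symm Y))) :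
    ∃ y ∈ M, (∀ Y, y Y = Y + P Y) ∧
      ∀ u z, tform f (s + 1) (y u) (y z) = tform f (s + 1) u z := by
  obtain ⟨x, hx, hxv, hxi⟩ := exists_root H.base k v
  obtain ⟨d, hd⟩ := H.base.sim g H.hg
  refine ⟨g * x * g⁻¹, M.mul_mem (M.mul_mem H.hg hx) (M.inv_mem H.hg), fun Y => ?_, fun u z => ?_⟩
  · change g (x (g.symm Y)) = _
    rw [hxv, map_add, g.apply_symm_apply, hP]
  · change tform f (s + 1) (g (x (g.symm u))) (g (x (g.symm z))) = _
    rw [hd, hxi, ← hd, g.apply_symm_apply, g.apply_symm_apply]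

lemma hnle : ¬ (smemb k v).map g.toLinearMap ≤ smemb j w := fun hle =>
  H.hng (mono_of_member H.base H.sc H.four H.IH H.hg H.hv H.hw fun x hx => hle ⟨x, hx, rfl⟩)

lemma backT {t : TV F m (s + 1)} (ht : t ∈ (smemb k v).map g.toLinearMap)
    (hNt : nW f j w t ∈ (smemb k v).map g.toLinearMap) : t ∈ smemb j w := by
  by_contra htU
  set T := (smemb k v).map g.toLinearMap
  refine H.hng (mono_of_meet H.base H.sc H.four H.IH H.hd H.hg H.hv (j := j) H.hw
    ((T ⊓ smemb j w) ⊔ Submodule.span F {t})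
    (sup_le inf_le_left ((Submodule.span_singleton_le_iff_mem _ _).2 ht)) ?_ fun x hx => ?_)
  · exact Submodule.finrank_lt_finrank_of_lt (lt_of_le_not_ge le_sup_left fun h =>
      htU (h (Submodule.mem_sup_right (Submodule.mem_span_singleton_self t))).2)
  · obtain ⟨a, ha, b, hb, rfl⟩ := Submodule.mem_sup.1 hx
    obtain ⟨r, rfl⟩ := Submodule.mem_span_singleton.1 hb
    rw [map_add, map_smul, nW_eq_zero H.base (H.base.symp.alt w) ha.2, zero_add]
    exact T.smul_mem r hNt

set_option maxHeartbeats 800000 in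
/-- Characteristic two and factors of dimension at least four: two root elements. -/
theorem false_of_two (h2 : (2 : F) = 0) : False := by
  have h4 := H.four
  have hM := H.base
  have hf := hM.symp
  obtain ⟨P, hP⟩ := H.exists_P
  set T := (smemb k v).map g.toLinearMap with hT
  set U := smemb j w with hU
  obtain ⟨w', hw'⟩ := exists_perp_not_mem (f := f) ![w] (Submodule.span F {w})
    (by have := finrank_span_le_card (R := F) ({w} : Set (Fin m → F)); simp at this; omega)
  obtain ⟨hw'w, hw'n⟩ : f w' w = 0 ∧ w' ∉ Submodule.span F ({w} : Set (Fin m → F)) := ⟨hw'.1 0, hw'.2⟩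
  replace hw' : w' ≠ 0 := fun h => hw'n (h ▸ Submodule.zero_mem _)
  have hww' := orth_comm hf hw'w
  have hw'w' := hf.alt w'
  have hwalt := hf.alt w
  set U' := smemb j w' with hU'
  set E := Submodule.span F ({w, w'} : Set (Fin m → F)) with hE
  have hwE : w ∈ E := Submodule.subset_span (by simp)
  have hw'E : w' ∈ E := Submodule.subset_span (by simp)
  have hEiso : ∀ x ∈ E, ∀ y ∈ E, f x y = 0 := fun x hx y hy => by
    obtain ⟨a, b, rfl⟩ := Submodule.mem_span_pair.1 hx
    obtain ⟨a', b', rfl⟩ := Submodule.mem_span_pair.1 hy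
    simp [hwalt, hw'w', hww', hw'w]
  have hdbl : ∀ X : TV F m (s + 1), X + X = 0 := fun X => by rw [← two_smul F X, h2, zero_smul]
  obtain ⟨x, hx, hxv, hxi⟩ := exists_root hM j w
  obtain ⟨x', hx', hx'v, hx'i⟩ := exists_root hM j w'
  obtain ⟨y, hy, hyv, hyi⟩ := H.exists_y hP
  set N := nW f j w with hN
  set N' := nW f j w' with hN'
  have hN0 : ∀ X ∈ U ⊔ U', N X = 0 := fun X hX => by
    obtain ⟨a, ha, b, hb, rfl⟩ := Submodule.mem_sup.1 hX
    rw [map_add, nW_eq_zero hM hwalt ha, nW_eq_zero hM hw'w hb, add_zero]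
  have hN'0 : ∀ X ∈ U ⊔ U', N' X = 0 := fun X hX => by
    obtain ⟨a, ha, b, hb, rfl⟩ := Submodule.mem_sup.1 hX
    rw [map_add, nW_eq_zero hM hww' ha, nW_eq_zero hM hw'w' hb, add_zero]
  have hNNmem : ∀ Y, N Y + N' Y ∈ U ⊔ U' := fun Y =>
    Submodule.add_mem_sup (nW_mem j w Y) (nW_mem j w' Y)
  set w2 := x * x' with hw2
  have hw2v : ∀ Y, w2 Y = Y + (N Y + N' Y) := fun Y => by
    rw [hw2, LinearEquiv.mul_apply, hx'v, hxv, map_add,
      hN0 _ (Submodule.mem_sup_right (nW_mem j w' Y)), add_zero]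
    abel
  have hw2sq : w2 * w2 = 1 := LinearEquiv.ext fun Y => by
    rw [LinearEquiv.mul_apply, hw2v, hw2v]
    have h11 : N (N Y) = 0 := hN0 _ (Submodule.mem_sup_left (nW_mem j w Y))
    have h12 : N (N' Y) = 0 := hN0 _ (Submodule.mem_sup_right (nW_mem j w' Y))
    have h21 : N' (N Y) = 0 := hN'0 _ (Submodule.mem_sup_left (nW_mem j w Y))
    have h22 : N' (N' Y) = 0 := hN'0 _ (Submodule.mem_sup_right (nW_mem j w' Y))
    simp only [map_add, h11, h12, h21, h22, add_zero, add_assoc, hdbl]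
    rfl
  have hy2 : y * y = 1 := LinearEquiv.ext fun Y => by
    rw [LinearEquiv.mul_apply, hyv, hyv]
    simp only [map_add, (H.P_eq_zero_iff hP _).2 (H.isoT _ (H.P_mem hP Y)),
      add_zero, add_assoc, hdbl]
    rfl
  -- both members are in the range
  have hsurj : ∀ X ∈ U ⊔ U', ∃ Y, N Y + N' Y = X := by
    have hkk : w ∉ Submodule.span F ({w'} : Set (Fin m → F)) := fun h => hw'n (by
      obtain ⟨r, hr⟩ := Submodule.mem_span_singleton.1 h
      refine Submodule.mem_span_singleton.2 ⟨r⁻¹, ?_⟩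
      rw [← hr, inv_smul_smul₀ (fun h0 => H.hw (by rw [← hr, h0, zero_smul]))])
    obtain ⟨e, h12, h11⟩ := exists_sep hf hkk
    obtain ⟨e', h21, h22⟩ := exists_sep hf hw'n
    intro X hX
    obtain ⟨a, ha, b, hb, rfl⟩ := Submodule.mem_sup.1 hX
    obtain ⟨p, hp⟩ := mem_memb.1 ha
    obtain ⟨q, hq⟩ := mem_memb.1 hb
    rw [LinearEquiv.coe_coe] at hp hq
    refine ⟨(slot j).symm (pure p e + pure q e'), (slot j).injective ?_⟩
    simp only [hN, hN', map_add, nW_apply, LinearEquiv.apply_symm_apply, sctr_pure, h11, h12, h21,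
      h22, one_smul, zero_smul, pure_zero_l, map_zero, add_zero, zero_add, hp, hq]
  have : Finite (TV F m (s + 1) ≃ₗ[F] TV F m (s + 1)) :=
    Finite.of_injective (fun e => (e : TV F m (s + 1) → TV F m (s + 1))) DFunLike.coe_injective
  have hTU : T ≤ U → False := H.hnle
  rcases conj_or_central hw2sq hy2 with ⟨z, -, hzy⟩ | ⟨z, hzcl, hz1, hzz', hzw, hzy⟩
  · -- conjugate elements have ranges of equal dimension
    have hz : ∀ Y, z (N Y + N' Y) ∈ T := fun Y => by
      have h1 := LinearEquiv.congr_fun (mul_inv_eq_iff_eq_mul.1 hzy) Y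
      change z (w2 Y) = y (z Y) at h1
      rw [hw2v, hyv, map_add] at h1
      have h3 := add_left_cancel h1
      rw [h3]
      exact H.P_mem hP _
    have hle : (U ⊔ U').map z.toLinearMap ≤ T := by
      rintro _ ⟨X, hX, rfl⟩
      obtain ⟨Y, rfl⟩ := hsurj X hX
      exact hz Y
    have h1 := Submodule.finrank_mono hle
    rw [LinearEquiv.finrank_map_eq, hT, LinearEquiv.finrank_map_eq, finrank_smemb _ H.hv] at h1
    have hlt : U < U ⊔ U' := lt_of_le_not_ge le_sup_left fun h => hw'n (by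
      have : Nonempty (Fin m) := ⟨⟨0, by omega⟩⟩
      obtain ⟨u₀, hu₀⟩ := exists_ne (0 : TV F m s)
      obtain ⟨i, hi⟩ := Function.ne_iff.1 hu₀
      have h3 : (slot j).symm (pure u₀ w') ∈ U ⊔ U := Submodule.mem_sup_left
        (h (Submodule.mem_sup_right (symm_pure_mem j u₀ w')))
      have h4' := rows_mem h3 i
      rw [LinearEquiv.apply_symm_apply, show ({w, w} : Set (Fin m → F)) = {w} by simp,
        show (pure u₀ w' : Matrix _ _ F) i = u₀ i • w' from
          funext fun l => by simp [TensorMax.pure, vecMulVec_apply]] at h4'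
      exact (Submodule.smul_mem_iff _ hi).1 h4')
    have h3 := Submodule.finrank_lt_finrank_of_lt hlt
    rw [hU, finrank_smemb _ H.hw] at h3
    exact absurd (h3.trans_le h1) (lt_irrefl _)
  -- the central involution
  have hzS : z ∈ moveGroup f M (T ⊔ (U ⊔ U')) := by
    refine (Subgroup.closure_le _).2 ?_ hzcl
    rintro e (rfl | rfl)
    · refine ⟨M.mul_mem hx hx', fun u v' => by
        rw [LinearEquiv.mul_apply, LinearEquiv.mul_apply, hxi, hx'i], fun Y => ?_⟩
      rw [hw2v, add_sub_cancel_left]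
      exact Submodule.mem_sup_right (hNNmem Y)
    · refine ⟨hy, hyi, fun Y => ?_⟩
      rw [hyv, add_sub_cancel_left]
      exact Submodule.mem_sup_left (H.P_mem hP Y)
  obtain ⟨hzM, hziso, hzmove⟩ := hzS
  have hzzv : ∀ X, z (z X) = X := fun X => LinearEquiv.congr_fun hzz' X
  have hzU : ∀ X ∈ U ⊔ U', z X ∈ U ⊔ U' := fun X hX => by
    obtain ⟨Y, rfl⟩ := hsurj X hX
    have h1 := LinearEquiv.congr_fun hzw Y
    change z (w2 Y) = w2 (z Y) at h1
    rw [hw2v, hw2v, map_add] at h1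
    rw [add_left_cancel h1]
    exact hNNmem _
  have hzT : ∀ t ∈ T, z t ∈ T := fun t ht => by
    obtain ⟨Y, rfl⟩ := H.P_surj hP ht
    have h1 := LinearEquiv.congr_fun hzy Y
    rw [LinearEquiv.mul_apply, LinearEquiv.mul_apply, hyv, hyv, map_add] at h1
    rw [add_left_cancel h1]
    exact H.P_mem hP _
  have hzmono : z ∈ monoGroup F m (s + 1) := by
    refine mono_of_conj hM H.sc H.four H.IH hzM (j := j) H.hw fun x₁ hx₁ hx₁v =>
      mono_of_member (i₀ := j) (j := j) hM H.sc H.four H.IH (M.mul_mem (M.mul_mem (M.inv_mem hzM) hx₁) hzM) H.hw H.hw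
        fun u hu => ?_
    change z.symm (x₁ (z u)) ∈ U
    rw [hx₁v, ← hN, hN0 _ (hzU u (Submodule.mem_sup_left hu)), add_zero,
      z.symm_apply_apply]
    exact hu
  obtain ⟨k', w₁, hw₁, hkw⟩ := exists_member_image hzmono j H.hw
  have hrows : ∀ X ∈ smemb k' w₁, ∀ i, slot j X i ∈ E := fun X hX i => by
    rw [← hkw] at hX
    obtain ⟨u, hu, rfl⟩ := hX
    exact rows_mem (hzU u (Submodule.mem_sup_left hu)) i
  obtain ⟨d, hd⟩ : ∃ d, d ∉ E := by
    by_contra! h
    obtain ⟨p, q, hpq⟩ := exists_unit_pair hM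
    exact zero_ne_one ((hEiso p (h p) q (h q)).symm.trans hpq)
  obtain rfl : k' = j := member_eq_of_rows hw₁ hd hrows
  obtain ⟨a, b, hab⟩ := exists_split hM H.sc H.four hzM H.hw (i₀ := k') (j := k') (v := w₁)
    fun u hu => hkw.le ⟨u, hu, rfl⟩
  -- vectors killed by a contraction orthogonal to `w`
  have hkill : ∀ z₀, z₀ ≠ 0 → f w z₀ = 0 → ∀ t ∈ T, nW f k' z₀ t = 0 → t ∈ U := by
    intro z₀ hz₀ hwz₀ t ht ht0
    by_contra htU
    refine H.hng (mono_of_meet hM H.sc H.four H.IH H.hd H.hg H.hv (j := k') hz₀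
      ((T ⊓ U) ⊔ Submodule.span F {t})
      (sup_le inf_le_left ((Submodule.span_singleton_le_iff_mem _ _).2 ht)) ?_ fun X hX => ?_)
    · exact Submodule.finrank_lt_finrank_of_lt (lt_of_le_not_ge le_sup_left fun h =>
        htU (h (Submodule.mem_sup_right (Submodule.mem_span_singleton_self t))).2)
    · obtain ⟨p, hp, q, hq, rfl⟩ := Submodule.mem_sup.1 hX
      obtain ⟨r, rfl⟩ := Submodule.mem_span_singleton.1 hq
      rw [map_add, map_smul, nW_eq_zero hM hwz₀ hp.2, ht0, smul_zero, add_zero]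
      exact Submodule.zero_mem _
  -- a pure vector in the sum lies in the two members
  have hpure : ∀ (u : TV F m s) (d : Fin m → F) (X : TV F m (s + 1)), X ∈ U ⊔ U' → d ∉ E →
      (slot k').symm (pure u d) + X ∈ T ⊔ (U ⊔ U') → u = 0 := by
    intro u d X hX hdE hmem
    obtain ⟨z₀, hz₀E, hz₀, hdz₀⟩ : ∃ z₀, z₀ ∈ E ∧ z₀ ≠ 0 ∧ f d z₀ = 0 := by
      by_cases hdw : f d w = 0
      · exact ⟨w, hwE, H.hw, hdw⟩
      · refine ⟨-(f d w' / f d w) • w + w', E.add_mem (E.smul_mem _ hwE) hw'E,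
          fun h0 => hw'n (Submodule.mem_span_singleton.2 ⟨f d w' / f d w, ?_⟩), ?_⟩
        · rw [neg_smul, neg_add_eq_zero] at h0
          exact h0
        · rw [map_add, map_smul, smul_eq_mul]
          field_simp
          ring
    have hN0' : ∀ Z ∈ U ⊔ U', nW f k' z₀ Z = 0 := fun Z hZ => by
      obtain ⟨p, hp, q, hq, rfl⟩ := Submodule.mem_sup.1 hZ
      rw [map_add, nW_eq_zero hM (hEiso w hwE z₀ hz₀E) hp, nW_eq_zero hM (hEiso w' hw'E z₀ hz₀E) hq,
        add_zero]
    obtain ⟨t, ht, q, hq, htq⟩ := Submodule.mem_sup.1 hmem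
    have ht0 : nW f k' z₀ t = 0 := by
      have h1 := congrArg (nW f k' z₀) htq
      rwa [map_add, map_add, hN0' q hq, hN0' X hX, nW_apply k' z₀ ((slot k').symm _),
        LinearEquiv.apply_symm_apply, sctr_pure, hdz₀, zero_smul, pure_zero_l, map_zero, add_zero,
        add_zero] at h1
    have htU := hkill z₀ hz₀ (hEiso w hwE z₀ hz₀E) t ht ht0
    have h1 : (slot k').symm (pure u d) ∈ U ⊔ U' := by
      rw [eq_sub_of_add_eq htq.symm]
      exact Submodule.sub_mem _ (Submodule.add_mem _ (Submodule.mem_sup_left htU) hq) hX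
    funext i
    have h2' := rows_mem h1 i
    rw [LinearEquiv.apply_symm_apply, show (pure u d : Matrix _ _ F) i = u i • d from
      funext fun l => by simp [TensorMax.pure, vecMulVec_apply]] at h2'
    by_contra hi
    exact hdE ((Submodule.smul_mem_iff _ hi).1 h2')
  have hEmem : ∀ e ∈ E, ∀ u, (slot k').symm (pure u e) ∈ U ⊔ U' := fun e he u => by
    obtain ⟨p, q, rfl⟩ := Submodule.mem_span_pair.1 he
    rw [pure_add_r, pure_smul_r, pure_smul_r, map_add, map_smul, map_smul]
    exact Submodule.add_mem_sup (U.smul_mem p (symm_pure_mem k' u w))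
      (U'.smul_mem q (symm_pure_mem k' u w'))
  -- the first factor is a scalar
  have : Nonempty (Fin m) := ⟨⟨0, by omega⟩⟩
  obtain ⟨u₀, hu₀⟩ := exists_ne (0 : TV F m s)
  obtain ⟨χ, hχ⟩ := TensorMax.exists_dual hu₀
  set lam := χ ⬝ᵥ a (a u₀)
  have hb2 : ∀ e, lam • (b.val *ᵥ (b.val *ᵥ e)) = e := fun e => by
    have h1 : pure (a (a u₀)) (b.val *ᵥ (b.val *ᵥ e)) = pure u₀ e := by
      rw [← hab, ← hab, LinearEquiv.symm_apply_apply, hzzv, LinearEquiv.apply_symm_apply]
    have h3 := congrArg (fun X => χ ᵥ* X) h1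
    simp only [TensorMax.pure, vecMul_vecMulVec] at h3
    rwa [dotProduct_comm χ u₀, hχ, one_smul] at h3
  have hl0 : lam ≠ 0 := fun h0 => hd (by rw [← hb2 d, h0, zero_smul]; exact E.zero_mem)
  obtain ⟨μ, hμa⟩ : ∃ μ : F, ∀ u, μ • a u = u := by
    have eig : ∀ (e : Fin m → F) (μ : F), e ∉ E → b.val *ᵥ e - μ • e ∈ E → ∀ u, μ • a u = u := by
      intro e μ he hbe u
      refine sub_eq_zero.1 (hpure _ e _ (hEmem _ hbe (a u)) he ?_)
      convert hzmove ((slot k').symm (pure u e)) using 1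
      apply (slot k').injective
      rw [map_add, map_sub, LinearEquiv.apply_symm_apply, LinearEquiv.apply_symm_apply,
        LinearEquiv.apply_symm_apply, hab, pure_sub_l, pure_sub_r, pure_smul_l,
        pure_smul_r]
      abel
    obtain ⟨r, hr⟩ : ∃ r : F, r * r = lam⁻¹ := by
      have hchar : ringChar F = 2 := by
        have : CharP F 2 := CharTwo.of_one_ne_zero_of_two_eq_zero one_ne_zero h2
        exact ringChar.eq F 2
      obtain ⟨r, hr⟩ := FiniteField.isSquare_of_char_two hchar lam⁻¹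
      exact ⟨r, hr.symm⟩
    by_cases hd' : b.val *ᵥ d + r • d ∈ E
    · exact ⟨-r, eig d (-r) hd (by rwa [neg_smul, sub_neg_eq_add])⟩
    · refine ⟨r, eig _ r hd' ?_⟩
      have h1 : b.val *ᵥ (b.val *ᵥ d) = (r * r) • d := by
        rw [hr]; nth_rw 2 [← hb2 d]; rw [inv_smul_smul₀ hl0]
      rw [mulVec_add, mulVec_smul, h1,
        show (r * r) • d + r • b.val *ᵥ d - r • (b.val *ᵥ d + r • d) = 0 by module]
      exact E.zero_mem
  have hμ0 : μ ≠ 0 := fun h0 => hu₀ (by rw [← hμa u₀, h0, zero_smul])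
  set B : (Fin m → F) →ₗ[F] (Fin m → F) := μ⁻¹ • b.val.mulVecLin
  have hzB : ∀ u e, slot k' (z ((slot k').symm (pure u e))) = pure u (B e) := fun u e => by
    rw [hab]
    conv_rhs => rw [← hμa u]
    simp only [B, LinearMap.smul_apply, Matrix.mulVecLin_apply, pure_smul_l, pure_smul_r,
      smul_smul, inv_mul_cancel₀ hμ0, one_smul]
  have hBi := eq_mult_one hM hziso hzB
  have hBctr := sctr_right hM hziso hzB
  have hBB : ∀ e, B (B e) = e := fun e => by
    have h1 : pure u₀ (B (B e)) = pure u₀ e := by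
      rw [← hzB, ← hzB, LinearEquiv.symm_apply_apply, hzzv, LinearEquiv.apply_symm_apply]
    have h3 := congrArg (fun X => χ ᵥ* X) h1
    simp only [TensorMax.pure, vecMul_vecMulVec] at h3
    rwa [dotProduct_comm χ u₀, hχ, one_smul, one_smul] at h3
  set γ : (Fin m → F) →ₗ[F] (Fin m → F) := B - LinearMap.id with hγ
  have hγsym : ∀ e e', f (γ e) e' = f e (γ e') := fun e e' => by
    have hBsym : f (B e) e' = f e (B e') := by
      conv_lhs => rw [← hBB e', hBi]
    simp only [hγ, LinearMap.sub_apply, LinearMap.id_apply, map_sub, hBsym]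
  have hγE : ∀ e, γ e ∈ E := fun e => by
    by_contra he
    refine hu₀ (hpure u₀ (γ e) 0 (zero_mem _) he ?_)
    convert hzmove ((slot k').symm (pure u₀ e)) using 1
    apply (slot k').injective
    rw [add_zero, map_sub, LinearEquiv.apply_symm_apply, LinearEquiv.apply_symm_apply, hzB,
      ← pure_sub_r]
    rfl
  have hγw : γ w = 0 := by
    by_contra hne
    exact hne (hf.nd _ fun e => by rw [hγsym]; exact hEiso w hwE _ (hγE e))
  have hBw : B w = w := sub_eq_zero.1 hγw
  have hET : ∀ t ∈ T, z t - t ∈ U := fun t ht => by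
    refine H.backT (T.sub_mem (hzT t ht) ht) ?_
    have h1 := hBctr w t
    rw [hBw] at h1
    rw [nW_apply, map_sub, map_sub, h1, sub_self, pure_zero_l, map_zero]
    exact Submodule.zero_mem _
  have hγT : ∀ e, f w e = 0 → ∀ t ∈ T, sctr f (γ e) (slot k' t) = 0 := fun e he t ht => by
    have h1 := sctr_memb he (mem_smemb.1 (hET t ht))
    rw [map_sub, map_sub] at h1
    have h3 := hBctr (B e) t
    rw [hBB] at h3
    rw [h3] at h1
    rwa [hγ, LinearMap.sub_apply, LinearMap.id_apply, sctr_sub]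
  by_cases hγ0 : ∃ e, f w e = 0 ∧ γ e ≠ 0
  · obtain ⟨e, hwe, hne⟩ := hγ0
    refine hTU fun t ht => hkill (γ e) hne
      (hEiso w hwE _ (hγE e)) t ht ?_
    rw [nW_apply, hγT e hwe t ht, pure_zero_l, map_zero]
  push Not at hγ0
  -- a root element
  obtain ⟨e₀, he₀w⟩ := exists_partner hf H.hw
  obtain ⟨l, hl⟩ : ∃ l : F, γ e₀ = l • w := by
    by_contra! hne
    obtain ⟨e, he, hee⟩ := exists_sep hf (w := w) (z := γ e₀) (fun hm => by
      obtain ⟨l, hl⟩ := Submodule.mem_span_singleton.1 hm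
      exact hne l hl.symm)
    rw [← hγsym, hγ0 e (orth_comm hf he), map_zero, LinearMap.zero_apply] at hee
    exact zero_ne_one hee
  have hγe : ∀ e, γ e = (l * f e w) • w := fun e => by
    have h1 := hγ0 (e - f e w • e₀) (by
      refine orth_comm hf ?_
      simp [he₀w])
    rw [map_sub, map_smul, hl, sub_eq_zero, smul_smul] at h1
    rw [h1, mul_comm]
  have hzR : ∀ X, z X = X + l • N X := fun X => by
    suffices hlin : z.toLinearMap = LinearMap.id + l • N from LinearMap.congr_fun hlin X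
    refine linearMap_ext_pv fun p => ?_
    rw [← (slot k').symm_apply_apply (pv p), slot_pv]
    simp only [LinearEquiv.coe_coe, LinearMap.add_apply, LinearMap.id_apply, LinearMap.smul_apply]
    apply (slot k').injective
    rw [hzB, map_add, LinearEquiv.apply_symm_apply, map_smul, hN, nW_apply,
      LinearEquiv.apply_symm_apply, LinearEquiv.apply_symm_apply, sctr_pure, pure_smul_l,
      ← pure_smul_r, ← pure_smul_r, smul_smul, ← pure_add_r, ← hγe]
    simp [hγ]
  have hl0' : l ≠ 0 := fun h0 => hz1 (LinearEquiv.ext fun X => by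
    rw [hzR, h0, zero_smul, add_zero]; rfl)
  refine hTU fun t ht => H.backT ht ?_
  have h1 := T.sub_mem (hzT t ht) ht
  rw [hzR, add_sub_cancel_left] at h1
  exact (T.smul_mem_iff hl0').1 h1

end Pos

private lemma arith (a b c i : ℕ) (h : a ≤ b + (i + 1)) (h' : b < c) : a ≤ c + i := by omega

/-- In characteristic two all elements of a group with only scalar coefficients are monomial. -/
theorem mono_all_two (h2 : (2 : F) = 0) :
    ∀ (s : ℕ) (M : Subgroup (TV F m (s + 1) ≃ₗ[F] TV F m (s + 1))),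
      FBase f M → OnlyScal f M → ∀ g ∈ M, g ∈ monoGroup F m (s + 1) := by
  intro s
  induction s with
  | zero => exact fun _ _ _ g _ => mem_mono_one g
  | succ s ih =>
    intro M hM hsc g hg
    have hk : 4 ≤ m := by
      rcases hM.small with ⟨-, h, -⟩ | ⟨h, -⟩
      · exact absurd h2 h
      · exact h
    have hIH : ∀ k, ∀ a ∈ WreathTensor14.factor M k, a ∈ monoGroup F m (s + 1) := fun k =>
      ih _ (hM.factor k) (OnlyScal.factor hM hsc k)
    have hw : (Pi.single (⟨0, by omega⟩ : Fin m) (1 : F) : Fin m → F) ≠ 0 := by simp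
    suffices key : ∀ i, ∀ g' ∈ M, ∀ (k : Fin (s + 2)) (v : Fin m → F) (j : Fin (s + 2))
        (w : Fin m → F), v ≠ 0 → w ≠ 0 →
        m ^ (s + 1) ≤ finrank F
          ↥((smemb k v).map (g' : TV F m (s + 2) ≃ₗ[F] TV F m (s + 2)).toLinearMap ⊓ smemb j w) + i →
        g' ∈ monoGroup F m (s + 2) from
      key (m ^ (s + 1)) g hg 0 _ 0 _ hw hw (Nat.le_add_left _ _)
    intro i
    induction i with
    | zero =>
      intro g' hg' k v j w hv hw hle
      refine mono_of_member (i₀ := k) (j := j) hM hsc hk hIH hg' hv hw fun x hx => ?_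
      have heq : (smemb k v).map g'.toLinearMap ⊓ smemb j w = (smemb k v).map g'.toLinearMap :=
        Submodule.eq_of_le_of_finrank_le inf_le_left
          (by rw [LinearEquiv.finrank_map_eq, finrank_smemb _ hv]; omega)
      exact (inf_eq_left.1 heq) ⟨x, hx, rfl⟩
    | succ i ihi =>
      intro g' hg' k v j w hv hw hle
      by_contra hng
      exact Pos.false_of_two (f := f) ⟨hM, hsc, hk, hIH, hg', hng, hv, hw,
        fun g'' hg'' k' v' j' w' h1 h2 h3 =>
          ihi g'' hg'' k' v' j' w' h1 h2 (arith _ _ _ i hle h3)⟩ h2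

end CfsgLib.OPlusWreath94
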