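import Cfsg.Agent.OPlusWreath94.Base
import Cfsg.Agent.OPlusWreath94.Descent

/-!
Overgroups inside orthogonal groups satisfy the hypotheses of the only-scalar half.
-/

set_option autoImplicit false

namespace CfsgLib.OPlusWreath94

open CfsgLib.WreathTensor14 (TV monoGroup)
open CfsgLib.SympWreath17 (tform OnlyScal)

variable {F : Type*} [Field F] {k t : ℕ} {f : LinearMap.BilinForm F (Fin k → F)}
  {Q : TV F k t → F} {M : Subgroup (TV F k t ≃ₗ[F] TV F k t)}

lemma OBase.fbase (hM : OBase f Q M) : FBase f M where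
  symp := hM.symp
  small := hM.small
  sim := fun g hg => ⟨1, fun u v => by rw [one_mul, hM.form hg]⟩
  kron_mem := hM.kron_mem
  perm_mem := hM.perm_mem

/-- The only-scalar half in characteristic two. -/
theorem mono_all_char_two [Finite F] {s : ℕ} {Q : TV F k (s + 1) → F}
    {M : Subgroup (TV F k (s + 1) ≃ₗ[F] TV F k (s + 1))} (h2 : (2 : F) = 0) (hM : OBase f Q M)
    (hsc : OnlyScal f M) : ∀ g ∈ M, g ∈ monoGroup F k (s + 1) :=
  mono_all_two h2 s M hM.fbase hsc

end CfsgLib.OPlusWreath94
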