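import Cfsg.Agent.OPlusWreath94.Transport
import Cfsg.Agent.OPlusWreath94.Bridge
import Cfsg.Agent.SympWreath17.Slot

/-!
The orthogonal tensor wreath stabiliser is maximal, given the only-scalar half in odd characteristic.
-/

set_option autoImplicit false
set_option linter.unusedSectionVars false

namespace CfsgLib.OPlusWreath94

open CfsgLib.WreathTensor14 (TV monoGroup)
open CfsgLib.SympWreath17 (OnlyScal WBase)

variable {F : Type*} [Field F] {k t : ℕ} {f : LinearMap.BilinForm F (Fin k → F)}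
  {Q : TV F k t → F} {M : Subgroup (TV F k t ≃ₗ[F] TV F k t)}

lemma OBase.wbase (hM : OBase f Q M) (h2 : (2 : F) ≠ 0) : WBase f M where
  symp := hM.symp
  two := h2
  small := hM.small.imp (fun h => ⟨h.1, h.2.2⟩) And.left
  sim := fun g hg => ⟨1, one_ne_zero, fun u v => by rw [one_mul, hM.form hg]⟩
  kron_mem := hM.kron_mem
  perm_mem := hM.perm_mem

/-- The stabiliser is maximal in `Ω`, given that similitude groups in odd characteristic with only
scalar coefficients are monomial. -/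
theorem isMaximalIn_of_mono_odd [Fintype F] {n : ℕ} (hn : 13 ≤ n) (heven : Even n) {Q : (Fin n → F) → F}
    (hQ : Cfsg.Geo.IsNondegenerateQuadraticForm Q) (ht : 2 ≤ t)
    (hqt : Odd (Fintype.card F) → Even t) (hex1 : ¬ (Fintype.card F = 2 ∧ k = 2))
    (hex2 : ¬ (Fintype.card F = 3 ∧ k = 2)) (hex3 : ¬ Odd (Fintype.card F) → 6 ≤ k)
    (hodd : ∀ (s : ℕ) (f : LinearMap.BilinForm F (Fin k → F))
      (M : Subgroup (TV F k (s + 1) ≃ₗ[F] TV F k (s + 1))),
      WBase f M → OnlyScal f M → ∀ g ∈ M, g ∈ monoGroup F k (s + 1))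
    (e : Fin n ≃ (Fin t → Fin k)) (P : Matrix.GeneralLinearGroup (Fin n) F)
    {f₁ : (Fin k → F) → (Fin k → F) → F} (hf₁ : Cfsg.Geo.IsSymplecticForm f₁)
    (hT : Cfsg.Geo.IsTensorPowerFormStructure id (QuadraticMap.polar Q) f₁ e P)
    (hpure : ∀ xs : Fin t → (Fin k → F), Q (Matrix.mulVec (P : Matrix (Fin n) (Fin n) F)
      ((fun a : Fin t → Fin k => ∏ i, xs i (a i)) ∘ e)) = 0) :
    Cfsg.Geo.IsMaximalIn (Cfsg.Geo.omegaGL Q)
      (Cfsg.Geo.tensorWreathSubgroup k t e P ⊓ Cfsg.Geo.omegaGL Q) := by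
  obtain ⟨s, rfl⟩ : ∃ s, t = s + 1 := ⟨t - 1, by omega⟩
  refine isMaximalIn_of_mono hn heven hQ (by omega) hqt hex1 hex2 hex3 (fun f Q' M hM hsc => ?_) e P hf₁ hT hpure
  by_cases h2 : (2 : F) = 0
  · exact mono_all_char_two h2 hM hsc
  · exact hodd s f M (hM.wbase h2) hsc

end CfsgLib.OPlusWreath94
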