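import Cfsg.Agent.SympWreath17.Basic

/-!
Groups of isometries of the quadratic form of a tensor power of an alternating form that contain the
products of isometries of the factors and the permutations of order dividing three.
-/

set_option autoImplicit false

namespace CfsgLib.OPlusWreath94

open Matrix
open CfsgLib.WreathTensor14 (TV pv kronE permE)
open CfsgLib.SympWreath17 (IsSymp Isom tform)

variable {F : Type*} [Field F] {k t : ℕ}

/-- An overgroup of the tensor wreath product inside an orthogonal group, in tensor coordinates. -/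
structure OBase (f : LinearMap.BilinForm F (Fin k → F)) (Q : TV F k t → F)
    (M : Subgroup (TV F k t ≃ₗ[F] TV F k t)) : Prop where
  symp : IsSymp f
  even_t : (2 : F) ≠ 0 → Even t
  small : (k = 2 ∧ (2 : F) ≠ 0 ∧ ∃ r : F, r ≠ 0 ∧ r ^ 2 ≠ 1) ∨
    (4 ≤ k ∧ ((2 : F) = 0 → 6 ≤ k))
  q_add : ∀ u v, Q (u + v) = Q u + Q v + tform f t u v
  q_pure : ∀ x, Q (pv x) = 0
  iso : ∀ g ∈ M, ∀ v, Q (g v) = Q v
  kron_mem : ∀ gs : Fin t → GL (Fin k) F, (∀ i, Isom f (gs i)) → kronE gs ∈ M
  perm_mem : ∀ σ : Equiv.Perm (Fin t), σ ^ 3 = 1 → permE σ ∈ M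

namespace OBase

variable {f : LinearMap.BilinForm F (Fin k → F)} {Q : TV F k t → F}
  {M : Subgroup (TV F k t ≃ₗ[F] TV F k t)}

lemma two_le (hM : OBase f Q M) : 2 ≤ k := by
  rcases hM.small with ⟨h, -⟩ | ⟨h, -⟩ <;> omega

lemma form (hM : OBase f Q M) {g : TV F k t ≃ₗ[F] TV F k t} (hg : g ∈ M) (u v : TV F k t) :
    tform f t (g u) (g v) = tform f t u v := by
  have := hM.q_add (g u) (g v)
  rw [← map_add, hM.iso g hg, hM.iso g hg, hM.iso g hg, hM.q_add] at this
  exact (add_left_cancel this).symm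

end OBase

end CfsgLib.OPlusWreath94
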