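import Cfsg.Agent.OPlusWreath94.Prelim

/-!
The products of isometries of the factors act irreducibly, and a map respecting the orthogonal
pairs of every factor is scalar.
-/

set_option autoImplicit false
set_option linter.unusedSectionVars false

namespace CfsgLib.OPlusWreath94

open Matrix Module Function
open CfsgLib.TensorMax (pure memb mem_memb pure_mem_memb pureL pureL_apply)
open CfsgLib.WreathTensor14 (TV pv slot slot_apply slot_symm_apply slotConj slotConj_apply kronE
  kronE_insertNth_one kronE_insertNth_left smemb symm_pure_mem)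
open CfsgLib.SympWreath17 (IsSymp Isom isom_one sctr sctr_pure exists_transvection)

variable {F : Type*} [Field F] {k t s : ℕ} {f : LinearMap.BilinForm F (Fin k → F)}

/-- The nilpotent map of the transvections at `a` in the factor `i`. -/
def nW (f : LinearMap.BilinForm F (Fin k → F)) (i : Fin (s + 1)) (a : Fin k → F) :
    TV F k (s + 1) →ₗ[F] TV F k (s + 1) :=
  WreathTensor14.rootV i a (SympWreath17.sdual f a)

lemma nW_apply (i : Fin (s + 1)) (a : Fin k → F) (x : TV F k (s + 1)) :
    nW f i a x = (slot i).symm (pure (sctr f a (slot i x)) a) :=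
  WreathTensor14.rootV_apply _ _ _ _

lemma nW_pure (i : Fin (s + 1)) (a : Fin k → F) (u : TV F k s) (z : Fin k → F) :
    nW f i a ((slot i).symm (pure u z)) = f z a • (slot i).symm (pure u a) := by
  rw [nW_apply, LinearEquiv.apply_symm_apply, sctr_pure, pure_smul_l, map_smul]

/-- Two linear maps on tensors agree if they agree on vectors split at one factor. -/
lemma ext_slot {W : Type*} [AddCommMonoid W] [Module F W] (i : Fin (s + 1))
    {A B : TV F k (s + 1) →ₗ[F] W}
    (h : ∀ u z, A ((slot i).symm (pure u z)) = B ((slot i).symm (pure u z))) : A = B := by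
  have h1 : A ∘ₗ (slot i).symm.toLinearMap = B ∘ₗ (slot i).symm.toLinearMap :=
    linearMap_ext_pure h
  refine LinearMap.ext fun x => ?_
  have := LinearMap.congr_fun h1 (slot i x)
  simpa using this

/-- An isometry in one factor. -/
def slotElem (i : Fin (s + 1)) (g : GL (Fin k) F) : TV F k (s + 1) ≃ₗ[F] TV F k (s + 1) :=
  kronE (Fin.insertNth (α := fun _ => GL (Fin k) F) i g 1)

lemma slotElem_pure (i : Fin (s + 1)) (g : GL (Fin k) F) (u : TV F k s) (z : Fin k → F) :
    slotElem i g ((slot i).symm (pure u z)) = (slot i).symm (pure u (g.val *ᵥ z)) := by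
  apply (slot i).injective
  rw [← slotConj_apply, slotElem, kronE_insertNth_one, pure_mul_transpose,
    LinearEquiv.apply_symm_apply]

lemma slotElem_isom (i : Fin (s + 1)) {g : GL (Fin k) F} (hg : Isom f g) (l : Fin (s + 1)) :
    Isom f ((Fin.insertNth (α := fun _ => GL (Fin k) F) i g 1) l) := by
  rcases Fin.eq_self_or_eq_succAbove i l with rfl | ⟨j, rfl⟩
  · simpa using hg
  · simpa using isom_one f

/-- An isometry in the other factors. -/
lemma restElem_pure (i : Fin (s + 1)) (gs : Fin s → GL (Fin k) F) (u : TV F k s) (z : Fin k → F) :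
    kronE (Fin.insertNth (α := fun _ => GL (Fin k) F) i 1 gs) ((slot i).symm (pure u z))
      = (slot i).symm (pure (kronE gs u) z) := by
  apply (slot i).injective
  rw [← slotConj_apply, kronE_insertNth_left, LinearEquiv.apply_symm_apply, TensorMax.pure,
    mul_vecMulVec]
  rfl

lemma restElem_isom (i : Fin (s + 1)) {gs : Fin s → GL (Fin k) F} (hg : ∀ l, Isom f (gs l))
    (l : Fin (s + 1)) : Isom f ((Fin.insertNth (α := fun _ => GL (Fin k) F) i 1 gs) l) := by
  rcases Fin.eq_self_or_eq_succAbove i l with rfl | ⟨j, rfl⟩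
  · simpa using isom_one f
  · simpa using hg j

/-- The transvections of a factor. -/
lemma exists_slot_transvection (hf : IsSymp f) (i : Fin (s + 1)) (c : F) (a : Fin k → F) :
    ∃ g : GL (Fin k) F, Isom f g ∧ ∀ x, slotElem i g x = x + c • nW f i a x := by
  obtain ⟨g, hg, -, hz, -⟩ := exists_transvection hf c a
  refine ⟨g, hg, fun x => ?_⟩
  suffices h : (slotElem i g).toLinearMap = LinearMap.id + c • nW f i a from LinearMap.congr_fun h x
  refine ext_slot i fun u z => ?_
  rw [LinearEquiv.coe_coe, slotElem_pure, hz, LinearMap.add_apply, LinearMap.id_apply,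
    LinearMap.smul_apply, nW_pure, pure_add_r, pure_smul_r, map_add, map_smul, smul_smul]

/-- A subspace invariant under the products of isometries of the factors is trivial. -/
theorem eq_top_of_invariant (hf : IsSymp f) : ∀ (t : ℕ) (W : Submodule F (TV F k t)),
    (∀ gs : Fin t → GL (Fin k) F, (∀ i, Isom f (gs i)) → ∀ x ∈ W, kronE gs x ∈ W) →
    W ≠ ⊥ → W = ⊤ := by
  intro t
  induction t with
  | zero =>
    intro W _ hne
    refine Submodule.eq_top_of_finrank_eq ?_
    have h1 : 0 < finrank F W := by
      rw [Nat.pos_iff_ne_zero]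
      exact fun h => hne (Submodule.finrank_eq_zero.1 h)
    have h2 := Submodule.finrank_le W
    simp only [finrank_pi, Fintype.card_fun, Fintype.card_fin, pow_zero] at h2 ⊢
    omega
  | succ s ih =>
    intro W hinv hne
    obtain ⟨v, hv, hv0⟩ := Submodule.exists_mem_ne_zero_of_ne_bot hne
    have hmv : ∀ (c : F) a, ∀ x ∈ W, c • nW f 0 a x ∈ W := fun c a x hx => by
      obtain ⟨g, hg, hgx⟩ := exists_slot_transvection hf 0 c a
      have := W.sub_mem (hinv _ (slotElem_isom 0 hg) x hx) hx
      rwa [show kronE _ x = _ from hgx x, add_sub_cancel_left] at this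
    obtain ⟨a, ha⟩ : ∃ a, sctr f a (slot 0 v) ≠ 0 := by
      by_contra! h
      exact hv0 ((slot 0).map_eq_zero_iff.1 (sctr_ext hf h))
    let Wa : Submodule F (TV F k s) := W.comap ((slot 0).symm.toLinearMap ∘ₗ pureL a)
    have hWa : Wa = ⊤ := by
      refine ih Wa (fun gs hgs x hx => ?_) fun h => ha ?_
      · simp only [Wa, Submodule.mem_comap, LinearMap.comp_apply, LinearEquiv.coe_coe,
          pureL_apply] at hx ⊢
        rw [← restElem_pure]
        exact hinv _ (restElem_isom 0 hgs) _ hx
      · refine (Submodule.mem_bot F).1 (h ▸ ?_)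
        simpa [Wa, nW_apply] using hmv 1 a v hv
    have hal : ∀ u, (slot 0).symm (pure u a) ∈ W := fun u =>
      (hWa.ge (Submodule.mem_top (x := u)) : _)
    have step : ∀ b, f a b ≠ 0 → ∀ u, (slot 0).symm (pure u b) ∈ W := fun b hb u => by
      have := hmv (f a b)⁻¹ b _ (hal u)
      rwa [nW_pure, smul_smul, inv_mul_cancel₀ hb, one_smul] at this
    have hall : ∀ b u, (slot 0).symm (pure u b) ∈ W := by
      intro b u
      by_cases hb : f a b = 0
      · have ha0 : a ≠ 0 := by
          rintro rfl
          exact ha (by simp)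
        obtain ⟨e, he⟩ := hf.exists_one ha0
        have h1 := W.sub_mem (step (b + e) (by rw [map_add, hb, zero_add, he]; exact one_ne_zero) u)
          (step e (by rw [he]; exact one_ne_zero) u)
        rwa [← map_sub, ← pure_sub_r, add_sub_cancel_right] at h1
      · exact step b hb u
    refine eq_top_iff.2 fun x _ => ?_
    rw [← (slot 0).symm_apply_apply x, eq_sum_rows (slot 0 x), map_sum]
    exact W.sum_mem fun i _ => hall _ _

lemma slot_single (i : Fin (s + 1)) (q : Fin (s + 1) → Fin k) :
    slot i (Pi.single q (1 : F))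
      = pure (Pi.single (Fin.removeNth i q) 1) (Pi.single (q i) 1) := by
  ext r a
  rw [slot_apply, TensorMax.pure, vecMulVec_apply]
  by_cases h : Fin.insertNth (α := fun _ => Fin k) i a r = q
  · subst h
    simp
  · rw [Pi.single_eq_of_ne h]
    by_cases hr : r = Fin.removeNth i q
    · subst hr
      have : a ≠ q i := fun h' => h (by subst h'; simp)
      rw [Pi.single_eq_of_ne this, mul_zero]
    · rw [Pi.single_eq_of_ne hr, zero_mul]

/-- A map that keeps every orthogonal pair of every factor apart is scalar. -/
theorem scalar_of_orth (hf : IsSymp f) (φ : TV F k (s + 1) →ₗ[F] TV F k (s + 1))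
    (h : ∀ (i : Fin (s + 1)) a c, f a c = 0 → ∀ u,
      sctr f a (slot i (φ ((slot i).symm (pure u c)))) = 0) :
    ∃ d : F, φ = d • LinearMap.id := by
  classical
  have hmem : ∀ i u (c : Fin k → F), c ≠ 0 →
      slot i (φ ((slot i).symm (pure u c))) ∈ memb c := fun i u c hc =>
    mem_memb_of_sctr hf hc fun a ha => h i a c ha u
  set D := fun q : Fin (s + 1) → Fin k => φ (Pi.single q 1) q
  have hne : ∀ j : Fin k, (Pi.single j 1 : Fin k → F) ≠ 0 := fun j => by simp
  have col : ∀ i q, slot i (φ (Pi.single q 1)) ∈ memb (Pi.single (q i) (1 : F)) := fun i q => by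
    have := hmem i (Pi.single (Fin.removeNth i q) 1) _ (hne (q i))
    rwa [← slot_single, LinearEquiv.symm_apply_apply] at this
  have hoff : ∀ q p, p ≠ q → φ (Pi.single q 1) p = 0 := by
    intro q p hpq
    obtain ⟨i, hi⟩ := Function.ne_iff.1 hpq
    obtain ⟨u, hu⟩ := mem_memb.1 (col i q)
    have := congrFun (congrFun hu.symm (Fin.removeNth i p)) (p i)
    rw [slot_apply, TensorMax.pure, vecMulVec_apply, Pi.single_eq_of_ne hi, mul_zero,
      Fin.insertNth_self_removeNth] at this
    exact this
  have hdiag : ∀ q, φ (Pi.single q 1) = D q • Pi.single q 1 := fun q => funext fun p => by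
    rcases eq_or_ne p q with rfl | hpq
    · simp [D]
    · rw [hoff q p hpq, Pi.smul_apply, Pi.single_eq_of_ne hpq, smul_zero]
  have hadj : ∀ i (q : Fin (s + 1) → Fin k) b, D (update q i b) = D q := by
    intro i q b
    rcases eq_or_ne b (q i) with rfl | hb
    · simp
    set r := Fin.removeNth i q
    have hr : Fin.removeNth i (update q i b) = r := Fin.removeNth_update ..
    have h0 : (Pi.single (q i) (1 : F) + Pi.single b (1 : F) : Fin k → F) ≠ 0 := fun h0 => by
      have := congrFun h0 b
      simp [hb] at this
    obtain ⟨u, hu⟩ := mem_memb.1 (hmem i (Pi.single r (1 : F)) _ h0)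
    have e1 : (slot i).symm (pure (Pi.single r (1 : F)) (Pi.single (q i) (1 : F) + Pi.single b (1 : F)))
        = Pi.single q (1 : F) + Pi.single (update q i b) 1 := by
      rw [LinearEquiv.symm_apply_eq, map_add, slot_single, slot_single, update_self, hr, pure_add_r]
    rw [e1, map_add, hdiag, hdiag, map_add, map_smul, map_smul, slot_single, slot_single,
      update_self, hr] at hu
    have h1 := congrFun (congrFun hu r) (q i)
    have h2 := congrFun (congrFun hu r) b
    simp [TensorMax.pure, vecMulVec_apply, hb, Ne.symm hb, show Fin.removeNth i q = r from rfl] at h1 h2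
    exact h2.symm.trans h1
  have hall : ∀ (T : Finset (Fin (s + 1))) (p q : Fin (s + 1) → Fin k),
      (∀ i ∉ T, p i = q i) → D p = D q := by
    intro T
    induction T using Finset.induction with
    | empty => intro p q hpq; rw [funext fun i => hpq i (Finset.notMem_empty i)]
    | insert i T _ ih =>
      intro p q hpq
      rw [← hadj i q (p i)]
      refine ih _ _ fun l hl => ?_
      rcases eq_or_ne l i with rfl | hli
      · simp
      · rw [update_of_ne hli]; exact hpq l (by simp [hl, hli])
  rcases isEmpty_or_nonempty (Fin (s + 1) → Fin k) with he | ⟨⟨q₀⟩⟩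
  · exact ⟨0, LinearMap.ext fun x => funext fun p => he.elim p⟩
  refine ⟨D q₀, LinearMap.pi_ext' fun q => LinearMap.ext_ring ?_⟩
  simp [hdiag, hall Finset.univ q q₀ (by simp)]

/-- A map commuting with all transvections of the factors is scalar. -/
theorem scalar_of_comm (hf : IsSymp f) (φ : TV F k (s + 1) →ₗ[F] TV F k (s + 1))
    (h : ∀ (i : Fin (s + 1)) a, a ≠ 0 → φ ∘ₗ nW f i a = nW f i a ∘ₗ φ) :
    ∃ d : F, φ = d • LinearMap.id :=
  scalar_of_orth hf φ fun i a c hac u => by
    rcases eq_or_ne a 0 with rfl | ha
    · simp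
    have := LinearMap.congr_fun (h i a ha) ((slot i).symm (pure u c))
    rw [LinearMap.comp_apply, LinearMap.comp_apply, nW_pure, orth_comm hf hac, zero_smul, map_zero,
      nW_apply, eq_comm, LinearEquiv.map_eq_zero_iff, TensorMax.pure_eq_zero_iff ha] at this
    exact this

end CfsgLib.OPlusWreath94
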