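import Cfsg.Agent.OPlusWreath94.Preserve
import Cfsg.Agent.OPlusWreath94.Commutant
import Cfsg.Agent.WreathTensor14.Rigid

/-!
The group induced on a tensor factor, and elements carrying a member to a member.
-/

set_option autoImplicit false
set_option linter.unusedSectionVars false

namespace CfsgLib.OPlusWreath94

open Matrix Module
open CfsgLib.TensorMax (InM pure pure_mulVec memb mem_memb pure_mem_memb)
open CfsgLib.WreathTensor14 (TV pv slot slot_pv slotGroup slotConj slotConj_apply kronE permE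
  permE_pv InV inM_slotGroup_iff linearMap_ext_pv monoGroup mono_of_split mem_mono_one
  permE_mem_mono smemb symm_pure_mem symm_pure_swap extPerm extPerm_cube kronE_insertNth_left
  kronE_insertNth_one permE_smemb slot_pv_insertNth)
open CfsgLib.SympWreath17 (IsSymp Isom tform tform_slot OnlyScal sctr sctr_pure sroot sroot_apply sphi
  sphi_pure_pure)

variable {F : Type*} [Field F] [Finite F] {k s : ℕ}
  {f : LinearMap.BilinForm F (Fin k → F)}
  {M : Subgroup (TV F k (s + 1) ≃ₗ[F] TV F k (s + 1))}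

lemma pow_eq_one_char {p : ℕ} [CharP F p] (hp : p.Prime) {e : ℕ} {x : F} (h : x ^ p ^ e = 1) :
    x = 1 := by
  have := Fact.mk hp
  have h1 : (x - 1) ^ p ^ e = 0 := by rw [sub_pow_char_pow, h, one_pow, sub_self]
  exact sub_eq_zero.1 ((pow_eq_zero_iff (pow_ne_zero _ hp.ne_zero)).1 h1)

lemma exists_unit_pair (hM : FBase f M) : ∃ x y : Fin k → F, f x y = 1 := by
  have := hM.two_le
  obtain ⟨y, hy⟩ := hM.symp.exists_one (x := Pi.single (⟨0, by omega⟩ : Fin k) (1 : F)) (by simp)
  exact ⟨_, y, hy⟩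

lemma exists_tform_ne_zero (hf : IsSymp f) (hk : 0 < k) (t : ℕ) :
    ∃ u v : TV F k t, tform f t u v ≠ 0 := by
  have : Nonempty (Fin k) := ⟨⟨0, hk⟩⟩
  obtain ⟨u, hu⟩ := exists_ne (0 : TV F k t)
  by_contra! h
  exact hu ((tform_nd hf t).1 u (h u))

/-- The multiplier of an element of `M` is not zero. -/
lemma exists_mult (hM : FBase f M) {g : TV F k (s + 1) ≃ₗ[F] TV F k (s + 1)} (hg : g ∈ M) :
    ∃ c : F, c ≠ 0 ∧ ∀ u v, tform f (s + 1) (g u) (g v) = c * tform f (s + 1) u v := by
  obtain ⟨c, hc⟩ := hM.sim g hg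
  refine ⟨c, fun h0 => ?_, hc⟩
  obtain ⟨u, v, huv⟩ := exists_tform_ne_zero (t := s + 1) hM.symp (by have := hM.two_le; omega)
  have h := hc (g.symm u) (g.symm v)
  rw [g.apply_symm_apply, g.apply_symm_apply, h0, zero_mul] at h
  exact huv h

/-- A split element scales both factors. -/
lemma split_sim (hM : FBase f M) {g : TV F k (s + 1) ≃ₗ[F] TV F k (s + 1)} (hg : g ∈ M)
    {i : Fin (s + 1)} {a : TV F k s ≃ₗ[F] TV F k s} {b : GL (Fin k) F}
    (hab : ∀ u w, slotConj i g (pure u w) = pure (a u) (b.val *ᵥ w)) :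
    ∃ μ d : F, μ ≠ 0 ∧ (∀ u v, tform f s (a u) (a v) = μ * tform f s u v) ∧
      ∀ y z, f (b.val *ᵥ y) (b.val *ᵥ z) = d * f y z := by
  obtain ⟨c, hc0, hc⟩ := exists_mult hM hg
  have key : ∀ u v y z, f (b.val *ᵥ y) (b.val *ᵥ z) * tform f s (a u) (a v)
      = c * (f y z * tform f s u v) := fun u v y z => by
    have h := hc ((slot i).symm (pure u y)) ((slot i).symm (pure v z))
    simp only [← tform_slot (f := f) i, LinearEquiv.apply_symm_apply] at h
    rw [← sphi_pure_pure, ← sphi_pure_pure, ← hab, ← hab]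
    exact h
  obtain ⟨y₀, z₀, hz₀⟩ := exists_unit_pair hM
  obtain ⟨u₀, v₀, huv⟩ := exists_tform_ne_zero (t := s) hM.symp (by have := hM.two_le; omega)
  have h0 := key u₀ v₀ y₀ z₀
  rw [hz₀, one_mul] at h0
  have hne := mul_ne_zero hc0 huv
  rw [← h0] at hne
  refine ⟨c / f (b.val *ᵥ y₀) (b.val *ᵥ z₀), c * tform f s u₀ v₀ / tform f s (a u₀) (a v₀),
    div_ne_zero hc0 (left_ne_zero_of_mul hne), fun u v => ?_, fun y z => ?_⟩
  · have h := key u v y₀ z₀
    rw [hz₀, one_mul] at h
    rw [div_mul_eq_mul_div, eq_div_iff (left_ne_zero_of_mul hne), mul_comm, h]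
  · have h := key u₀ v₀ y z
    rw [div_mul_eq_mul_div, eq_div_iff (right_ne_zero_of_mul hne), h]
    ring

/-- The induced group satisfies the hypotheses. -/
lemma FBase.factor (hM : FBase f M) (i : Fin (s + 1)) :
    FBase f (WreathTensor14.factor M i) where
  symp := hM.symp
  small := hM.small
  sim := by
    rintro a ⟨g, hg, b, hab⟩
    obtain ⟨μ, -, -, hμ, -⟩ := split_sim hM hg hab
    exact ⟨μ, hμ⟩
  kron_mem gs hgs := by
    refine ⟨kronE (Fin.insertNth (α := fun _ => GL (Fin k) F) i 1 gs),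
      hM.kron_mem _ (restElem_isom i hgs), 1, fun u w => ?_⟩
    rw [kronE_insertNth_left, TensorMax.pure, mul_vecMulVec, Units.val_one, one_mulVec]
    rfl
  perm_mem σ hσ := by
    refine ⟨permE (extPerm i i σ), hM.perm_mem _ (extPerm_cube i hσ), 1, fun u w => ?_⟩
    have : (slotConj i (permE (extPerm i i σ))).toLinearMap ∘ₗ TensorMax.pureL w
        = TensorMax.pureL w ∘ₗ (permE (F := F) (m := k) σ).toLinearMap := by
      refine linearMap_ext_pv fun x => ?_
      simp only [LinearMap.comp_apply, LinearEquiv.coe_coe, TensorMax.pureL_apply, slotConj_apply,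
        permE_pv]
      rw [← slot_pv_insertNth i w x, LinearEquiv.symm_apply_apply, permE_pv, slot_pv]
      have hk : (extPerm i i σ)⁻¹ i = i := by rw [Equiv.Perm.inv_eq_iff_eq]; simp
      congr 1
      · congr 1
        funext l
        have hi : (extPerm i i σ)⁻¹ (i.succAbove l) = i.succAbove (σ⁻¹ l) := by
          rw [Equiv.Perm.inv_eq_iff_eq]; simp
        rw [Fin.removeNth_apply, hi]
        simp
      · simp [hk]
    rw [Units.val_one, one_mulVec]
    exact LinearMap.congr_fun this u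


set_option maxHeartbeats 800000 in
/-- The induced group has only scalar coefficients. -/
theorem OnlyScal.factor {M : Subgroup (TV F k (s + 2) ≃ₗ[F] TV F k (s + 2))} (hM : FBase f M)
    (hsc : OnlyScal f M) (i₀ : Fin (s + 2)) : OnlyScal f (WreathTensor14.factor M i₀) := by
  intro l θ w hw hθ
  have hf := hM.symp
  obtain ⟨a, ⟨g, hg, b, hgb⟩, hav⟩ := inM_slotGroup_iff.1 hθ
  set N := (slot l).symm.toLinearMap ∘ₗ sroot f θ w ∘ₗ (slot l).toLinearMap with hN
  have hNN : ∀ y, N (N y) = 0 := fun y => by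
    simp only [hN, LinearMap.comp_apply, LinearEquiv.coe_coe, LinearEquiv.apply_symm_apply,
      sroot_sq hf, map_zero]
  have hapow : ∀ (n : ℕ) y, (a ^ n) y = y + (n : F) • N y := by
    intro n
    induction n with
    | zero => intro y; simp
    | succ n ih =>
      intro y
      rw [pow_succ, LinearEquiv.mul_apply, ih, hav, map_add, hNN, add_zero, Nat.cast_succ, add_smul,
        one_smul]
      abel
  have hpow : ∀ (n : ℕ) u z, slotConj i₀ (g ^ n) (pure u z)
      = pure ((a ^ n) u) ((b ^ n).val *ᵥ z) := by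
    intro n
    induction n with
    | zero => intro u z; simp
    | succ n ih =>
      intro u z
      rw [pow_succ, map_mul, LinearEquiv.mul_apply, hgb, ih, pow_succ b, Units.val_mul,
        ← mulVec_mulVec]
      rfl
  -- remove the second factor
  obtain ⟨p, hp⟩ := CharP.exists F
  have hpp : p.Prime :=
    (CharP.char_is_prime_or_zero F p).resolve_right (CharP.char_ne_zero_of_finite F p)
  have := hp
  obtain ⟨e, r, hr, hord⟩ := Nat.exists_eq_pow_mul_and_not_dvd (orderOf_pos b).ne' p hpp.ne_one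
  obtain ⟨n, hnr, hnp⟩ := Nat.chineseRemainder (n := r) (m := p)
    ((hpp.coprime_iff_not_dvd.2 hr).symm) 0 1
  have hn1 : (n : F) = 1 := by
    rw [← Nat.cast_one, CharP.natCast_eq_natCast F p]; exact hnp
  have han : a ^ n = a := LinearEquiv.ext fun y => by rw [hapow, hav, hn1, one_smul]
  have hb1 : (b ^ n) ^ p ^ e = 1 := by
    obtain ⟨j, hj⟩ := Nat.modEq_zero_iff_dvd.1 hnr
    rw [← pow_mul, hj, mul_assoc, mul_comm j, ← mul_assoc, mul_comm r, ← hord, pow_mul,
      pow_orderOf_eq_one, one_pow]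
  obtain ⟨-, d, -, -, hd⟩ := split_sim hM (M.pow_mem hg n) (hpow n)
  have hdpow : ∀ (j : ℕ) y z, f (((b ^ n) ^ j).val *ᵥ y) (((b ^ n) ^ j).val *ᵥ z) = d ^ j * f y z := by
    intro j
    induction j with
    | zero => intro y z; simp
    | succ j ih =>
      intro y z
      rw [pow_succ, Units.val_mul, ← mulVec_mulVec, ← mulVec_mulVec, ih, hd, pow_succ, mul_assoc]
  obtain ⟨y₀, z₀, hz₀⟩ := exists_unit_pair hM
  have hd1 : d = 1 := by
    refine pow_eq_one_char hpp (e := e) ?_
    have h := hdpow (p ^ e) y₀ z₀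
    rw [hb1, Units.val_one, one_mulVec, one_mulVec, hz₀, mul_one] at h
    exact h.symm
  have hiso : Isom f (b ^ n) := fun y z => by rw [hd, hd1, one_mul]
  set B := kronE (Fin.insertNth (α := fun _ => GL (Fin k) F) i₀ (b ^ n) 1)
  have hB : B ∈ M := hM.kron_mem _ (slotElem_isom i₀ hiso)
  have hG : ∀ u z, slotConj i₀ (g ^ n * B⁻¹) (pure u z) = pure (a u) z := by
    intro u z
    have hBp : ∀ u z, slotConj i₀ B (pure u z) = pure u ((b ^ n).val *ᵥ z) := fun u z => by
      rw [kronE_insertNth_one, TensorMax.pure, TensorMax.pure, vecMulVec_mul, vecMul_transpose]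
    have hBi : slotConj i₀ B⁻¹ (pure u z) = pure u (((b ^ n)⁻¹).val *ᵥ z) := by
      apply (slotConj i₀ B).injective
      rw [← LinearEquiv.mul_apply, ← map_mul, mul_inv_cancel, map_one, hBp, mulVec_mulVec,
        ← Units.val_mul, mul_inv_cancel, Units.val_one, one_mulVec]
      rfl
    rw [map_mul, LinearEquiv.mul_apply, hBi, hpow, han, mulVec_mulVec, ← Units.val_mul,
      mul_inv_cancel, Units.val_one, one_mulVec]
  -- the element is a root element of another factor
  set l' := i₀.succAbove l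
  set i₀' := l.predAbove i₀
  let T : Matrix (Fin (s + 1) → Fin k) (Fin (s + 1) → Fin k) F :=
    LinearMap.toMatrix' ((slot i₀').symm.toLinearMap ∘ₗ mulLeftLinearMap (Fin k) F θ ∘ₗ
      (slot i₀').toLinearMap)
  have hT : InM (slotGroup M l') (sroot f T w) := by
    refine inM_slotGroup_iff.2 ⟨g ^ n * B⁻¹, M.mul_mem (M.pow_mem hg n) (M.inv_mem hB), fun v => ?_⟩
    suffices h : (g ^ n * B⁻¹ : TV F k (s + 2) ≃ₗ[F] TV F k (s + 2)).toLinearMap
        = LinearMap.id + (slot l').symm.toLinearMap ∘ₗ sroot f T w ∘ₗ (slot l').toLinearMap from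
      LinearMap.congr_fun h v
    refine linearMap_ext_pv fun x => ?_
    have e1 := hG (pv (Fin.removeNth i₀ x)) (x i₀)
    rw [slotConj_apply, ← slot_pv, LinearEquiv.symm_apply_apply] at e1
    have e2 : pure (a (pv (Fin.removeNth i₀ x))) (x i₀)
        = slot i₀ (pv x) + pure (N (pv (Fin.removeNth i₀ x))) (x i₀) := by
      rw [hav, slot_pv, pure_add_l]
    rw [e2] at e1
    rw [LinearEquiv.coe_coe, LinearMap.add_apply, LinearMap.id_apply]
    apply (slot i₀).injective
    rw [e1, map_add]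
    congr 1
    rw [← LinearEquiv.symm_apply_eq]
    simp only [hN, sroot, T, LinearMap.comp_apply, LinearEquiv.coe_coe, TensorMax.rootMap_apply, slot_pv,
      TensorMax.pure_mulVec, mulVec_smul, LinearMap.toMatrix'_mulVec, map_smul,
      mulLeftLinearMap_apply]
    simp only [TensorMax.pure, smul_vecMulVec, mul_vecMulVec, mulVec_smul, map_smul]
    have hxl : Fin.removeNth i₀ x l = x l' := Fin.removeNth_apply ..
    have hxk : Fin.removeNth l' x i₀' = x i₀ := by
      simp [Fin.removeNth_apply, l', i₀', Fin.succAbove_succAbove_predAbove]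
    have hr : Fin.removeNth l (Fin.removeNth i₀ x) = Fin.removeNth i₀' (Fin.removeNth l' x) :=
      funext fun i => by
        simp [Fin.removeNth_apply, l', i₀', Fin.succAbove_succAbove_succAbove_predAbove]
    rw [hxl, hxk, hr]
    exact congrArg _ (symm_pure_swap i₀ l _ _ _)
  obtain ⟨c, hc⟩ := hsc l' T w hw hT
  refine ⟨c, ?_⟩
  ext x x'
  let o : Fin k := ⟨0, by have := hM.two_le; omega⟩
  have := congrFun (congrFun hc (Fin.insertNth (α := fun _ => Fin k) i₀' o x))
    (Fin.insertNth (α := fun _ => Fin k) i₀' o x')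
  simp only [T, LinearMap.toMatrix'_apply, LinearMap.comp_apply, LinearEquiv.coe_coe,
    mulLeftLinearMap_apply, WreathTensor14.slot_symm_apply, Fin.removeNth_insertNth,
    Fin.insertNth_apply_same, Matrix.mul_apply, Matrix.smul_apply] at this
  have e2 : (1 : Matrix (Fin (s + 1) → Fin k) (Fin (s + 1) → Fin k) F)
      (Fin.insertNth (α := fun _ => Fin k) i₀' o x) (Fin.insertNth (α := fun _ => Fin k) i₀' o x')
      = (1 : Matrix (Fin s → Fin k) (Fin s → Fin k) F) x x' := by
    simp only [one_apply, (Fin.insertNth_right_injective (α := fun _ => Fin k) o).eq_iff]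
  rw [e2, Fintype.sum_eq_single x' fun u hu => by simp [WreathTensor14.slot_apply, hu]] at this
  rw [Matrix.smul_apply, ← this]
  simp [WreathTensor14.slot_apply]


/-- An element carrying an member to a member splits. -/
theorem exists_split (hM : FBase f M) (hsc : OnlyScal f M) (hk : 4 ≤ k)
    {g : TV F k (s + 1) ≃ₗ[F] TV F k (s + 1)} (hg : g ∈ M) {i₀ j : Fin (s + 1)}
    {w v : Fin k → F} (hw : w ≠ 0) (hmap : ∀ x ∈ smemb i₀ w, g x ∈ smemb j v) :
    ∃ (a : TV F k s ≃ₗ[F] TV F k s) (b : GL (Fin k) F), ∀ u z,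
      slot j (g ((slot i₀).symm (pure u z))) = pure (a u) (b.val *ᵥ z) := by
  have : Nonempty (Fin k) := ⟨⟨0, by omega⟩⟩
  set e := ((slot i₀).symm.trans g).trans (slot j)
  have H : Move (tform f s) f (slotGroup M i₀) (slotGroup M j) e :=
    { src := hM.ctx i₀
      tgt := hM.ctx j
      rad := hM.radProp hsc hk i₀
      rad' := hM.radProp hsc hk j
      sim := by
        obtain ⟨c, hc⟩ := hM.sim g hg
        refine ⟨c, fun X Y => ?_⟩
        obtain ⟨x, rfl⟩ := (slot i₀).surjective X
        obtain ⟨y, rfl⟩ := (slot i₀).surjective Y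
        simp [e, tform_slot, hc]
      conj := by
        rintro _ ⟨x, hx, rfl⟩
        exact ⟨g * x * g⁻¹, M.mul_mem (M.mul_mem hg hx) (M.inv_mem hg),
          LinearEquiv.ext fun X => by simp only [slotConj_apply]; simp [e]⟩
      conj' := by
        rintro _ ⟨y, hy, rfl⟩
        exact ⟨g⁻¹ * y * g, M.mul_mem (M.mul_mem (M.inv_mem hg) hy) hg,
          LinearEquiv.ext fun X => by simp only [slotConj_apply]; simp [e]⟩ }
  obtain ⟨A, B, hAB⟩ := exists_mul_mul_of_member H hk hw
    (fun u => hmap _ (symm_pure_mem i₀ u w))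
  have hA : A.det ≠ 0 := fun ha => by
    obtain ⟨z, hz, haz⟩ := Matrix.exists_mulVec_eq_zero_iff.2 ha
    refine hz ((TensorMax.pure_eq_zero_iff hw).1 (e.injective ?_))
    rw [hAB, map_zero, TensorMax.pure, mul_vecMulVec, haz]
    simp
  have hB : B.det ≠ 0 := fun hb => by
    obtain ⟨z, hz, hbz⟩ := Matrix.exists_mulVec_eq_zero_iff.2 hb
    obtain ⟨u, hu⟩ := exists_ne (0 : TV F k s)
    refine hu ((TensorMax.pure_eq_zero_iff hz).1 (e.injective ?_))
    rw [hAB, map_zero, TensorMax.pure, mul_vecMulVec, vecMulVec_mul, vecMul_transpose, hbz]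
    ext p q
    simp [vecMulVec_apply]
  refine ⟨WreathTensor14.toE (Matrix.GeneralLinearGroup.mkOfDetNeZero A hA),
    Matrix.GeneralLinearGroup.mkOfDetNeZero B hB, fun u z => ?_⟩
  change e (pure u z) = _
  rw [hAB, TensorMax.pure, mul_vecMulVec, vecMulVec_mul, vecMul_transpose]
  rfl

/-- An element carrying an member to a member is monomial. -/
theorem mono_of_member (hM : FBase f M) (hsc : OnlyScal f M) (hk : 4 ≤ k)
    (hIH : ∀ i₀, ∀ a ∈ WreathTensor14.factor M i₀, a ∈ monoGroup F k s)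
    {g : TV F k (s + 1) ≃ₗ[F] TV F k (s + 1)} (hg : g ∈ M) {i₀ j : Fin (s + 1)}
    {w v : Fin k → F} (hw : w ≠ 0) (hv : v ≠ 0)
    (hmap : ∀ x ∈ smemb i₀ w, g x ∈ smemb j v) :
    g ∈ monoGroup F k (s + 1) := by
  by_cases hs : s = 1
  · subst hs
    obtain ⟨a, b, hab⟩ := exists_split hM hsc hk hg hw hmap
    exact mono_of_split (mem_mono_one a) hab
  -- move the factor `j` to `i₀`
  obtain ⟨σ, hσ, hσj⟩ : ∃ σ : Equiv.Perm (Fin (s + 1)), σ ^ 3 = 1 ∧ σ j = i₀ := by
    rcases eq_or_ne j i₀ with rfl | hjk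
    · exact ⟨1, one_pow 3, rfl⟩
    have h2 : 2 ≤ s := by
      rcases s with _ | _ | s
      · exact absurd (Subsingleton.elim (α := Fin 1) j i₀) hjk
      · exact absurd rfl hs
      · omega
    obtain ⟨l, -, hl⟩ := Finset.exists_mem_notMem_of_card_lt_card
      (s := ({j, i₀} : Finset (Fin (s + 1)))) (t := Finset.univ)
      (lt_of_le_of_lt Finset.card_le_two (by simp only [Finset.card_univ, Fintype.card_fin]; omega))
    simp only [Finset.mem_insert, Finset.mem_singleton, not_or] at hl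
    refine ⟨Equiv.swap j l * Equiv.swap j i₀, ?_, ?_⟩
    · rw [← (Equiv.Perm.isThreeCycle_swap_mul_swap_same (Ne.symm hl.1) hjk hl.2).orderOf]
      exact pow_orderOf_eq_one _
    · rw [Equiv.Perm.mul_apply, Equiv.swap_apply_left,
        Equiv.swap_apply_of_ne_of_ne hjk.symm (Ne.symm hl.2)]
  have hhg := M.mul_mem (hM.perm_mem σ hσ) hg
  obtain ⟨a, b, hab⟩ := exists_split hM hsc hk hhg hw (i₀ := i₀) (j := i₀) (v := v) fun x hx => by
    rw [LinearEquiv.mul_apply, ← hσj]
    exact permE_smemb σ j hv (hmap x (by rwa [hσj] at *))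
  have := mono_of_split (hIH i₀ a ⟨_, hhg, b, hab⟩) hab
  simpa using (monoGroup F k (s + 1)).mul_mem ((monoGroup F k (s + 1)).inv_mem (permE_mem_mono σ)) this

end CfsgLib.OPlusWreath94
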