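import Cfsg.Agent.OPlusWreath94.Descent
import Cfsg.Agent.OPlusWreath94.Assembly
import Cfsg.Agent.SympWreath17.Mono

/-!
Odd characteristic: groups containing only the permutations of order dividing three are monomial
when their root coefficients are scalar.
-/

set_option autoImplicit false
set_option linter.unusedSectionVars false

namespace CfsgLib.OPlusWreath94

open Matrix Module Function
open CfsgLib.TensorMax (InM memb mem_memb pure_mem_memb)
open CfsgLib.WreathTensor14 (TV slot slotGroup slotConj slotConj_apply InV monoGroup smemb mem_smemb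
  symm_pure_mem finrank_smemb inM_slotGroup_iff permE kronE mem_mono_one)
open CfsgLib.SympWreath17 (IsSymp Isom tform tform_slot tform_comm OnlyScal WBase SBase Meet Sctx sroot
  sroot_apply srootV slot_srootV inV_srootV sdual dotProduct_sdual sctr sctr_pure sctr_apply sphi
  sphi_pure_right sphi_pure_pure)

local notation "⟪" u "⊗" w "⟫" => TensorMax.pure u w

variable {F : Type*} [Field F] [Finite F] {k s : ℕ} {f : LinearMap.BilinForm F (Fin k → F)}
  {M : Subgroup (TV F k (s + 1) ≃ₗ[F] TV F k (s + 1))}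

lemma FBase.of_wbase {t : ℕ} {N : Subgroup (TV F k t ≃ₗ[F] TV F k t)} (hM : WBase f N) :
    FBase f N where
  symp := hM.symp
  small := hM.small.imp (fun h => ⟨h.1, hM.two, h.2⟩) fun h => ⟨h, fun h2 => absurd h2 hM.two⟩
  sim := fun g hg => (hM.sim g hg).imp fun _ h => h.2
  kron_mem := hM.kron_mem
  perm_mem := hM.perm_mem

lemma nW_eq_srootV (j : Fin (s + 1)) (w : Fin k → F) (v : TV F k (s + 1)) :
    nW f j w v = srootV f j w v := by
  apply (slot j).injective
  rw [nW_apply, LinearEquiv.apply_symm_apply, slot_srootV, sroot_apply, one_mulVec]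

lemma conj_large (hM : WBase f M) (hsc : OnlyScal f M) (hk : 4 ≤ k)
    (hIH : ∀ i, ∀ a ∈ WreathTensor14.factor M i, a ∈ monoGroup F k s)
    {g x : TV F k (s + 1) ≃ₗ[F] TV F k (s + 1)} (hg : g ∈ M) {j : Fin (s + 1)} {w : Fin k → F}
    (hw : w ≠ 0) (hx : ∀ v, x v = v + srootV f j w v)
    (hmono : g⁻¹ * x * g ∈ monoGroup F k (s + 1)) : g ∈ monoGroup F k (s + 1) := by
  refine mono_of_conj (FBase.of_wbase hM) hsc hk hIH hg (j := j) hw fun y _ hy => ?_
  rwa [show y = x from LinearEquiv.ext fun v => by rw [hy, hx, nW_eq_srootV]]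

set_option maxHeartbeats 1000000 in
/-- With monomial factors of dimension at least four, all elements are monomial. -/
theorem mono_step_large (hM : WBase f M) (hsc : OnlyScal f M) (hk : 4 ≤ k)
    (hIH : ∀ i, ∀ a ∈ WreathTensor14.factor M i, a ∈ monoGroup F k s)
    {g : TV F k (s + 1) ≃ₗ[F] TV F k (s + 1)} (hg : g ∈ M) : g ∈ monoGroup F k (s + 1) := by
  classical
  by_contra hgm
  have hf := hM.symp
  have hk2 : 2 ≤ k := by rcases hM.small with ⟨h, -⟩ | h <;> omega
  let P : ℕ → Prop := fun n => ∃ g ∈ M, g ∉ monoGroup F k (s + 1) ∧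
    ∃ (i : Fin (s + 1)) (w : Fin k → F) (j : Fin (s + 1)) (v : Fin k → F), w ≠ 0 ∧ v ≠ 0 ∧
      n = finrank F ↥((smemb i w).map g.toLinearMap ⊓ smemb j v)
  set B := finrank F (TV F k (s + 1))
  set d := Nat.findGreatest P B
  have hd : ∀ g ∈ M, g ∉ monoGroup F k (s + 1) → ∀ (i : Fin (s + 1)) (w : Fin k → F)
      (j : Fin (s + 1)) (v : Fin k → F), w ≠ 0 → v ≠ 0 →
      finrank F ↥((smemb i w).map g.toLinearMap ⊓ smemb j v) ≤ d :=
    fun g hg hgm i w j v hw hv => Nat.le_findGreatest (Submodule.finrank_le _)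
      ⟨g, hg, hgm, i, w, j, v, hw, hv, rfl⟩
  obtain ⟨g₀, hg₀, hg₀m, i, w, j, v₀, hw, hv₀, hdatt⟩ : P d := by
    obtain ⟨e₀, he₀⟩ : ∃ e₀ : Fin k → F, e₀ ≠ 0 := ⟨Pi.single ⟨0, by omega⟩ 1, by simp⟩
    exact Nat.findGreatest_spec (Submodule.finrank_le _)
      ⟨g, hg, hgm, 0, e₀, 0, e₀, he₀, he₀, rfl⟩
  -- coordinates of the factor `j`
  set ψ : TV F k (s + 1) ≃ₗ[F] Matrix (Fin s → Fin k) (Fin k) F := g₀.trans (slot j) with hψ
  set T := (smemb i w).map ψ.toLinearMap with hTdef
  set e : Matrix (Fin s → Fin k) (Fin k) F ≃ₗ[F] Matrix (Fin s → Fin k) (Fin k) F :=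
    (slot i).symm.trans ψ with he
  set Q := e.toLinearMap ∘ₗ
    sroot f (1 : Matrix (Fin s → Fin k) (Fin s → Fin k) F) w ∘ₗ e.symm.toLinearMap with hQ
  have hmemT : ∀ X, X ∈ T ↔ e.symm X ∈ memb w := fun X => by
    rw [hTdef, Submodule.mem_map_equiv, mem_smemb]; rfl
  have hinf : ∀ v, finrank F ↥((smemb i w).map g₀.toLinearMap ⊓ smemb j v)
      = finrank F ↥(memb v ⊓ T) := fun v => by
    have e1 : (smemb j v).map (slot j).toLinearMap = memb v :=
      Submodule.map_comap_eq_of_surjective (slot j).surjective _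
    rw [← LinearEquiv.finrank_map_eq (slot j), Submodule.map_inf _ (slot j).injective,
      ← Submodule.map_comp, inf_comm, e1]
    rfl
  obtain ⟨c₀, hc₀, hsim⟩ := hM.sim g₀ hg₀
  have hesim : ∀ X Y, sphi (tform f s) f (e X) (e Y) = c₀ * sphi (tform f s) f X Y := fun X Y => by
    simp only [he, hψ, LinearEquiv.trans_apply, tform_slot, hsim]
    rw [← tform_slot (i := i), LinearEquiv.apply_symm_apply, LinearEquiv.apply_symm_apply]
  have hSj := hM.sctx hsc j
  -- general position
  have hmeet : ∀ v : Fin k → F, v ≠ 0 → finrank F ↥(memb v ⊓ T) = d →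
      Meet f (slotGroup M j) v T Q := by
    intro v hv hvd
    obtain ⟨x, hx, hxy⟩ := inV_srootV hM hsc j v
    obtain ⟨y, hy, hyy⟩ := inV_srootV hM hsc i w
    refine ⟨hv, ?_, ?_, fun Y => ?_, fun Y => ?_, fun c => ?_, fun t ht hNt => ?_,
      fun u hu hQu => ?_, fun hle => ?_⟩
    · rw [hTdef, LinearEquiv.finrank_map_eq, finrank_smemb _ hw]
      simp
    · intro X hX Y hY
      rw [hmemT] at hX hY
      rw [← e.apply_symm_apply X, ← e.apply_symm_apply Y, hesim]
      obtain ⟨a, ha⟩ := mem_memb.1 hX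
      obtain ⟨b, hb⟩ := mem_memb.1 hY
      rw [← ha, ← hb, sphi_pure_pure, hf.alt, zero_mul, mul_zero]
    · rw [hmemT, hQ, LinearMap.comp_apply, LinearEquiv.coe_coe, LinearEquiv.symm_apply_apply]
      exact pure_mem_memb _ _
    · rw [hQ, LinearMap.comp_apply, LinearEquiv.coe_coe, LinearEquiv.map_eq_zero_iff,
        LinearMap.comp_apply, LinearEquiv.coe_coe, sroot_apply, one_mulVec,
        TensorMax.pure_eq_zero_iff hw]
      refine ⟨fun h0 t ht => ?_, fun h0 => SympWreath17.tform_nd hf s _ fun a => ?_⟩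
      · rw [hmemT] at ht
        obtain ⟨a, ha⟩ := mem_memb.1 ht
        rw [← e.apply_symm_apply Y, ← e.apply_symm_apply t, hesim, ← ha, sphi_pure_right, h0,
          map_zero, LinearMap.zero_apply, mul_zero]
      · have h1 := h0 (e ⟪a⊗w⟫) (by rw [hmemT, e.symm_apply_apply]; exact pure_mem_memb _ _)
        rw [← e.apply_symm_apply Y, hesim, mul_eq_zero] at h1
        rw [← sphi_pure_right]
        exact h1.resolve_left hc₀
    · obtain ⟨z, hz, hzy⟩ := (inM_slotGroup_iff (k := i)).1 ((hM.sctx hsc i).inM_root_one c w)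
      refine ⟨slotConj j (g₀ * z * g₀⁻¹),
        Subgroup.mem_map_of_mem _ (M.mul_mem (M.mul_mem hg₀ hz) (M.inv_mem hg₀)), fun X => ?_⟩
      rw [slotConj_apply]
      change slot j (g₀ (z (g₀.symm ((slot j).symm X)))) = _
      rw [hzy, map_add, map_add, LinearEquiv.apply_symm_apply, LinearEquiv.apply_symm_apply]
      simp [hQ, he, hψ, smul_mulVec, SympWreath17.pure_smul_left]
    · -- a conjugate root with a larger meet
      by_contra htU
      have hnm : g₀⁻¹ * x * g₀ ∉ monoGroup F k (s + 1) := fun h =>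
        hg₀m (conj_large hM hsc hk hIH hg₀ hv hxy h)
      refine absurd (hd _ (M.mul_mem (M.mul_mem (M.inv_mem hg₀) hx) hg₀) hnm i w i w hw hw)
        (not_le.2 ?_)
      rw [← hvd, ← LinearEquiv.finrank_map_eq ψ (Submodule.map _ _ ⊓ _)]
      have hψh : ∀ z, ψ ((g₀⁻¹ * x * g₀) z) = ψ z + sroot f 1 v (ψ z) := fun z => by
        simp only [hψ, LinearEquiv.trans_apply, LinearEquiv.mul_apply]
        rw [show g₀ (g₀⁻¹ (x (g₀ z))) = x (g₀ z) from g₀.apply_symm_apply _, hxy, map_add,
          slot_srootV]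
      have hmem : ∀ X, X ∈ T → ∀ Y, Y ∈ T → Y + sroot f 1 v Y = X → X ∈ (Submodule.map
          (g₀⁻¹ * x * g₀).toLinearMap (smemb i w) ⊓ smemb i w).map ψ.toLinearMap := by
        intro X hX Y hY hYX
        rw [hTdef, Submodule.mem_map_equiv] at hX hY
        refine ⟨ψ.symm X, ⟨⟨ψ.symm Y, hY, ψ.injective ?_⟩, hX⟩, ψ.apply_symm_apply X⟩
        rw [LinearEquiv.coe_coe, hψh, LinearEquiv.apply_symm_apply, LinearEquiv.apply_symm_apply,
          hYX]
      refine Submodule.finrank_lt_finrank_of_lt (SetLike.lt_iff_le_and_exists.2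
        ⟨fun X hX => hmem X hX.2 X hX.2 (by rw [Meet.NU hSj hX.1, add_zero]), t, ?_,
          fun h => htU (Submodule.mem_inf.1 h).1⟩)
      refine hmem t ht (t - sroot f 1 v t) (T.sub_mem ht hNt) ?_
      rw [map_sub, Meet.NU hSj (Meet.imN t), sub_zero, sub_add_cancel]
    · -- the same for the other root
      by_contra huT
      have hnm : g₀ * y * g₀⁻¹ ∉ monoGroup F k (s + 1) := fun h => by
        have := conj_large hM hsc hk hIH (M.inv_mem hg₀) hw hyy (by rwa [inv_inv])
        exact hg₀m (by simpa using (monoGroup F k (s + 1)).inv_mem this)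
      refine absurd (hd _ (M.mul_mem (M.mul_mem hg₀ hy) (M.inv_mem hg₀)) hnm j v j v hv hv)
        (not_le.2 ?_)
      rw [← hvd, ← LinearEquiv.finrank_map_eq (slot j) (Submodule.map _ _ ⊓ _)]
      have hh : ∀ z, slot j ((g₀ * y * g₀⁻¹) z) = slot j z + Q (slot j z) := fun z => by
        rw [LinearEquiv.mul_apply, LinearEquiv.mul_apply, hyy, map_add, map_add,
          show g₀ (g₀⁻¹ z) = z from g₀.apply_symm_apply z]
        congr 1
        simp [hQ, he, hψ, srootV]
      have hmem : ∀ X, X ∈ memb v → ∀ Y, Y ∈ memb v → Y + Q Y = X → X ∈ (Submodule.map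
          (g₀ * y * g₀⁻¹).toLinearMap (smemb j v) ⊓ smemb j v).map (slot j).toLinearMap := by
        intro X hX Y hY hYX
        refine ⟨(slot j).symm X, ⟨⟨(slot j).symm Y, by rwa [SetLike.mem_coe, mem_smemb,
          LinearEquiv.apply_symm_apply], (slot j).injective ?_⟩, by rwa [SetLike.mem_coe, mem_smemb,
          LinearEquiv.apply_symm_apply]⟩, (slot j).apply_symm_apply X⟩
        rw [LinearEquiv.coe_coe, hh, LinearEquiv.apply_symm_apply, LinearEquiv.apply_symm_apply, hYX]
      have hQT : ∀ X ∈ T, Q X = 0 := fun X hX => by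
        obtain ⟨a, ha⟩ := mem_memb.1 ((hmemT X).1 hX)
        simp only [hQ, LinearMap.comp_apply, LinearEquiv.coe_coe, ← ha, sroot_apply, sctr_pure,
          hf.alt, zero_smul, mulVec_zero, TensorMax.pure_zero_left, map_zero]
      refine Submodule.finrank_lt_finrank_of_lt (SetLike.lt_iff_le_and_exists.2
        ⟨fun X hX => hmem X hX.1 X hX.1 (by rw [hQT X hX.2, add_zero]), u, ?_, fun h => huT (Submodule.mem_inf.1 h).2⟩)
      refine hmem u hu (u - Q u) (Submodule.sub_mem _ hu hQu) ?_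
      have hQT' : Q u ∈ T := by
        rw [hmemT, hQ, LinearMap.comp_apply, LinearEquiv.coe_coe, LinearEquiv.symm_apply_apply]
        exact pure_mem_memb _ _
      rw [map_sub, hQT _ hQT', sub_zero, sub_add_cancel]
    · exact hg₀m (mono_of_member (FBase.of_wbase hM) hsc hk hIH hg₀ hw hv fun z hz => hle ⟨z, hz, rfl⟩)
  have hend : ∀ z : Fin k → F, z ≠ 0 → T ≤ memb z → False := fun z hz hle =>
    hg₀m (mono_of_member (FBase.of_wbase hM) hsc hk hIH hg₀ hw hz fun x hx => hle ⟨x, hx, rfl⟩)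
  have hv₀d : finrank F ↥(memb v₀ ⊓ T) = d := by rw [← hinf]; exact hdatt.symm
  have hMeet := hmeet v₀ hv₀ hv₀d
  obtain ⟨hbot, z₀, hvz₀, hT₀⟩ := hMeet.plane hSj hk
  have hd0 : d = 0 := by rw [← hv₀d, hbot, finrank_bot]
  have hall : ∀ a : Fin k → F, a ≠ 0 → ∃ z, f a z = 1 ∧
      ∀ t ∈ T, ∀ b, f b a = 0 → f b z = 0 → sctr f b t = 0 := fun a ha => by
    have : finrank F ↥(memb a ⊓ T) = d := by
      rw [← hinf]
      have := hd g₀ hg₀ hg₀m i w j a hw ha
      omega
    exact ((hmeet a ha this).plane hSj hk).2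
  obtain ⟨a, ha0, hav, haz⟩ := TensorMax.exists_ne_zero_orth_two (κ := Fin k) (by simp; omega)
    (sdual f v₀) (sdual f z₀)
  rw [dotProduct_comm, dotProduct_sdual] at hav haz
  obtain ⟨za, -, hTa⟩ := hall a ha0
  -- a vector in the plane
  obtain ⟨α, β, hαβ, hp⟩ : ∃ α β : F, (α ≠ 0 ∨ β ≠ 0) ∧ α * f v₀ za + β * f z₀ za = 0 := by
    by_cases h0 : f v₀ za = 0
    · exact ⟨1, 0, Or.inl one_ne_zero, by simp [h0]⟩
    · exact ⟨f z₀ za, -f v₀ za, Or.inr (neg_ne_zero.2 h0), by ring⟩
  set p := α • v₀ + β • z₀ with hpdef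
  have hpa : f p a = 0 := by
    simp [p, hf.skew a v₀, hf.skew a z₀, hav, haz]
  have hpza : f p za = 0 := by simpa [p] using hp
  have hpv : f p v₀ = -β := by simp [p, hf.alt, hf.skew v₀ z₀, hvz₀]
  have hpz : f p z₀ = α := by simp [p, hf.alt, hvz₀]
  have hp0 : p ≠ 0 := fun h0 => by
    rcases hαβ with h | h
    · exact h (by rw [← hpz, h0]; simp)
    · exact h (by rw [← neg_eq_zero, ← hpv, h0]; simp)
  refine hend p hp0 fun t ht => SympWreath17.mem_memb_of_sctr hf hp0 fun q hq => ?_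
  set q₁ := f q z₀ • v₀ - f q v₀ • z₀ with hq₁
  have h0 : sctr f (q - q₁) t = 0 := hT₀ t ht _
    (by simp [q₁, hf.alt, hf.skew v₀ z₀, hvz₀]) (by simp [q₁, hf.alt, hvz₀])
  have hq' : α * f q v₀ + β * f q z₀ = 0 := by
    rw [hpdef] at hq
    simp only [map_add, map_smul, LinearMap.add_apply, LinearMap.smul_apply, smul_eq_mul,
      hf.skew q v₀, hf.skew q z₀] at hq
    linear_combination -hq
  obtain ⟨c, hc⟩ : ∃ c : F, q₁ = c • p := by
    rcases hαβ with h | h
    · refine ⟨f q z₀ / α, ?_⟩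
      have : f q v₀ = -(f q z₀ / α * β) := by field_simp; linear_combination hq'
      rw [hq₁, hpdef, this]
      match_scalars <;> field_simp
    · refine ⟨-(f q v₀ / β), ?_⟩
      have : f q z₀ = -(f q v₀ / β * α) := by field_simp; linear_combination hq'
      rw [hq₁, hpdef, this]
      match_scalars <;> field_simp
  have h1 : sctr f q₁ t = 0 := by
    have hp' : sctr f p t = 0 := hTa t ht p hpa hpza
    rw [hc, sctr_apply, map_smul, mulVec_smul, ← sctr_apply, hp', smul_zero]
  rw [sctr_apply] at h0 h1 ⊢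
  rw [show q = (q - q₁) + q₁ by abel, map_add, mulVec_add, h0, h1, add_zero]

/-- Two factors of dimension two: every similitude is monomial. -/
lemma mono_two_two {M : Subgroup (TV F k (1 + 1) ≃ₗ[F] TV F k (1 + 1))} (hM : WBase f M) (hk : k = 2)
    {g : TV F k (1 + 1) ≃ₗ[F] TV F k (1 + 1)} (hg : g ∈ M) : g ∈ monoGroup F k (1 + 1) := by
  have hf := hM.symp
  let N : Subgroup (TV F k (1 + 1) ≃ₗ[F] TV F k (1 + 1)) :=
    { carrier := {h | ∃ c : F, c ≠ 0 ∧ ∀ u v, tform f (1 + 1) (h u) (h v) = c * tform f (1 + 1) u v}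
      one_mem' := ⟨1, one_ne_zero, fun u v => by simp⟩
      mul_mem' := by
        rintro a b ⟨c, hc, ha⟩ ⟨d, hd, hb⟩
        exact ⟨c * d, mul_ne_zero hc hd, fun u v => by
          rw [LinearEquiv.mul_apply, LinearEquiv.mul_apply, ha, hb, mul_assoc]⟩
      inv_mem' := by
        rintro a ⟨c, hc, ha⟩
        refine ⟨c⁻¹, inv_ne_zero hc, fun u v => ?_⟩
        have h := ha (a⁻¹ u) (a⁻¹ v)
        rw [show a (a⁻¹ u) = u from a.apply_symm_apply u,
          show a (a⁻¹ v) = v from a.apply_symm_apply v] at h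
        rw [h, inv_mul_cancel_left₀ hc] }
  have hN : SBase f N :=
    { symp := hf
      two := hM.two
      small := hM.small
      sim := fun h hh => hh
      kron_mem := fun gs hgs => ⟨1, one_ne_zero, fun u v => by
        have h := SympWreath17.kronE_sim (f := f) (gs := gs) (cs := fun _ => 1)
          (fun i x y => by rw [one_mul]; exact hgs i x y) u v
        rwa [Finset.prod_const_one] at h⟩
      perm_mem := fun σ => ⟨1, one_ne_zero, fun u v => by rw [one_mul, SympWreath17.permE_sim]⟩ }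
  refine SympWreath17.mono_all 1 N hN ?_ g (hM.sim g hg)
  intro i θ w hw hθ
  obtain ⟨e, ⟨h, hh, rfl⟩, heX⟩ := hθ
  obtain ⟨c, -, hc⟩ := hh
  have hc' : ∀ X Y, sphi (tform f 1) f (slotConj i h X) (slotConj i h Y)
      = c * sphi (tform f 1) f X Y := fun X Y => by
    obtain ⟨u, rfl⟩ := (slot i).surjective X
    obtain ⟨v, rfl⟩ := (slot i).surjective Y
    simp [tform_slot, hc]
  obtain ⟨z, hz⟩ := hf.exists_one hw
  have hzw : f z w = -1 := by rw [hf.skew, hz]
  obtain ⟨u₀, v₀, huv⟩ := exists_tform_ne_zero (t := 1) hf (by omega)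
  have hc1 : c = 1 := by
    have h1 := hc' ⟪u₀⊗w⟫ ⟪v₀⊗z⟫
    simp only [MonoidHom.coe_coe, heX, sroot_apply, sctr_pure, hf.alt, hzw, zero_smul, mulVec_zero,
      pure_zero_l, add_zero, map_add, LinearMap.add_apply, sphi_pure_pure, hz, zero_mul, one_mul] at h1
    exact mul_right_cancel₀ huv (by rw [← h1, one_mul])
  have hadj : ∀ p u, tform f 1 (θ *ᵥ p) u = tform f 1 p (θ *ᵥ u) := fun p u => by
    have h1 := hc' ⟪p⊗z⟫ ⟪u⊗z⟫
    simp only [MonoidHom.coe_coe, heX, sroot_apply, sctr_pure, hzw, map_add, LinearMap.add_apply,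
      sphi_pure_pure, hc1, one_mul, hf.alt, hz, zero_mul, zero_add, add_zero, neg_smul, one_smul,
      mulVec_neg, map_neg, LinearMap.neg_apply] at h1
    linear_combination -h1
  subst hk
  have hE : ∀ x : TV F 2 1, x = x (fun _ => 0) • Pi.single (fun _ : Fin 1 => (0 : Fin 2)) 1
      + x (fun _ => 1) • Pi.single (fun _ : Fin 1 => (1 : Fin 2)) 1 := fun x => funext fun q => by
    obtain ⟨a, rfl⟩ : ∃ a, q = fun _ => a := ⟨q 0, funext fun i => by rw [Subsingleton.elim i 0]⟩
    fin_cases a <;> simp [funext_iff, Pi.single_apply]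
  set E := fun a : Fin 2 => (Pi.single (fun _ : Fin 1 => a) (1 : F) : TV F 2 1)
  have halt : ∀ x, tform f 1 x x = 0 := fun x => by
    have h1 := tform_comm hf x x
    have h2 : (2 : F) * tform f 1 x x = 0 := by linear_combination h1
    exact (mul_eq_zero.1 h2).resolve_left hM.two
  have h10 : tform f 1 (E 1) (E 0) = -tform f 1 (E 0) (E 1) := by
    rw [tform_comm hf (E 0) (E 1)]; ring
  have hne : tform f 1 (E 0) (E 1) ≠ 0 := fun h0 => huv (by
    rw [hE u₀, hE v₀]
    simp only [map_add, map_smul, LinearMap.add_apply, LinearMap.smul_apply, smul_eq_mul, halt]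
    simp only [E] at h0 h10
    rw [h10, h0]
    ring)
  -- the four entries
  have hθE : ∀ a, θ *ᵥ E a = θ (fun _ => 0) (fun _ => a) • E 0 + θ (fun _ => 1) (fun _ => a) • E 1 :=
    fun a => by rw [hE (θ *ᵥ E a)]; simp [E]
  have e00 := hadj (E 0) (E 0)
  have e11 := hadj (E 1) (E 1)
  have e01 := hadj (E 0) (E 1)
  simp only [hθE, map_add, map_smul, LinearMap.add_apply, LinearMap.smul_apply, smul_eq_mul, halt,
    mul_zero, zero_add, add_zero, h10] at e00 e11 e01
  have d1 : θ (fun _ => 1) (fun _ => 0) = 0 := by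
    have : (2 : F) * (θ (fun _ => 1) (fun _ => 0) * tform f 1 (E 0) (E 1)) = 0 := by
      linear_combination -e00
    exact ((mul_eq_zero.1 ((mul_eq_zero.1 this).resolve_left hM.two)).resolve_right hne)
  have d2 : θ (fun _ => 0) (fun _ => 1) = 0 := by
    have : (2 : F) * (θ (fun _ => 0) (fun _ => 1) * tform f 1 (E 0) (E 1)) = 0 := by
      linear_combination e11
    exact ((mul_eq_zero.1 ((mul_eq_zero.1 this).resolve_left hM.two)).resolve_right hne)
  have d3 : θ (fun _ => 0) (fun _ => 0) = θ (fun _ => 1) (fun _ => 1) := mul_right_cancel₀ hne e01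
  refine ⟨θ (fun _ => 0) (fun _ => 0), ?_⟩
  ext p q
  obtain ⟨a, rfl⟩ : ∃ a, p = fun _ => a := ⟨p 0, funext fun i => by rw [Subsingleton.elim i 0]⟩
  obtain ⟨b, rfl⟩ : ∃ b, q = fun _ => b := ⟨q 0, funext fun i => by rw [Subsingleton.elim i 0]⟩
  fin_cases a <;> fin_cases b <;> simp [d1, d2, d3, funext_iff, Matrix.one_apply]

/-- Odd characteristic: with only scalar coefficients all elements are monomial. -/
theorem mono_all_odd : ∀ (s : ℕ) (M : Subgroup (TV F k (s + 1) ≃ₗ[F] TV F k (s + 1))),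
    WBase f M → OnlyScal f M → ∀ g ∈ M, g ∈ monoGroup F k (s + 1) := by
  intro s
  induction s with
  | zero => exact fun _ _ _ g _ => mem_mono_one g
  | succ s ih =>
    intro M hM hsc g hg
    have hF := FBase.of_wbase hM
    have hIH : ∀ i, ∀ a ∈ WreathTensor14.factor M i, a ∈ monoGroup F k (s + 1) := fun i => by
      have hFi := hF.factor i
      refine ih _ ?_ (OnlyScal.factor hF hsc i)
      exact ⟨hFi.symp, hM.two, hM.small, fun a ha => exists_mult hFi ha, hFi.kron_mem, hFi.perm_mem⟩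
    rcases hM.small with ⟨hk, -⟩ | hk
    · rcases s with _ | s
      · exact mono_two_two hM hk hg
      refine SympWreath17.mono_step hM hsc (fun i j => ?_) hIH hg
      rcases eq_or_ne j i with rfl | hji
      · exact ⟨1, hM.perm_mem 1 (one_pow 3), rfl⟩
      obtain ⟨l, -, hl⟩ := Finset.exists_mem_notMem_of_card_lt_card
        (s := ({j, i} : Finset (Fin (s + 3)))) (t := Finset.univ)
        (lt_of_le_of_lt Finset.card_le_two (by simp only [Finset.card_univ, Fintype.card_fin]; omega))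
      simp only [Finset.mem_insert, Finset.mem_singleton, not_or] at hl
      refine ⟨Equiv.swap j l * Equiv.swap j i, hM.perm_mem _ ?_, ?_⟩
      · rw [← (Equiv.Perm.isThreeCycle_swap_mul_swap_same (Ne.symm hl.1) hji hl.2).orderOf]
        exact pow_orderOf_eq_one _
      · rw [Equiv.Perm.mul_apply, Equiv.swap_apply_left,
          Equiv.swap_apply_of_ne_of_ne hji.symm (Ne.symm hl.2)]
    · exact mono_step_large hM hsc hk hIH hg

end CfsgLib.OPlusWreath94
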