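import Cfsg.Agent.OPlusWreath94.RootVectors

/-!
A group with a non-scalar root coefficient contains `Ω`.
-/

set_option autoImplicit false
set_option linter.unusedSectionVars false

namespace CfsgLib.OPlusWreath94

open CfsgLib.WreathTensor14 (TV)

variable {F : Type*} [Field F] [Finite F] {k s : ℕ} {f : LinearMap.BilinForm F (Fin k → F)}
  {Q : TV F k (s + 1) → F} {M : Subgroup (TV F k (s + 1) ≃ₗ[F] TV F k (s + 1))}

/-- With a non-scalar root coefficient the group contains `Ω`. -/
theorem omega_le_of_not_onlyScal (hM : OBase f Q M) (hQ : Cfsg.Geo.IsNondegenerateQuadraticForm Q)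
    (hn : 13 ≤ k ^ (s + 1)) (hns : ¬ SympWreath17.OnlyScal f M) :
    Cfsg.Geo.omegaGL Q ≤ matGroup M := by
  classical
  obtain ⟨κ, B, c, a, b, hc, hB, ha, hba, hb, hK⟩ := exists_shape hM hns
  have hG := good_of_one hM ha hc hB hK
  have hs : 2 ≤ s + 1 := by
    rcases Nat.eq_zero_or_pos s with rfl | h
    · exact absurd (Subsingleton.elim (α := Fin 1) b a) hba
    · omega
  rcases Nat.lt_or_ge k 4 with hk | hk
  · have hk2 : k = 2 := by rcases hM.small with ⟨e, -⟩ | ⟨e, -⟩ <;> omega
    have hodd := hM.even_t (by rcases hM.small with ⟨-, e, -⟩ | ⟨e, -⟩; exacts [e, by omega])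
    have ht : 4 ≤ s + 1 := by
      obtain ⟨r, hr⟩ := hodd
      by_contra h
      have : s + 1 = 2 := by omega
      rw [this, hk2] at hn
      norm_num at hn
    have ham : ∀ i, κ i ≠ .am := fun i e => Pc.no_am hM.symp hk2 (e ▸ hB i)
    have h2 : 2 ≤ (Finset.univ.filter fun i => κ i = PKind.nn).card := by
      refine Finset.one_lt_card.2 ⟨a, by simp [ha], b, ?_, hba.symm⟩
      have := ham b
      cases hκ : κ b <;> simp_all
    obtain ⟨κ', j, hG', hj, hnn⟩ := exists_full_two hM hk2 _ κ le_rfl hG ham h2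
    obtain ⟨u, v, hp⟩ := rootPat_of_two hM hk2 hs hj hnn hG'
    exact omega_le_of_rootPat hM hQ hp hs (fun _ => ht) (by omega) fun _ => Finset.card_singleton j
  · obtain ⟨κ', hG', hne, a', ha'⟩ := exists_full hM hk _ κ le_rfl hG a b ha hba hb
    obtain ⟨D, u, v, hp⟩ := rootPat_of_full hM ha' hne hG' fun _ _ => hk
    exact omega_le_of_rootPat hM hQ hp hs (fun e => absurd e (by omega)) (by omega)
      fun e => absurd e (by omega)

end CfsgLib.OPlusWreath94
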