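import Cfsg.Agent.SympWreath17.Basic

/-!
Rank one and rank two maps of a symplectic space, and isometries moving them.
-/

set_option autoImplicit false
set_option linter.unusedSectionVars false

namespace CfsgLib.OPlusWreath94

open Matrix Module
open CfsgLib.SympWreath17 (IsSymp Isom nmat amat sdual dotProduct_sdual exists_isom_map exists_transvection
  isom_one)

variable {F : Type*} [Field F] {k : ℕ}

/-- The rank one map `z ↦ f z v • u`. -/
def rone (f : LinearMap.BilinForm F (Fin k → F)) (u v : Fin k → F) : Matrix (Fin k) (Fin k) F :=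
  vecMulVec u (sdual f v)

variable {f : LinearMap.BilinForm F (Fin k → F)}

lemma nmat_eq (w : Fin k → F) : nmat f w = rone f w w := rfl

lemma amat_eq (u v : Fin k → F) : amat f u v = rone f u v - rone f v u := rfl

lemma rone_mulVec (u v z : Fin k → F) : rone f u v *ᵥ z = f z v • u := by
  rw [rone, vecMulVec_mulVec, dotProduct_comm, dotProduct_sdual]
  ext i; simp [mul_comm]

lemma rone_mul (u v x y : Fin k → F) : rone f u v * rone f x y = f x v • rone f u y :=
  Matrix.ext_of_mulVec_single fun i => by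
    rw [← mulVec_mulVec, smul_mulVec, rone_mulVec, rone_mulVec, rone_mulVec, map_smul,
      LinearMap.smul_apply, smul_eq_mul, smul_smul, mul_comm]

lemma rone_add_left (u u' v : Fin k → F) : rone f (u + u') v = rone f u v + rone f u' v :=
  add_vecMulVec ..

lemma rone_add_right (u v v' : Fin k → F) : rone f u (v + v') = rone f u v + rone f u v' := by
  rw [rone, map_add, vecMulVec_add]; rfl

lemma rone_smul_left (c : F) (u v : Fin k → F) : rone f (c • u) v = c • rone f u v :=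
  smul_vecMulVec ..

lemma rone_smul_right (c : F) (u v : Fin k → F) : rone f u (c • v) = c • rone f u v := by
  rw [rone, map_smul, vecMulVec_smul]; rfl

lemma conj_rone {r : GL (Fin k) F} (hr : Isom f r) (u v : Fin k → F) :
    r.val * rone f u v * r⁻¹.val = rone f (r.val *ᵥ u) (r.val *ᵥ v) :=
  Matrix.ext_of_mulVec_single fun i => by
    generalize (Pi.single i 1 : Fin k → F) = z
    rw [← mulVec_mulVec, ← mulVec_mulVec, rone_mulVec, rone_mulVec, mulVec_smul]
    congr 1
    rw [← hr (r⁻¹.val *ᵥ z) v, mulVec_mulVec, ← Units.val_mul, mul_inv_cancel, Units.val_one,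
      one_mulVec]

/-- An isometry fixing a vector and moving another one. -/
lemma exists_isom_fix (hf : IsSymp f) {a x y : Fin k → F} (h : f a x = f a y)
    (hor : f a x ≠ 0 ∨ a ≠ 0 ∧ x ∉ Submodule.span F ({a} : Set (Fin k → F)) ∧
      y ∉ Submodule.span F ({a} : Set (Fin k → F))) :
    ∃ r : GL (Fin k) F, Isom f r ∧ r.val *ᵥ a = a ∧ r.val *ᵥ x = y := by
  have direct : ∀ x y, f a x = f a y → f x y ≠ 0 →
      ∃ r : GL (Fin k) F, Isom f r ∧ r.val *ᵥ a = a ∧ r.val *ᵥ x = y := by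
    intro x y h hxy
    obtain ⟨r, hr, -, hrz, -⟩ := exists_transvection hf (f x y)⁻¹ (y - x)
    refine ⟨r, hr, ?_, ?_⟩
    · rw [hrz, map_sub, h, sub_self, mul_zero, zero_smul, add_zero]
    · rw [hrz, map_sub, hf.alt, sub_zero, inv_mul_cancel₀ hxy, one_smul, add_sub_cancel]
  by_cases hxy : f x y = 0
  swap
  · exact direct x y h hxy
  obtain ⟨z, haz, hxz, hzy⟩ : ∃ z, f a z = f a x ∧ f x z ≠ 0 ∧ f z y ≠ 0 := by
    by_cases hc : f a x = 0
    · obtain ⟨ha, hx, hy⟩ := hor.resolve_left (not_not.2 hc)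
      have ex : ∀ v, v ∉ Submodule.span F ({a} : Set (Fin k → F)) → ∃ z, f a z = 0 ∧ f v z ≠ 0 := by
        intro v hv
        by_contra! h0
        obtain ⟨z₀, hz₀⟩ := hf.exists_one ha
        refine hv (Submodule.mem_span_singleton.2 ⟨f v z₀, (sub_eq_zero.1 (hf.nd _ fun z => ?_)).symm⟩)
        have := h0 (z - f a z • z₀) (by simp [hz₀])
        simp only [map_sub, map_smul, smul_eq_mul, LinearMap.sub_apply, LinearMap.smul_apply] at this ⊢
        linear_combination this
      obtain ⟨z₁, ha₁, h₁⟩ := ex x hx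
      obtain ⟨z₂, ha₂, h₂⟩ := ex y hy
      have h₂' : f z₂ y ≠ 0 := hf.ne_zero_comm h₂
      rw [hc]
      by_cases e1 : f z₁ y = 0
      · by_cases e2 : f x z₂ = 0
        · exact ⟨z₁ + z₂, by simp [ha₁, ha₂], by simp [h₁, e2], by simp [e1, h₂']⟩
        · exact ⟨z₂, ha₂, e2, h₂'⟩
      · exact ⟨z₁, ha₁, h₁, e1⟩
    · refine ⟨x + a, by simp [hf.alt], ?_, ?_⟩
      · rw [map_add, hf.alt, zero_add]
        exact hf.ne_zero_comm hc
      · rw [map_add, LinearMap.add_apply, hxy, zero_add, ← h]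
        exact hc
  obtain ⟨r, hr, hra, hrx⟩ := direct x z haz.symm hxz
  obtain ⟨r', hr', hr'a, hr'z⟩ := direct z y (haz.trans h) hzy
  refine ⟨r' * r, hr'.mul hr, ?_, ?_⟩ <;> rw [Units.val_mul, ← mulVec_mulVec]
  · rw [hra, hr'a]
  · rw [hrx, hr'z]

/-- Isometries are transitive on pairs with a given value of the form. -/
lemma exists_isom_pair (hf : IsSymp f) {a b a' b' : Fin k → F} (ha : a ≠ 0) (ha' : a' ≠ 0)
    (h : f a b = f a' b')
    (hor : f a b ≠ 0 ∨ b ∉ Submodule.span F ({a} : Set (Fin k → F)) ∧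
      b' ∉ Submodule.span F ({a'} : Set (Fin k → F))) :
    ∃ r : GL (Fin k) F, Isom f r ∧ r.val *ᵥ a = a' ∧ r.val *ᵥ b = b' := by
  obtain ⟨r, hr, hra⟩ := exists_isom_map hf ha ha'
  have h1 : f a' (r.val *ᵥ b) = f a b := by rw [← hra, hr]
  obtain ⟨r', hr', hr'a, hr'b⟩ := exists_isom_fix hf (a := a') (x := r.val *ᵥ b) (y := b')
    (h1.trans h) (by
      rw [h1]
      refine hor.imp_right fun hh => ⟨ha', fun hmem => hh.1 ?_, hh.2⟩
      obtain ⟨c, hc⟩ := Submodule.mem_span_singleton.1 hmem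
      refine Submodule.mem_span_singleton.2 ⟨c, ?_⟩
      have := congrArg (r⁻¹.val *ᵥ ·) hc
      simp only [← hra, mulVec_smul, mulVec_mulVec, ← Units.val_mul, inv_mul_cancel, Units.val_one,
        one_mulVec] at this
      exact this)
  refine ⟨r' * r, hr'.mul hr, ?_, ?_⟩ <;> rw [Units.val_mul, ← mulVec_mulVec]
  · rw [hra, hr'a]
  · exact hr'b

/-- A hyperbolic pair and a vector orthogonal to it. -/
lemma exists_triple (hf : IsSymp f) (hk : 4 ≤ k) :
    ∃ e e' b : Fin k → F, f e e' = 1 ∧ f e b = 0 ∧ f e' b = 0 ∧ b ≠ 0 := by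
  have he : (Pi.single (⟨0, by omega⟩ : Fin k) (1 : F) : Fin k → F) ≠ 0 := by simp
  obtain ⟨e', he'⟩ := hf.exists_one he
  let L : (Fin k → F) →ₗ[F] F × F := (f (Pi.single (⟨0, by omega⟩ : Fin k) (1 : F) : Fin k → F)).prod (f e')
  have h1 := L.finrank_range_add_finrank_ker
  have h2 := Submodule.finrank_le (LinearMap.range L)
  rw [finrank_prod, finrank_self] at h2
  rw [finrank_pi, Fintype.card_fin] at h1
  obtain ⟨b, hb, hb0⟩ := Submodule.exists_mem_ne_zero_of_ne_bot (p := LinearMap.ker L) (fun h0 => by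
    rw [h0, finrank_bot] at h1; omega)
  simp only [LinearMap.mem_ker, L, LinearMap.prod_apply, Function.prod, Prod.mk_eq_zero] at hb
  exact ⟨_, e', b, he', hb.1, hb.2, hb0⟩

/-- The kinds of factors of a root coefficient. -/
inductive PKind
  | one
  | nn
  | am
  deriving DecidableEq

/-- A factor of the given kind. -/
def Pc (f : LinearMap.BilinForm F (Fin k → F)) : PKind → Matrix (Fin k) (Fin k) F → Prop
  | .one, X => X = 1
  | .nn, X => ∃ w, w ≠ 0 ∧ X = nmat f w
  | .am, X => ∃ a b, a ≠ 0 ∧ f a b = 0 ∧ b ∉ Submodule.span F ({a} : Set (Fin k → F)) ∧ X = amat f a b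

/-- The sign of the adjoint. -/
def pSign : PKind → F
  | .nn => -1
  | _ => 1

lemma amat_ne_zero (hf : IsSymp f) {a b : Fin k → F} (ha : a ≠ 0)
    (hb : b ∉ Submodule.span F ({a} : Set (Fin k → F))) : amat f a b ≠ 0 := by
  intro h0
  have ha0 : ∀ z, f z a • b = f z b • a := fun z => by
    have := congrArg (· *ᵥ z) h0
    simp only [amat_eq, sub_mulVec, rone_mulVec, zero_mulVec, sub_eq_zero] at this
    exact this.symm
  obtain ⟨z, hz⟩ : ∃ z, f z a ≠ 0 := by
    by_contra! h1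
    exact ha (hf.nd a fun y => by rw [hf.skew, h1, neg_zero])
  exact hb (Submodule.mem_span_singleton.2 ⟨f z b / f z a, by
    rw [div_eq_inv_mul, ← smul_smul, ← ha0, inv_smul_smul₀ hz]⟩)

lemma Pc.ne_zero (hf : IsSymp f) (hk : 1 ≤ k) {p : PKind} {X : Matrix (Fin k) (Fin k) F}
    (h : Pc f p X) : X ≠ 0 := by
  cases p with
  | one =>
    rw [show X = 1 from h]
    exact fun e => one_ne_zero (α := F) (by simpa using congrFun (congrFun e ⟨0, hk⟩) ⟨0, hk⟩)
  | nn =>
    obtain ⟨w, hw, rfl⟩ := h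
    intro e
    obtain ⟨y, hy⟩ := hf.exists_one hw
    have := congrArg (· *ᵥ y) e
    simp only [nmat_eq, rone_mulVec, zero_mulVec, hf.skew w y, hy, neg_smul, one_smul, neg_eq_zero] at this
    exact hw this
  | am =>
    obtain ⟨a, b, ha, -, hb, rfl⟩ := h
    exact amat_ne_zero hf ha hb

lemma Pc.sq (hf : IsSymp f) {p : PKind} {X : Matrix (Fin k) (Fin k) F} (hp : p ≠ .one)
    (h : Pc f p X) : X * X = 0 := by
  cases p with
  | one => exact absurd rfl hp
  | nn =>
    obtain ⟨w, -, rfl⟩ := h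
    rw [nmat_eq, rone_mul, hf.alt, zero_smul]
  | am =>
    obtain ⟨a, b, -, hab, -, rfl⟩ := h
    simp only [amat_eq, sub_mul, mul_sub, rone_mul, hf.alt, hab, hf.skew a b, neg_zero, zero_smul,
      sub_zero]

lemma Pc.conj {p : PKind} {X : Matrix (Fin k) (Fin k) F} (h : Pc f p X) {r : GL (Fin k) F}
    (hr : Isom f r) : Pc f p (r.val * X * r⁻¹.val) := by
  have hinj : ∀ v : Fin k → F, r⁻¹.val *ᵥ (r.val *ᵥ v) = v := fun v => by
    rw [mulVec_mulVec, ← Units.val_mul, inv_mul_cancel, Units.val_one, one_mulVec]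
  cases p with
  | one =>
    show _ = _
    rw [show X = 1 from h, mul_one, ← Units.val_mul, mul_inv_cancel, Units.val_one]
  | nn =>
    obtain ⟨w, hw, rfl⟩ := h
    exact ⟨r.val *ᵥ w, fun e => hw (by rw [← hinj w, e, mulVec_zero]), by
      rw [nmat_eq, nmat_eq, conj_rone hr]⟩
  | am =>
    obtain ⟨a, b, ha, hab, hb, rfl⟩ := h
    refine ⟨r.val *ᵥ a, r.val *ᵥ b, fun e => ha (by rw [← hinj a, e, mulVec_zero]), by rw [hr, hab],
      fun e => hb ?_, ?_⟩
    · obtain ⟨c, hc⟩ := Submodule.mem_span_singleton.1 e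
      refine Submodule.mem_span_singleton.2 ⟨c, ?_⟩
      rw [← hinj (c • a), mulVec_smul, hc, hinj]
    · simp only [amat_eq, mul_sub, sub_mul, conj_rone hr]

/-- Two factors of the same kind are conjugate. -/
lemma Pc.exists_conj (hf : IsSymp f) {p : PKind} {X Y : Matrix (Fin k) (Fin k) F} (hX : Pc f p X)
    (hY : Pc f p Y) : ∃ r : GL (Fin k) F, Isom f r ∧ r.val * X * r⁻¹.val = Y := by
  cases p with
  | one => exact ⟨1, isom_one f, by rw [show X = 1 from hX, show Y = 1 from hY]; simp⟩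
  | nn =>
    obtain ⟨w, hw, rfl⟩ := hX
    obtain ⟨w', hw', rfl⟩ := hY
    obtain ⟨r, hr, hrw⟩ := exists_isom_map hf hw hw'
    exact ⟨r, hr, by rw [nmat_eq, conj_rone hr, hrw, nmat_eq]⟩
  | am =>
    obtain ⟨a, b, ha, hab, hb, rfl⟩ := hX
    obtain ⟨a', b', ha', hab', hb', rfl⟩ := hY
    obtain ⟨r, hr, hra, hrb⟩ := exists_isom_pair hf ha ha' (hab.trans hab'.symm) (Or.inr ⟨hb, hb'⟩)
    exact ⟨r, hr, by simp only [amat_eq, mul_sub, sub_mul, conj_rone hr, hra, hrb]⟩

/-- Rank one factors are rescaled by squares. -/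
lemma Pc.exists_scale (hf : IsSymp f) {X : Matrix (Fin k) (Fin k) F} (hX : Pc f .nn X) {d : F}
    (hd : d ≠ 0) : ∃ r : GL (Fin k) F, Isom f r ∧ r.val * X * r⁻¹.val = (d * d) • X := by
  obtain ⟨w, hw, rfl⟩ := hX
  obtain ⟨r, hr, hrw⟩ := exists_isom_map hf hw (smul_ne_zero hd hw)
  exact ⟨r, hr, by rw [nmat_eq, conj_rone hr, hrw, rone_smul_left, rone_smul_right, smul_smul]⟩

/-- The adjoint of a factor. -/
lemma Pc.adjoint (hf : IsSymp f) {p : PKind} {X : Matrix (Fin k) (Fin k) F} (h : Pc f p X)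
    (x y : Fin k → F) : f (X *ᵥ x) y = pSign p * f x (X *ᵥ y) := by
  cases p with
  | one => rw [show X = 1 from h]; simp [pSign]
  | nn =>
    obtain ⟨w, -, rfl⟩ := h
    simp only [nmat_eq, rone_mulVec, map_smul, LinearMap.smul_apply, smul_eq_mul, pSign, hf.skew w y]
    ring
  | am =>
    obtain ⟨a, b, -, -, -, rfl⟩ := h
    simp only [amat_eq, sub_mulVec, rone_mulVec, map_sub, map_smul, LinearMap.sub_apply,
      LinearMap.smul_apply, smul_eq_mul, pSign, hf.skew a y, hf.skew b y]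
    ring

/-- The range of a factor of rank one is isotropic. -/
lemma Pc.isotropic (hf : IsSymp f) {X : Matrix (Fin k) (Fin k) F} (h : Pc f .nn X) (x y : Fin k → F) :
    f (X *ᵥ x) (X *ᵥ y) = 0 := by
  obtain ⟨w, -, rfl⟩ := h
  simp [nmat_eq, rone_mulVec, hf.alt]

end CfsgLib.OPlusWreath94
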