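import Cfsg.Agent.OPlusWreath94.Base
import Cfsg.Agent.OPlusWreath94.NonScalarPieces
import Cfsg.Agent.WreathTensor14.Spread

/-!
A non-scalar root coefficient gives a root element whose coefficient is a product of factors of rank at most
two.
-/

set_option autoImplicit false
set_option linter.unusedSectionVars false

namespace CfsgLib.OPlusWreath94

open Matrix Module Function
open CfsgLib.Aschbacher (kroneckerPow kroneckerPow_mul kroneckerPow_one kroneckerPow_smul)
open CfsgLib.TensorMax (InM rootMap pure pure_mulVec)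
open CfsgLib.SympWreath17 (IsSymp Isom nmat amat sdual dotProduct_sdual sctr sctr_apply sroot sroot_apply
  exists_isom_map exists_transvection isom_one)
open CfsgLib.WreathTensor14 (TV slot slotGroup slotConj kronE InV emb emb_mul emb_one emb_add emb_sub
  emb_smul emb_mul_apply mul_emb_apply kronE_insertNth_left kronE_insertNth_one inM_slotGroup_iff
  pureMul_slot At)

variable {F : Type*} [Field F] {k t s : ℕ} {f : LinearMap.BilinForm F (Fin k → F)}

/-- Every element of a finite field is a sum of two squares. -/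
lemma exists_sq_add_sq [Finite F] (c : F) : ∃ a b : F, a * a + b * b = c := by
  have := Fintype.ofFinite F
  by_cases h2 : ringChar F = 2
  · obtain ⟨a, ha⟩ := FiniteField.isSquare_of_char_two h2 c
    exact ⟨a, 0, by rw [mul_zero, add_zero, ha]⟩
  · obtain ⟨a, b, hab⟩ := FiniteField.exists_root_sum_quadratic (R := F) (f := Polynomial.X ^ 2)
      (g := Polynomial.X ^ 2 - Polynomial.C c) (Polynomial.degree_X_pow 2)
      (Polynomial.degree_X_pow_sub_C (by decide) _) (FiniteField.odd_card_of_char_ne_two h2)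
    simp only [Polynomial.eval_pow, Polynomial.eval_X, Polynomial.eval_sub, Polynomial.eval_C] at hab
    exact ⟨a, b, by linear_combination hab⟩

lemma exists_orth_pair_ne (hf : IsSymp f) {a v : Fin k → F} (ha : a ≠ 0)
    (hv : v ∉ Submodule.span F ({a} : Set (Fin k → F))) : ∃ z, f a z = 0 ∧ f v z ≠ 0 := by
  by_contra! h0
  obtain ⟨z₀, hz₀⟩ := hf.exists_one ha
  refine hv (Submodule.mem_span_singleton.2 ⟨f v z₀, (sub_eq_zero.1 (hf.nd _ fun z => ?_)).symm⟩)
  have := h0 (z - f a z • z₀) (by simp [hz₀])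
  simp only [map_sub, map_smul, smul_eq_mul, LinearMap.sub_apply, LinearMap.smul_apply] at this ⊢
  linear_combination this

lemma exists_orth_off (hk : 3 ≤ k) (b : Fin k → F) :
    ∃ a, f b a = 0 ∧ a ∉ Submodule.span F ({b} : Set (Fin k → F)) := by
  by_contra! h
  have hle : LinearMap.ker (f b) ≤ Submodule.span F ({b} : Set (Fin k → F)) := fun a ha => h a ha
  have h1 := (Submodule.finrank_mono hle).trans (finrank_span_le_card _)
  have h2 := (f b).finrank_range_add_finrank_ker
  have h4 := Submodule.finrank_le (LinearMap.range (f b))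
  rw [finrank_self] at h4
  rw [finrank_pi, Fintype.card_fin] at h2
  simp at h1
  omega

/-- In dimension two the vectors orthogonal to a non-zero vector lie on its line. -/
lemma mem_span_of_orth_two (hf : IsSymp f) (hk : k = 2) {a v : Fin k → F} (ha : a ≠ 0) (h : f a v = 0) :
    v ∈ Submodule.span F ({a} : Set (Fin k → F)) := by
  by_contra hv
  obtain ⟨z, hz, hvz⟩ := exists_orth_pair_ne hf ha hv
  obtain ⟨y, hy⟩ := hf.exists_one ha
  have hle : Submodule.span F ({a} : Set (Fin k → F)) ⊔ Submodule.span F {v} ≤ LinearMap.ker (f a) :=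
    sup_le ((Submodule.span_singleton_le_iff_mem _ _).2 (hf.alt a))
      ((Submodule.span_singleton_le_iff_mem _ _).2 h)
  have h2 := (f a).finrank_range_add_finrank_ker
  have h3 : 1 ≤ finrank F (LinearMap.range (f a)) := Submodule.one_le_finrank_iff.2 fun h0 => by
    rw [LinearMap.range_eq_bot] at h0
    simp [h0] at hy
  rw [finrank_pi, Fintype.card_fin] at h2
  have hlt : Submodule.span F ({a} : Set (Fin k → F)) < LinearMap.ker (f a) :=
    lt_of_le_of_ne (le_sup_left.trans hle) fun e => hv (e ▸ h)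
  have h4 := Submodule.finrank_lt_finrank_of_lt hlt
  rw [finrank_span_singleton ha] at h4
  omega

lemma Pc.no_am (hf : IsSymp f) (hk : k = 2) {X : Matrix (Fin k) (Fin k) F} : ¬ Pc f .am X := by
  rintro ⟨a, b, ha, hab, hb, -⟩
  exact hb (mem_span_of_orth_two hf hk ha hab)

lemma rone_sandwich (K : Matrix (Fin k) (Fin k) F) (a b : Fin k → F) :
    rone f a a * K * rone f b b = f (K *ᵥ b) a • rone f a b :=
  Matrix.ext_of_mulVec_single fun i => by
    simp only [← mulVec_mulVec, rone_mulVec, smul_mulVec, mulVec_smul, map_smul, LinearMap.smul_apply,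
      smul_eq_mul, smul_smul]
    rw [mul_comm]

/-! ### Slices -/

/-- The block of a matrix in one factor, the other indices fixed. -/
def slice (j : Fin t) (θ : Matrix (Fin t → Fin k) (Fin t → Fin k) F) (x y : Fin t → Fin k) :
    Matrix (Fin k) (Fin k) F :=
  Matrix.of fun u u' => θ (update x j u) (update y j u')

lemma slice_emb_mul (j : Fin t) (A : Matrix (Fin k) (Fin k) F)
    (θ : Matrix (Fin t → Fin k) (Fin t → Fin k) F) (x y : Fin t → Fin k) :
    slice j (emb j A * θ) x y = A * slice j θ x y := by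
  ext u u'
  rw [slice, Matrix.of_apply, emb_mul_apply, Matrix.mul_apply]
  simp [slice]

lemma slice_mul_emb (j : Fin t) (A : Matrix (Fin k) (Fin k) F)
    (θ : Matrix (Fin t → Fin k) (Fin t → Fin k) F) (x y : Fin t → Fin k) :
    slice j (θ * emb j A) x y = slice j θ x y * A := by
  ext u u'
  rw [slice, Matrix.of_apply, mul_emb_apply, Matrix.mul_apply]
  simp [slice]

lemma slice_sandwich (j : Fin t) (A B : Matrix (Fin k) (Fin k) F)
    (θ : Matrix (Fin t → Fin k) (Fin t → Fin k) F) (x y : Fin t → Fin k) :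
    slice j (emb j A * θ * emb j B) x y = A * slice j θ x y * B := by
  rw [slice_mul_emb, slice_emb_mul]

lemma eq_zero_of_slices (j : Fin t) {θ : Matrix (Fin t → Fin k) (Fin t → Fin k) F}
    (h : ∀ x y, slice j θ x y = 0) : θ = 0 := by
  ext x y
  have := congrFun (congrFun (h x y) (x j)) (y j)
  simpa [slice] using this

lemma at_of_slices (j : Fin t) {θ : Matrix (Fin t → Fin k) (Fin t → Fin k) F}
    {B : Matrix (Fin k) (Fin k) F} {p q : Fin k} (hB : B p q ≠ 0)
    (h : ∀ x y, ∃ c : F, slice j θ x y = c • B) : At j ((B p q)⁻¹ • B) p q θ := fun x y => by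
  obtain ⟨c, hc⟩ := h x y
  have h1 := congrFun (congrFun hc (x j)) (y j)
  have h2 := congrFun (congrFun hc p) q
  simp only [slice, Matrix.of_apply, update_eq_self, Matrix.smul_apply, smul_eq_mul] at h1 h2
  rw [h1, h2, Matrix.smul_apply, smul_eq_mul]
  field_simp

/-- Conjugation by isometries of one factor preserves the space. -/
def InvAt (f : LinearMap.BilinForm F (Fin k → F)) (j : Fin t)
    (R : Submodule F (Matrix (Fin t → Fin k) (Fin t → Fin k) F)) : Prop :=
  ∀ r : GL (Fin k) F, Isom f r → ∀ θ ∈ R, emb j r.val * θ * emb j r⁻¹.val ∈ R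

lemma InvAt.diff {j : Fin t} {R : Submodule F (Matrix (Fin t → Fin k) (Fin t → Fin k) F)}
    (hR : InvAt f j R) (hf : IsSymp f) (c : F) (w : Fin k → F)
    {θ : Matrix (Fin t → Fin k) (Fin t → Fin k) F} (hθ : θ ∈ R) :
    c • (emb j (nmat f w) * θ) - c • (θ * emb j (nmat f w))
      - (c * c) • (emb j (nmat f w) * θ * emb j (nmat f w)) ∈ R := by
  obtain ⟨r, hr, hv, -, hvi⟩ := exists_transvection hf c w
  have h := R.sub_mem (hR r hr θ hθ) hθ
  rw [hv, hvi, emb_add, emb_sub, emb_one, emb_smul] at h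
  convert h using 1
  simp only [add_mul, mul_sub, one_mul, mul_one, smul_mul_assoc, mul_smul_comm, smul_smul, smul_sub,
    smul_add]
  abel

lemma InvAt.pair {j : Fin t} {R : Submodule F (Matrix (Fin t → Fin k) (Fin t → Fin k) F)}
    (hR : InvAt f j R) (hf : IsSymp f) {a b : Fin k → F} (hab : f a b = 0)
    {θ : Matrix (Fin t → Fin k) (Fin t → Fin k) F} (hθ : θ ∈ R) :
    emb j (rone f a a) * θ * emb j (rone f b b) + emb j (rone f b b) * θ * emb j (rone f a a) ∈ R := by
  have h := R.neg_mem (hR.diff hf 1 b (hR.diff hf 1 a hθ))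
  have z1 : emb j (nmat f a) * emb j (nmat f b) = 0 := by
    rw [emb_mul, nmat_eq, nmat_eq, rone_mul, hf.skew a b, hab, neg_zero, zero_smul,
      WreathTensor14.emb_zero]
  have z2 : emb j (nmat f b) * emb j (nmat f a) = 0 := by
    rw [emb_mul, nmat_eq, nmat_eq, rone_mul, hab, zero_smul, WreathTensor14.emb_zero]
  have z1' : ∀ X, emb j (nmat f a) * (emb j (nmat f b) * X) = 0 := fun X => by
    rw [← Matrix.mul_assoc, z1, Matrix.zero_mul]
  have z2' : ∀ X, emb j (nmat f b) * (emb j (nmat f a) * X) = 0 := fun X => by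
    rw [← Matrix.mul_assoc, z2, Matrix.zero_mul]
  convert h using 1
  rw [← nmat_eq, ← nmat_eq]
  simp only [one_smul, one_mul, mul_sub, sub_mul, Matrix.mul_assoc, z1, z2, z1', z2', Matrix.mul_zero,
    Matrix.zero_mul, sub_zero, zero_sub, neg_neg, neg_sub, sub_neg_eq_add, neg_mul, mul_neg, neg_zero]


/-- Treating one factor. -/
lemma exists_slot_step (hf : IsSymp f) (hsm : (k = 2 ∧ (2 : F) ≠ 0) ∨ 4 ≤ k) {j : Fin t}
    {R : Submodule F (Matrix (Fin t → Fin k) (Fin t → Fin k) F)} (hR : InvAt f j R)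
    {θ : Matrix (Fin t → Fin k) (Fin t → Fin k) F} (hθ : θ ∈ R) {x₀ y₀ : Fin t → Fin k}
    (hns : ∀ c : F, slice j θ x₀ y₀ ≠ c • 1) :
    ∃ θ' ∈ R, θ' ≠ 0 ∧ ∃ p B, p ≠ PKind.one ∧ Pc f p B ∧ ∀ x y, ∃ c : F, slice j θ' x y = c • B := by
  set K := slice j θ x₀ y₀ with hK
  obtain ⟨b, hb⟩ : ∃ b, K *ᵥ b ∉ Submodule.span F ({b} : Set (Fin k → F)) := by
    by_contra! h
    obtain ⟨c, hc⟩ := TensorMax.eq_smul_one_of_forall_mem_span K h
    exact hns c hc
  have hb0 : b ≠ 0 := fun e => hb (by simp [e])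
  rcases hsm with ⟨hk, h2⟩ | hk
  · have hKb : f (K *ᵥ b) b ≠ 0 := fun e =>
      hb (mem_span_of_orth_two hf hk hb0 (by rw [hf.skew, e, neg_zero]))
    refine ⟨emb j (rone f b b) * θ * emb j (rone f b b), ?_, fun e => ?_, .nn, rone f b b, by simp,
      ⟨b, hb0, rfl⟩, fun x y => ⟨f (slice j θ x y *ᵥ b) b, by rw [slice_sandwich, rone_sandwich]⟩⟩
    · have h := R.smul_mem (-2 : F)⁻¹ (R.add_mem (hR.diff hf 1 b hθ) (hR.diff hf (-1) b hθ))
      convert h using 1
      rw [show (1 : F) • (emb j (nmat f b) * θ) - (1 : F) • (θ * emb j (nmat f b))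
          - ((1 : F) * 1) • (emb j (nmat f b) * θ * emb j (nmat f b))
          + ((-1 : F) • (emb j (nmat f b) * θ) - (-1 : F) • (θ * emb j (nmat f b))
          - ((-1 : F) * -1) • (emb j (nmat f b) * θ * emb j (nmat f b)))
        = (-2 : F) • (emb j (nmat f b) * θ * emb j (nmat f b)) by module,
        inv_smul_smul₀ (neg_ne_zero.2 h2), nmat_eq]
    · have h := congrArg (fun X => slice j X x₀ y₀) e
      simp only [slice_sandwich, rone_sandwich, ← hK] at h
      rw [show slice j (0 : Matrix (Fin t → Fin k) (Fin t → Fin k) F) x₀ y₀ = 0 from rfl,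
        smul_eq_zero] at h
      exact h.elim hKb (Pc.ne_zero hf (by omega) (p := .nn) ⟨b, hb0, rfl⟩)
  obtain ⟨a, hba, hab, hKa⟩ : ∃ a, f b a = 0 ∧ a ∉ Submodule.span F ({b} : Set (Fin k → F)) ∧
      f (K *ᵥ b) a ≠ 0 := by
    obtain ⟨z, hz, hKz⟩ := exists_orth_pair_ne hf hb0 hb
    by_cases hzb : z ∈ Submodule.span F ({b} : Set (Fin k → F))
    swap
    · exact ⟨z, hz, hzb, hKz⟩
    obtain ⟨a, ha, hab⟩ := exists_orth_off (f := f) (by omega) b
    by_cases hKa : f (K *ᵥ b) a = 0
    · refine ⟨a + z, by rw [map_add, ha, hz, add_zero], fun h => hab ?_, by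
        rw [map_add, hKa, zero_add]; exact hKz⟩
      simpa using Submodule.sub_mem _ h hzb
    · exact ⟨a, ha, hab, hKa⟩
  have hfab : f a b = 0 := by rw [hf.skew, hba, neg_zero]
  have ha0 : a ≠ 0 := fun e => hab (e ▸ zero_mem _)
  have hbF : b ∉ Submodule.span F ({a} : Set (Fin k → F)) := fun h => by
    obtain ⟨c, hc⟩ := Submodule.mem_span_singleton.1 h
    rcases eq_or_ne c 0 with rfl | hc0
    · exact hb0 (by rw [← hc, zero_smul])
    · exact hab (Submodule.mem_span_singleton.2 ⟨c⁻¹, by rw [← hc, inv_smul_smul₀ hc0]⟩)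
  set φ := fun x y => f (slice j θ x y *ᵥ b) a with hφ
  set φ' := fun x y => f (slice j θ x y *ᵥ a) b with hφ'
  set G := emb j (rone f a a) * θ * emb j (rone f b b) + emb j (rone f b b) * θ * emb j (rone f a a)
  have hG : G ∈ R := hR.pair hf hfab hθ
  have hGs : ∀ x y, slice j G x y = φ x y • rone f a b + φ' x y • rone f b a := fun x y => by
    rw [hφ, hφ', ← rone_sandwich, ← rone_sandwich, ← slice_sandwich, ← slice_sandwich]
    rfl
  have hG0 : φ x₀ y₀ • rone f a b + φ' x₀ y₀ • rone f b a ≠ 0 := by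
    intro h
    obtain ⟨z, hz⟩ := hf.exists_one hb0
    have h1 := congrArg (fun X : Matrix (Fin k) (Fin k) F => X *ᵥ z) h
    simp only [add_mulVec, smul_mulVec, rone_mulVec, zero_mulVec, smul_smul, hf.skew b z, hz] at h1
    rcases eq_or_ne (φ' x₀ y₀ * f z a) 0 with h0 | h0
    · rw [h0, zero_smul, add_zero, smul_eq_zero] at h1
      exact h1.elim (by simp [hφ, ← hK, hKa]) ha0
    · refine hbF (Submodule.mem_span_singleton.2 ⟨(φ' x₀ y₀ * f z a)⁻¹ * -(φ x₀ y₀ * -1), ?_⟩)
      rw [← smul_smul, neg_smul, ← eq_neg_of_add_eq_zero_right h1, inv_smul_smul₀ h0]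
  by_cases hall : ∀ x y, φ' x y = -φ x y
  · refine ⟨G, hG, fun e => hG0 (by rw [← hGs, e]; rfl), .am, amat f a b, by simp,
      ⟨a, b, ha0, hfab, hbF, rfl⟩, fun x y => ⟨φ x y, ?_⟩⟩
    rw [hGs, hall, amat_eq]
    module
  push Not at hall
  obtain ⟨x₁, y₁, h1⟩ := hall
  obtain ⟨r, hr, hra, hrb⟩ := exists_isom_fix hf (a := a) (x := b) (y := b + a)
    (by rw [map_add, hf.alt, add_zero]) (Or.inr ⟨ha0, hbF, fun h => hbF (by
      simpa using Submodule.sub_mem _ h (Submodule.mem_span_singleton_self a))⟩)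
  set G' := emb j r.val * G * emb j r⁻¹.val - G
  have hG's : ∀ x y, slice j G' x y = (φ x y + φ' x y) • rone f a a := fun x y => by
    rw [show slice j G' x y = r.val * slice j G x y * r⁻¹.val - slice j G x y by
      rw [← slice_sandwich]; rfl, hGs]
    simp only [mul_add, add_mul, Matrix.mul_smul, Matrix.smul_mul, conj_rone hr, hra, hrb,
      rone_add_left, rone_add_right]
    module
  refine ⟨G', R.sub_mem (hR r hr G hG) hG, fun e => ?_, .nn, rone f a a, by simp, ⟨a, ha0, rfl⟩,
    fun x y => ⟨_, hG's x y⟩⟩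
  have h2 := hG's x₁ y₁
  rw [e, show slice j (0 : Matrix (Fin t → Fin k) (Fin t → Fin k) F) x₁ y₁ = 0 from rfl, eq_comm,
    smul_eq_zero] at h2
  refine h2.elim (fun h3 => h1 ?_) (Pc.ne_zero hf (by omega) (p := .nn) ⟨a, ha0, rfl⟩)
  linear_combination h3

/-! ### The coefficient space -/

/-- The element `1 + A` lies in the group. -/
def InK (M : Subgroup (TV F k t ≃ₗ[F] TV F k t))
    (A : Matrix (Fin t → Fin k) (Fin t → Fin k) F) : Prop := InV M A.mulVecLin

lemma transpose_mulVec_sdual {a : GL (Fin k) F} (ha : Isom f a) (w : Fin k → F) :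
    (a.val)ᵀ *ᵥ sdual f (a.val *ᵥ w) = sdual f w := by
  refine funext fun i => ?_
  have h := ha (Pi.single i 1) w
  rw [← dotProduct_sdual f _ (a.val *ᵥ w), ← dotProduct_sdual f _ w] at h
  rw [single_dotProduct, one_mul] at h
  rw [← h, mulVec_single_one]
  rfl

lemma sroot_smul_vec (θ : Matrix (Fin s → Fin k) (Fin s → Fin k) F) (d : F) (w : Fin k → F) :
    sroot f θ (d • w) = sroot f ((d * d) • θ) w := LinearMap.ext fun X => by
  rw [sroot_apply, sroot_apply, sctr_apply, sctr_apply, map_smul, mulVec_smul, mulVec_smul,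
    TensorMax.pure, TensorMax.pure, vecMulVec_smul, smul_mulVec, smul_vecMulVec, smul_vecMulVec,
    smul_smul]

variable [Finite F] {Q : TV F k (s + 1) → F} {M : Subgroup (TV F k (s + 1) ≃ₗ[F] TV F k (s + 1))}
  (hM : OBase f Q M)
include hM

/-- The coefficients that occur with every centre. -/
def coeff (i : Fin (s + 1)) : Submodule F (Matrix (Fin s → Fin k) (Fin s → Fin k) F) where
  carrier := {θ | ∀ w, InM (slotGroup M i) (sroot f θ w)}
  zero_mem' w := InM.zero.congr fun X => by simp [TensorMax.pure, zero_vecMulVec]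
  add_mem' := by
    intro θ φ h h' w
    refine ((h w).add (h' w) fun X => ?_).congr fun X => ?_
    · rw [sroot_apply f θ, sroot_apply f φ, SympWreath17.sctr_pure, hM.symp.alt, zero_smul,
        mulVec_zero]
      simp [TensorMax.pure, zero_vecMulVec]
    · simp only [LinearMap.add_apply, sroot_apply, add_mulVec, TensorMax.pure, add_vecMulVec]
  smul_mem' := by
    intro c θ h w
    obtain ⟨a, b, rfl⟩ := exists_sq_add_sq c
    refine ((h (a • w)).add (h (b • w)) fun X => ?_).congr fun X => ?_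
    · rw [sroot_apply f θ (a • w), sroot_apply f θ (b • w), SympWreath17.sctr_pure]
      simp [hM.symp.alt, TensorMax.pure, zero_vecMulVec]
    · rw [LinearMap.add_apply, sroot_smul_vec, sroot_smul_vec]
      simp only [sroot_apply, add_smul, add_mulVec, TensorMax.pure, add_vecMulVec]

lemma slot_left (i : Fin (s + 1)) (gs : Fin s → GL (Fin k) F) (h : ∀ l, Isom f (gs l)) :
    ∃ e ∈ slotGroup M i, ∀ X, e X = kroneckerPow (fun l => (gs l).val) * X := by
  refine ⟨_, Subgroup.mem_map_of_mem _ (hM.kron_mem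
    (Fin.insertNth (α := fun _ => GL (Fin k) F) i 1 gs) fun l => ?_), kronE_insertNth_left i gs⟩
  rcases Fin.eq_self_or_eq_succAbove i l with rfl | ⟨l', rfl⟩
  · simpa using isom_one f
  · simpa using h l'

lemma mem_coeff_of_one {i : Fin (s + 1)} {θ : Matrix (Fin s → Fin k) (Fin s → Fin k) F} {w : Fin k → F}
    (hw : w ≠ 0) (h : InM (slotGroup M i) (sroot f θ w)) : θ ∈ coeff hM i := by
  intro w'
  rcases eq_or_ne w' 0 with rfl | hw'
  · exact InM.zero.congr fun X => by simp [TensorMax.pure]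
  obtain ⟨a, ha, rfl⟩ := exists_isom_map hM.symp hw hw'
  obtain ⟨e, he, heX⟩ : ∃ e ∈ slotGroup M i, ∀ X, e X = X * (a.val)ᵀ :=
    ⟨_, Subgroup.mem_map_of_mem _ (hM.kron_mem
      (Fin.insertNth (α := fun _ => GL (Fin k) F) i a 1) fun l => by
        rcases Fin.eq_self_or_eq_succAbove i l with rfl | ⟨l', rfl⟩
        · simpa using ha
        · simpa using isom_one f), kronE_insertNth_one i a⟩
  refine (h.conj he).congr fun X => ?_
  obtain ⟨Y, rfl⟩ := e.surjective X
  simp only [LinearMap.comp_apply, LinearEquiv.coe_coe, LinearEquiv.symm_apply_apply]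
  simp only [sroot_apply,
    sctr_apply, heX, TensorMax.pure, vecMulVec_mul, vecMul_transpose]
  rw [← mulVec_mulVec, transpose_mulVec_sdual ha]

lemma coeff_inv (i : Fin (s + 1)) (j : Fin s) : InvAt f j (coeff hM i) := by
  intro r hr θ hθ w
  obtain ⟨e, he, heX⟩ := slot_left hM i (Pi.mulSingle j r) fun l => by
    rcases eq_or_ne l j with rfl | h
    · simpa using hr
    · simpa [h] using isom_one f
  have hA : (fun l => ((Pi.mulSingle j r : Fin s → GL (Fin k) F) l).val) = Pi.mulSingle j r.val :=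
    funext fun l => by rcases eq_or_ne l j with rfl | h <;> simp [*]
  refine ((hθ w).conj he).congr fun X => ?_
  obtain ⟨Y, rfl⟩ := e.surjective X
  simp only [LinearMap.comp_apply, LinearEquiv.coe_coe, LinearEquiv.symm_apply_apply]
  simp only [sroot_apply,
    sctr_apply, heX, hA]
  rw [TensorMax.pure, TensorMax.pure, mul_vecMulVec, show
    kroneckerPow (Pi.mulSingle j r.val) = emb j r.val from rfl]
  simp only [mulVec_mulVec, ← Matrix.mul_assoc]
  rw [Matrix.mul_assoc (emb j r.val * θ), emb_mul, ← Units.val_mul, inv_mul_cancel, Units.val_one,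
    emb_one, Matrix.mul_one]

/-- Without the hypothesis that all coefficients are scalar, a product of factors of rank at most two is a
coefficient. -/
theorem exists_shape (hns : ¬ SympWreath17.OnlyScal f M) :
    ∃ (κ : Fin (s + 1) → PKind) (B : Fin (s + 1) → Matrix (Fin k) (Fin k) F) (c : F) (a b : Fin (s + 1)),
      c ≠ 0 ∧ (∀ l, Pc f (κ l) (B l)) ∧ κ a = .nn ∧ b ≠ a ∧ κ b ≠ .one ∧ InK M (c • kroneckerPow B) := by
  classical
  have hsm : (k = 2 ∧ (2 : F) ≠ 0) ∨ 4 ≤ k := hM.small.imp (fun h => ⟨h.1, h.2.1⟩) And.left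
  have hk1 : 1 ≤ k := le_trans (by norm_num) hM.two_le
  simp only [SympWreath17.OnlyScal, not_forall, not_exists] at hns
  obtain ⟨i, θ, w, hw, hin, hne⟩ := hns
  have hθ := mem_coeff_of_one hM hw hin
  let o : Fin k := ⟨0, hk1⟩
  have key : ∀ I : Finset (Fin s), ∃ θ' ∈ coeff hM i, ∃ (κ : Fin s → PKind)
      (B : Fin s → Matrix (Fin k) (Fin k) F) (p q : Fin s → Fin k), θ' ≠ 0 ∧
      (∀ l, Pc f (κ l) (B l)) ∧ (∀ l, B l (p l) (q l) ≠ 0) ∧
      (∀ l ∈ I, At l ((B l (p l) (q l))⁻¹ • B l) (p l) (q l) θ') ∧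
      ((θ' = θ ∧ ∀ l, κ l = .one) ∨ ∃ l ∈ I, κ l ≠ .one) := by
    intro I
    induction I using Finset.induction_on with
    | empty =>
      exact ⟨θ, hθ, fun _ => .one, fun _ => 1, fun _ => o, fun _ => o, fun h => hne 0 (by simp [h]),
        fun l => rfl, fun l => by simp, by simp, Or.inl ⟨rfl, fun l => rfl⟩⟩
    | @insert j I hj ih =>
      obtain ⟨θ₁, hθ₁, κ, B, p, q, h0, hPc, hpq, hat, hor⟩ := ih
      by_cases hsc : ∀ x y, ∃ c : F, slice j θ₁ x y = c • 1
      · refine ⟨θ₁, hθ₁, update κ j .one, update B j 1, update p j o, update q j o, h0, fun l => ?_,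
          fun l => ?_, fun l hl => ?_, ?_⟩
        · rcases eq_or_ne l j with rfl | h
          · rw [update_self, update_self]; rfl
          · simpa [h] using hPc l
        · rcases eq_or_ne l j with rfl | h <;> simp [*]
        · rcases Finset.mem_insert.1 hl with rfl | hl
          · simp only [update_self]
            exact at_of_slices l (by simp) hsc
          · simpa [show l ≠ j from fun e => hj (e ▸ hl)] using hat l hl
        · rcases hor with ⟨h, h'⟩ | ⟨l, hl, hl'⟩
          · refine Or.inl ⟨h, fun l => ?_⟩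
            rcases eq_or_ne l j with rfl | h'' <;> simp [*]
          · exact Or.inr ⟨l, Finset.mem_insert_of_mem hl,
              by simpa [show l ≠ j from fun e => hj (e ▸ hl)] using hl'⟩
      push Not at hsc
      obtain ⟨x₀, y₀, hns⟩ := hsc
      let R : Submodule F (Matrix (Fin s → Fin k) (Fin s → Fin k) F) :=
        { carrier := {φ | φ ∈ coeff hM i ∧ ∀ l ∈ I, At l ((B l (p l) (q l))⁻¹ • B l) (p l) (q l) φ}
          zero_mem' := ⟨zero_mem _, fun l _ x y => by simp⟩
          add_mem' := fun h h' => ⟨add_mem h.1 h'.1, fun l hl x y => by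
            rw [Matrix.add_apply, Matrix.add_apply, h.2 l hl x y, h'.2 l hl x y, mul_add]⟩
          smul_mem' := fun c φ h => ⟨Submodule.smul_mem _ c h.1, fun l hl x y => by
            simp only [Matrix.smul_apply, smul_eq_mul, h.2 l hl x y]
            ring⟩ }
      have hR : InvAt f j R := fun r hr φ hφ => ⟨coeff_inv hM i j r hr φ hφ.1, fun l hl =>
        ((hφ.2 l hl).left (ne_of_mem_of_not_mem hl hj) _).right (ne_of_mem_of_not_mem hl hj) _⟩
      obtain ⟨θ₂, hθ₂, h2, kd, X, hkd, hX, hsl⟩ :=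
        exists_slot_step hM.symp hsm hR (θ := θ₁) ⟨hθ₁, hat⟩ hns
      obtain ⟨p', q', hpq'⟩ : ∃ p' q', X p' q' ≠ 0 := by
        by_contra! h
        exact Pc.ne_zero hM.symp hk1 hX (Matrix.ext h)
      refine ⟨θ₂, hθ₂.1, update κ j kd, update B j X, update p j p', update q j q', h2, fun l => ?_,
        fun l => ?_, fun l hl => ?_, Or.inr ⟨j, Finset.mem_insert_self j I, by simpa using hkd⟩⟩
      · rcases eq_or_ne l j with rfl | h
        · simpa using hX
        · simpa [h] using hPc l
      · rcases eq_or_ne l j with rfl | h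
        · simpa using hpq'
        · simpa [h] using hpq l
      · rcases Finset.mem_insert.1 hl with rfl | hl
        · simp only [update_self]
          exact at_of_slices l hpq' hsl
        · simpa [show l ≠ j from fun e => hj (e ▸ hl)] using hθ₂.2 l hl
  obtain ⟨θ', hθ', κ, B, p, q, h0, hPc, hpq, hat, hor⟩ := key Finset.univ
  have hprod : ∀ (I : Finset (Fin s)) (x y : Fin s → Fin k), θ' x y =
      (∏ l ∈ I, ((B l (p l) (q l))⁻¹ • B l) (x l) (y l)) * θ' (I.piecewise p x) (I.piecewise q y) := by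
    intro I
    induction I using Finset.induction_on with
    | empty => simp
    | @insert j I hj ih =>
      intro x y
      rw [ih x y, hat j (Finset.mem_univ j), Finset.piecewise_eq_of_notMem _ _ _ hj,
        Finset.piecewise_eq_of_notMem _ _ _ hj, Finset.piecewise_insert, Finset.piecewise_insert,
        Finset.prod_insert hj]
      ring
  set C := θ' p q * ∏ l, (B l (p l) (q l))⁻¹ with hC
  have heq : θ' = C • kroneckerPow B := by
    ext x y
    rw [hprod Finset.univ x y, Finset.piecewise_univ, Finset.piecewise_univ, Matrix.smul_apply,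
      smul_eq_mul, hC]
    simp only [Matrix.smul_apply, smul_eq_mul, Finset.prod_mul_distrib, kroneckerPow, Matrix.of_apply]
    ring
  have hCne : C ≠ 0 := fun h => h0 (by rw [heq, h, zero_smul])
  obtain ⟨l, hl⟩ : ∃ l, κ l ≠ .one := by
    rcases hor with ⟨rfl, h⟩ | ⟨l, -, hl⟩
    · refine absurd ?_ (hne C)
      conv_lhs => rw [heq]
      rw [show B = fun _ => 1 from funext fun l => by have := hPc l; rwa [h l] at this,
        kroneckerPow_one]
    · exact ⟨l, hl⟩
  refine ⟨Fin.insertNth (α := fun _ => PKind) i .nn κ,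
    Fin.insertNth (α := fun _ => Matrix (Fin k) (Fin k) F) i (nmat f w) B, C, i, i.succAbove l, hCne,
    fun m => ?_, by simp, Fin.succAbove_ne i l, by simpa using hl, ?_⟩
  · rcases Fin.eq_self_or_eq_succAbove i m with rfl | ⟨m', rfl⟩
    · simp only [Fin.insertNth_apply_same]
      exact ⟨w, hw, rfl⟩
    · simpa using hPc m'
  · have h := inM_slotGroup_iff.1 (hθ' w)
    unfold InK
    convert h using 1
    refine LinearMap.ext fun v => ?_
    rw [Matrix.mulVecLin_apply, smul_mulVec, nmat, ← pureMul_slot, heq]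
    simp only [LinearMap.comp_apply, LinearEquiv.coe_coe]
    rw [← map_smul]
    congr 1
    simp [sroot, TensorMax.rootMap_apply, smul_mulVec, TensorMax.pure, smul_vecMulVec]

end CfsgLib.OPlusWreath94
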