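import Cfsg.Agent.OPlusWreath94.NonScalarSlot
import Mathlib.GroupTheory.SpecificGroups.Alternating

/-!
Commutators of root elements with product coefficients spread over all factors and end in a long root
element attached to two pure tensors.
-/

set_option autoImplicit false
set_option linter.unusedSectionVars false

namespace CfsgLib.OPlusWreath94

open Matrix Module Function
open CfsgLib.Aschbacher (kroneckerPow kroneckerPow_mul kroneckerPow_one kroneckerPow_smul)
open CfsgLib.SympWreath17 (IsSymp Isom nmat amat exists_isom_map isom_one tform tform_pv)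
open CfsgLib.WreathTensor14 (TV pv kronE kronE_apply kronE_pv permE permE_pv InV emb emb_mul emb_add
  kroneckerPow_mulVec_pv linearMap_ext_pv)

variable {F : Type*} [Field F] {k t : ℕ} {f : LinearMap.BilinForm F (Fin k → F)}

/-! ### Products over the factors -/

lemma kron_zero {A : Fin t → Matrix (Fin k) (Fin k) F} (i : Fin t) (h : A i = 0) :
    kroneckerPow A = 0 := by
  ext x y
  exact Finset.prod_eq_zero (Finset.mem_univ i) (by rw [h]; rfl)

lemma kron_update (A : Fin t → Matrix (Fin k) (Fin k) F) (i : Fin t) (X : Matrix (Fin k) (Fin k) F) :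
    kroneckerPow (update A i X) = emb i X * kroneckerPow (update A i 1) := by
  rw [emb, kroneckerPow_mul]
  congr 1
  funext l
  rcases eq_or_ne l i with rfl | h <;> simp [*]

lemma kron_update_add (A : Fin t → Matrix (Fin k) (Fin k) F) (i : Fin t)
    (X Y : Matrix (Fin k) (Fin k) F) :
    kroneckerPow (update A i (X + Y)) = kroneckerPow (update A i X) + kroneckerPow (update A i Y) := by
  rw [kron_update, kron_update A i X, kron_update A i Y, emb_add, add_mul]

lemma kron_update_sub (A : Fin t → Matrix (Fin k) (Fin k) F) (i : Fin t)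
    (X Y : Matrix (Fin k) (Fin k) F) :
    kroneckerPow (update A i (X - Y)) = kroneckerPow (update A i X) - kroneckerPow (update A i Y) := by
  rw [eq_sub_iff_add_eq, ← kron_update_add, sub_add_cancel]

lemma kron_update_smul (A : Fin t → Matrix (Fin k) (Fin k) F) (i : Fin t) (c : F)
    (X : Matrix (Fin k) (Fin k) F) :
    kroneckerPow (update A i (c • X)) = c • kroneckerPow (update A i X) := by
  rw [kron_update, kron_update A i X, WreathTensor14.emb_smul, smul_mul_assoc]

/-! ### Elements of the form `1 + A` -/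

variable {M : Subgroup (TV F k t ≃ₗ[F] TV F k t)} {A A' : Matrix (Fin t → Fin k) (Fin t → Fin k) F}

lemma InK.zero : InK M 0 := ⟨1, M.one_mem, fun v => by simp⟩

lemma InK.add (h : InK M A) (h' : InK M A') (h0 : A * A' = 0) : InK M (A + A') := by
  obtain ⟨e, he, hev⟩ := h
  obtain ⟨e', he', hev'⟩ := h'
  refine ⟨e * e', M.mul_mem he he', fun v => ?_⟩
  simp only [LinearEquiv.mul_apply, hev, hev', mulVecLin_apply, add_mulVec, mulVec_add, mulVec_mulVec,
    h0, zero_mulVec]
  abel

lemma InK.neg (h : InK M A) (h0 : A * A = 0) : InK M (-A) := by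
  obtain ⟨e, he, hev⟩ := h
  refine ⟨e⁻¹, M.inv_mem he, fun v => e.injective ?_⟩
  rw [← LinearEquiv.mul_apply, mul_inv_cancel, LinearEquiv.coe_one, id_eq, hev]
  simp only [mulVecLin_apply, neg_mulVec, mulVec_add, mulVec_neg, mulVec_mulVec, h0, zero_mulVec]
  abel

lemma InK.sub (h : InK M A) (h' : InK M A') (h0 : A * A' = 0) (h1 : A' * A' = 0) : InK M (A - A') := by
  rw [sub_eq_add_neg]
  exact h.add (h'.neg h1) (by rw [Matrix.mul_neg, h0, neg_zero])

/-- The commutator of two elements. -/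
lemma InK.comm (h : InK M A) (h' : InK M A') (hA : A * A = 0) (hA' : A' * A' = 0)
    (h1 : A * A' * A = 0) (h2 : A' * A * A' = 0) : InK M (A * A' - A' * A) := by
  obtain ⟨d, hd, hdv⟩ := h.neg hA
  obtain ⟨d', hd', hdv'⟩ := h'.neg hA'
  obtain ⟨e, he, hev⟩ := h
  obtain ⟨e', he', hev'⟩ := h'
  refine ⟨e * e' * d * d', M.mul_mem (M.mul_mem (M.mul_mem he he') hd) hd', fun v => ?_⟩
  have a0 : ∀ x, A *ᵥ (A *ᵥ x) = 0 := fun x => by rw [mulVec_mulVec, hA, zero_mulVec]
  have a0' : ∀ x, A' *ᵥ (A' *ᵥ x) = 0 := fun x => by rw [mulVec_mulVec, hA', zero_mulVec]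
  have a1 : ∀ x, A *ᵥ (A' *ᵥ (A *ᵥ x)) = 0 := fun x => by
    rw [mulVec_mulVec, mulVec_mulVec, h1, zero_mulVec]
  have a2 : ∀ x, A' *ᵥ (A *ᵥ (A' *ᵥ x)) = 0 := fun x => by
    rw [mulVec_mulVec, mulVec_mulVec, h2, zero_mulVec]
  simp only [LinearEquiv.mul_apply, hev, hev', hdv, hdv', mulVecLin_apply, neg_mulVec, sub_mulVec,
    mulVec_add, mulVec_neg, ← mulVec_mulVec, a0, a0', a1, a2, mulVec_zero, neg_zero, add_zero, zero_add]
  abel

/-- Products of rank one maps. -/
def RootPat (f : LinearMap.BilinForm F (Fin k → F)) (M : Subgroup (TV F k t ≃ₗ[F] TV F k t))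
    (D : Finset (Fin t)) (u v : Fin t → Fin k → F) : Prop :=
  D.Nonempty ∧ (∃ i, i ∉ D) ∧ (∀ i ∉ D, u i = v i) ∧ (∀ i ∈ D, f (u i) (v i) ≠ 0) ∧
    (∀ i, u i ≠ 0 ∧ v i ≠ 0) ∧
    ∀ c : F, InK M (c • (kroneckerPow (fun i => rone f (u i) (v i))
      - kroneckerPow (fun i => rone f (v i) (u i))))

/-- All elements with factors of the given kinds lie in the group. -/
def Good (f : LinearMap.BilinForm F (Fin k → F)) (M : Subgroup (TV F k t ≃ₗ[F] TV F k t))
    (κ : Fin t → PKind) : Prop :=
  ∀ (c : F) (B : Fin t → Matrix (Fin k) (Fin k) F), (∀ i, Pc f (κ i) (B i)) →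
    InK M (c • kroneckerPow B)

variable {Q : TV F k t → F} (hM : OBase f Q M)
include hM

lemma kron_conj {gs : Fin t → GL (Fin k) F} (hgs : ∀ i, Isom f (gs i)) (h : InK M A) :
    InK M (kroneckerPow (fun i => (gs i).val) * A * kroneckerPow (fun i => (gs i)⁻¹.val)) := by
  obtain ⟨e, he, hev⟩ := h
  refine ⟨kronE gs * e * (kronE gs)⁻¹,
    M.mul_mem (M.mul_mem (hM.kron_mem gs hgs) he) (M.inv_mem (hM.kron_mem gs hgs)), fun v => ?_⟩
  rw [← map_inv]
  simp only [LinearEquiv.mul_apply, kronE_apply, hev, mulVecLin_apply, mulVec_add, mulVec_mulVec,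
    kroneckerPow_mul, Pi.inv_apply, ← Units.val_mul, mul_inv_cancel, Units.val_one, kroneckerPow_one,
    one_mulVec, Matrix.mul_assoc]

lemma kron_conj_eq {gs : Fin t → GL (Fin k) F} (hgs : ∀ i, Isom f (gs i)) {c : F}
    {B : Fin t → Matrix (Fin k) (Fin k) F} (h : InK M (c • kroneckerPow B)) :
    InK M (c • kroneckerPow fun i => (gs i).val * B i * (gs i)⁻¹.val) := by
  have := kron_conj hM hgs h
  rwa [mul_smul_comm, smul_mul_assoc, kroneckerPow_mul, kroneckerPow_mul] at this

lemma perm_even {σ : Equiv.Perm (Fin t)} (hσ : σ ∈ alternatingGroup (Fin t)) : permE σ ∈ M := by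
  have hle : Subgroup.closure {σ : Equiv.Perm (Fin t) | σ.IsThreeCycle} ≤ M.comap (permE (m := k)) :=
    (Subgroup.closure_le _).2 fun τ hτ => hM.perm_mem τ (by
      rw [← hτ.orderOf]; exact pow_orderOf_eq_one τ)
  rw [Equiv.Perm.closure_three_cycles_eq_alternating] at hle
  exact hle hσ

lemma perm_conj {σ : Equiv.Perm (Fin t)} (hσ : σ ∈ alternatingGroup (Fin t)) {c : F}
    {B : Fin t → Matrix (Fin k) (Fin k) F} (h : InK M (c • kroneckerPow B)) :
    InK M (c • kroneckerPow fun i => B (σ⁻¹ i)) := by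
  obtain ⟨e, he, hev⟩ := h
  have hp := perm_even hM hσ
  refine ⟨permE σ * e * (permE σ)⁻¹, M.mul_mem (M.mul_mem hp he) (M.inv_mem hp), fun v => ?_⟩
  obtain ⟨w, rfl⟩ := (permE (F := F) (m := k) σ).surjective v
  rw [LinearEquiv.mul_apply, LinearEquiv.mul_apply, ← LinearEquiv.mul_apply ((permE σ)⁻¹) (permE σ),
    inv_mul_cancel, LinearEquiv.coe_one, id_eq, hev, map_add]
  congr 1
  have key : (permE σ).toLinearMap ∘ₗ (c • kroneckerPow B).mulVecLin =
      (c • kroneckerPow fun i => B (σ⁻¹ i)).mulVecLin ∘ₗ (permE σ).toLinearMap :=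
    linearMap_ext_pv fun x => by
      simp only [LinearMap.comp_apply, LinearEquiv.coe_coe, mulVecLin_apply]
      rw [smul_mulVec, map_smul, smul_mulVec]
      simp only [kroneckerPow_mulVec_pv, permE_pv]
  exact LinearMap.congr_fun key w

lemma Good.perm {κ : Fin t → PKind} (h : Good f M κ) {σ : Equiv.Perm (Fin t)}
    (hσ : σ ∈ alternatingGroup (Fin t)) : Good f M fun i => κ (σ⁻¹ i) := fun c B hB => by
  have := perm_conj hM hσ (h c (fun i => B (σ i)) fun i => by simpa using hB (σ i))
  simpa using this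

variable [Finite F]

/-- One element gives all elements with factors of the same kinds. -/
lemma good_of_one {κ : Fin t → PKind} {a : Fin t} (ha : κ a = .nn) {c : F} (hc : c ≠ 0)
    {B : Fin t → Matrix (Fin k) (Fin k) F} (hB : ∀ i, Pc f (κ i) (B i))
    (h : InK M (c • kroneckerPow B)) : Good f M κ := by
  have hsq : kroneckerPow B * kroneckerPow B = 0 := by
    rw [kroneckerPow_mul]
    exact kron_zero a ((hB a).sq hM.symp (by rw [ha]; simp))
  have hscale : ∀ d : F, InK M ((d * d * c) • kroneckerPow B) := by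
    intro d
    rcases eq_or_ne d 0 with rfl | hd
    · simpa using InK.zero
    obtain ⟨r, hr, hrB⟩ := Pc.exists_scale hM.symp (ha ▸ hB a) hd
    have h1 := kron_conj_eq hM (gs := Pi.mulSingle a r) (fun i => by
      rcases eq_or_ne i a with rfl | hi
      · simpa using hr
      · simpa [hi] using isom_one f) h
    have e : (fun i => ((Pi.mulSingle a r : Fin t → GL (Fin k) F) i).val * B i *
        ((Pi.mulSingle a r : Fin t → GL (Fin k) F) i)⁻¹.val) = update B a ((d * d) • B a) := by
      funext i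
      rcases eq_or_ne i a with rfl | hi <;> simp [-Matrix.coe_units_inv, *]
    rw [e, kron_update_smul, update_eq_self, smul_smul, mul_comm c] at h1
    exact h1
  intro x B' hB'
  have hall : InK M (x • kroneckerPow B) := by
    obtain ⟨d, d', hdd⟩ := exists_sq_add_sq (x / c)
    have := (hscale d).add (hscale d') (by rw [smul_mul_smul_comm, hsq, smul_zero])
    rwa [← add_smul, ← add_mul, hdd, div_mul_cancel₀ _ hc] at this
  choose r hr hrB using fun i => Pc.exists_conj hM.symp (hB i) (hB' i)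
  have := kron_conj_eq hM hr hall
  simpa only [hrB] using this

/-- Elements preserve the form. -/
lemma inK_sign {κ : Fin t → PKind} {a : Fin t} (ha : κ a = .nn) {c : F} (hc : c ≠ 0)
    {B : Fin t → Matrix (Fin k) (Fin k) F} (hB : ∀ i, Pc f (κ i) (B i))
    (h : InK M (c • kroneckerPow B)) : (∏ i, pSign (F := F) (κ i)) = -1 := by
  obtain ⟨e, he, hev⟩ := h
  have hk1 : 1 ≤ k := le_trans (by norm_num) hM.two_le
  have hex : ∀ i, ∃ x y, f (B i *ᵥ x) y = 1 := fun i => by
    obtain ⟨x, hx⟩ : ∃ x, B i *ᵥ x ≠ 0 := by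
      by_contra! h0
      exact (hB i).ne_zero hM.symp hk1 (Matrix.ext_of_mulVec_single fun j => by rw [h0, zero_mulVec])
    obtain ⟨y, hy⟩ := hM.symp.exists_one hx
    exact ⟨x, y, hy⟩
  choose x y hxy using hex
  have hadj : ∀ i, f (x i) (B i *ᵥ y i) = pSign (κ i) := fun i => by
    have h1 := (hB i).adjoint hM.symp (x i) (y i)
    rw [hxy] at h1
    have h2 : pSign (F := F) (κ i) * pSign (κ i) = 1 := by cases κ i <;> simp [pSign]
    linear_combination (-pSign (κ i)) * h1 - f (x i) (B i *ᵥ y i) * h2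
  have h1 := hM.form he (pv x) (pv y)
  have hiso : ∏ i, f (B i *ᵥ x i) (B i *ᵥ y i) = 0 :=
    Finset.prod_eq_zero (Finset.mem_univ a) ((ha ▸ hB a).isotropic hM.symp _ _)
  simp only [hev, mulVecLin_apply, smul_mulVec, kroneckerPow_mulVec_pv, map_add, map_smul,
    LinearMap.add_apply, LinearMap.smul_apply, smul_eq_mul, tform_pv, hiso, hadj, hxy,
    Finset.prod_const_one, mul_zero, add_zero] at h1
  have h2 : c * (1 + ∏ i, pSign (F := F) (κ i)) = 0 := by linear_combination h1
  linear_combination (mul_eq_zero.1 h2).resolve_left hc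

/-- Not all factors have rank one. -/
lemma not_all_nn {κ : Fin t → PKind} (a : Fin t) (hκ : ∀ i, κ i = .nn) {c : F}
    {B : Fin t → Matrix (Fin k) (Fin k) F} (hB : ∀ i, Pc f (κ i) (B i))
    (h : InK M (c • kroneckerPow B)) : c = 0 := by
  have ht : 0 < t := a.pos
  obtain ⟨e, he, hev⟩ := h
  have hex : ∀ i, ∃ x, f x (B i *ᵥ x) ≠ 0 := fun i => by
    obtain ⟨w, hw, hBw⟩ := (hκ i ▸ hB i : Pc f .nn (B i))
    obtain ⟨x, hx⟩ := hM.symp.exists_one hw
    refine ⟨x, ?_⟩
    rw [hBw, nmat_eq, rone_mulVec, map_smul, hM.symp.skew w x, hx]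
    simp
  choose x hx using hex
  have hscale : Q (c • pv fun i => B i *ᵥ x i) = 0 := by
    have : c • pv (fun i => B i *ᵥ x i) =
        pv (update (fun i => B i *ᵥ x i) ⟨0, ht⟩ (c • (B ⟨0, ht⟩ *ᵥ x ⟨0, ht⟩))) := by
      funext p
      rw [Pi.smul_apply, smul_eq_mul, pv, pv, ← Finset.mul_prod_erase _ _ (Finset.mem_univ ⟨0, ht⟩),
        ← Finset.mul_prod_erase _ (fun i => update (fun i => B i *ᵥ x i) ⟨0, ht⟩
          (c • (B ⟨0, ht⟩ *ᵥ x ⟨0, ht⟩)) i (p i)) (Finset.mem_univ ⟨0, ht⟩)]
      simp only [update_self, Pi.smul_apply, smul_eq_mul, ← mul_assoc]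
      congr 1
      exact Finset.prod_congr rfl fun i hi => by rw [update_of_ne (Finset.ne_of_mem_erase hi)]
    rw [this, hM.q_pure]
  have h1 := hM.iso e he (pv x)
  rw [hev, mulVecLin_apply, smul_mulVec, kroneckerPow_mulVec_pv, hM.q_add, hM.q_pure, hscale, map_smul,
    smul_eq_mul, tform_pv, zero_add, zero_add, mul_eq_zero] at h1
  exact h1.resolve_right (Finset.prod_ne_zero_iff.2 fun i _ => hx i)

omit [Finite F]

lemma exists_pair (p : PKind) (hp : p ≠ .one) (hk4 : p = .am → 4 ≤ k) :
    ∃ (X X' : Matrix (Fin k) (Fin k) F) (u v : Fin k → F), Pc f p X ∧ Pc f p X' ∧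
      X * X' = (-1 : F) • rone f u v ∧ X' * X = rone f v u ∧ u ≠ 0 ∧ v ≠ 0 ∧
      ((p = .am ∧ u = v ∧ X * X' * X = 0 ∧ X' * X * X' = 0) ∨ (p = .nn ∧ f u v = 1)) := by
  cases p with
  | one => exact absurd rfl hp
  | nn =>
    have he : (Pi.single (⟨0, lt_of_lt_of_le (by norm_num) hM.two_le⟩ : Fin k) (1 : F) : Fin k → F) ≠ 0 := by
      simp
    obtain ⟨e', he'⟩ := hM.symp.exists_one he
    set e : Fin k → F := Pi.single (⟨0, lt_of_lt_of_le (by norm_num) hM.two_le⟩ : Fin k) (1 : F)
    have he0 : e' ≠ 0 := fun h => by simp [h] at he'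
    refine ⟨nmat f e, nmat f e', e, e', ⟨e, he, rfl⟩, ⟨e', he0, rfl⟩, ?_, ?_, he, he0,
      Or.inr ⟨rfl, he'⟩⟩
    · rw [nmat_eq, nmat_eq, rone_mul, hM.symp.skew e e', he']
    · rw [nmat_eq, nmat_eq, rone_mul, he', one_smul]
  | am =>
    obtain ⟨e, e', b, hee, heb, heb', hb⟩ := exists_triple hM.symp (hk4 rfl)
    have hbe : f b e = 0 := by rw [hM.symp.skew, heb, neg_zero]
    have hbe' : f b e' = 0 := by rw [hM.symp.skew, heb', neg_zero]
    have he'e : f e' e = -1 := by rw [hM.symp.skew, hee]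
    have hne : e ∉ Submodule.span F ({b} : Set (Fin k → F)) := fun h => by
      obtain ⟨c, hc⟩ := Submodule.mem_span_singleton.1 h
      rw [← hc, map_smul, LinearMap.smul_apply, hbe', smul_zero] at hee
      exact zero_ne_one hee
    have hne' : b ∉ Submodule.span F ({e'} : Set (Fin k → F)) := fun h => by
      obtain ⟨c, hc⟩ := Submodule.mem_span_singleton.1 h
      rw [← hc, map_smul, hee, smul_eq_mul, mul_one] at heb
      exact hb (by rw [← hc, heb, zero_smul])
    have he' : e' ≠ 0 := fun h => by simp [h] at hee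
    have h12 : amat f b e * amat f e' b = (-1 : F) • rone f b b := by
      simp only [amat_eq, sub_mul, mul_sub, rone_mul, hM.symp.alt, heb', hbe, he'e, zero_smul, sub_zero]
    have h21 : amat f e' b * amat f b e = rone f b b := by
      simp only [amat_eq, sub_mul, mul_sub, rone_mul, hM.symp.alt, heb, hbe', hee, zero_smul,
        sub_zero, zero_sub, sub_neg_eq_add, zero_add, one_smul, neg_neg]
    refine ⟨amat f b e, amat f e' b, b, b, ⟨b, e, hb, hbe, hne, rfl⟩, ⟨e', b, he', heb', hne', rfl⟩,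
      h12, h21, hb, hb, Or.inl ⟨rfl, rfl, ?_, ?_⟩⟩
    · rw [h12, Matrix.smul_mul, amat_eq, mul_sub, rone_mul, rone_mul, hM.symp.alt, heb]
      simp
    · rw [h21, amat_eq, mul_sub, rone_mul, rone_mul, hM.symp.alt, heb']
      simp

lemma exists_pair_mixed (p : PKind) (hp : p ≠ .one) (hk4 : p = .am → 4 ≤ k) :
    ∃ (X X' : Matrix (Fin k) (Fin k) F) (u v : Fin k → F) (δ : F), Pc f .nn X ∧ Pc f p X' ∧
      X * X' = (-1 : F) • rone f u v ∧ X' * X = δ • rone f v u ∧ δ ≠ 0 ∧ u ≠ 0 ∧
      ((p = .nn ∧ f u v = 1) ∨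
        (4 ≤ k ∧ f u v = 0 ∧ v ∉ Submodule.span F ({u} : Set (Fin k → F)))) := by
  cases p with
  | one => exact absurd rfl hp
  | nn =>
    obtain ⟨X, X', u, v, hX, hX', h1, h2, hu, -, h⟩ := exists_pair hM .nn hp hk4
    refine ⟨X, X', u, v, 1, hX, hX', h1, by rw [one_smul, h2], one_ne_zero, hu, Or.inl ?_⟩
    exact h.resolve_left fun h => by simp at h
  | am =>
    obtain ⟨e, e', b, hee, heb, heb', hb⟩ := exists_triple hM.symp (hk4 rfl)
    have hbe : f b e = 0 := by rw [hM.symp.skew, heb, neg_zero]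
    have he'e : f e' e = -1 := by rw [hM.symp.skew, hee]
    have hbe' : f b e' = 0 := by rw [hM.symp.skew, heb', neg_zero]
    have he : e ≠ 0 := fun h => by simp [h] at hee
    have he' : e' ≠ 0 := fun h => by simp [h] at hee
    have hne' : b ∉ Submodule.span F ({e'} : Set (Fin k → F)) := fun h => by
      obtain ⟨c, hc⟩ := Submodule.mem_span_singleton.1 h
      rw [← hc, map_smul, hee, smul_eq_mul, mul_one] at heb
      exact hb (by rw [← hc, heb, zero_smul])
    have hne : b ∉ Submodule.span F ({e} : Set (Fin k → F)) := fun h => by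
      obtain ⟨c, hc⟩ := Submodule.mem_span_singleton.1 h
      rw [← hc, map_smul, he'e, smul_eq_mul, mul_neg, mul_one, neg_eq_zero] at heb'
      exact hb (by rw [← hc, heb', zero_smul])
    refine ⟨nmat f e, amat f e' b, e, b, -1, ⟨e, he, rfl⟩, ⟨e', b, he', heb', hne', rfl⟩, ?_, ?_,
      by simp, he, Or.inr ⟨hk4 rfl, heb, hne⟩⟩
    · simp only [amat_eq, nmat_eq, mul_sub, rone_mul, he'e, hbe, zero_smul, sub_zero]
    · simp only [amat_eq, nmat_eq, sub_mul, rone_mul, heb, hee, hbe', zero_smul, zero_sub,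
        neg_smul, one_smul, hM.symp.skew b e, hbe, neg_zero]

lemma amat_eq_one (hk : k = 2) {u v : Fin k → F} (huv : f u v = 1) :
    rone f u v - rone f v u = 1 := by
  refine Matrix.ext_of_mulVec_single fun i => ?_
  generalize (Pi.single i 1 : Fin k → F) = z
  rw [sub_mulVec, rone_mulVec, rone_mulVec, one_mulVec]
  set w := z - (f z v • u - f z u • v) with hw
  have hu : u ≠ 0 := fun h => by simp [h] at huv
  have h1 : f u w = 0 := by
    simp only [hw, map_sub, map_smul, smul_eq_mul, hM.symp.alt, huv, hM.symp.skew z u]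
    ring
  obtain ⟨c, hc⟩ := Submodule.mem_span_singleton.1 (mem_span_of_orth_two hM.symp hk hu h1)
  have h2 : f v w = 0 := by
    simp only [hw, map_sub, map_smul, smul_eq_mul, hM.symp.alt, hM.symp.skew u v, huv, hM.symp.skew z v]
    ring
  rw [← hc, map_smul, hM.symp.skew u v, huv, smul_eq_mul, mul_neg, mul_one, neg_eq_zero] at h2
  rw [h2, zero_smul] at hc
  exact (sub_eq_zero.1 hc.symm).symm

/-- Moving a vector in one factor. -/
lemma move_step {c₁ c₂ : F} {C C' : Fin t → Matrix (Fin k) (Fin k) F} {i x : Fin t} (hxi : x ≠ i)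
    (hx : C' x = C x) (hxx : C x * C x = 0) {u v v' : Fin k → F} (hC : C i = rone f u v)
    (hC' : C' i = rone f v u) {r : GL (Fin k) F} (hr : Isom f r) (hru : r.val *ᵥ u = u)
    (hrv : r.val *ᵥ v = v + v') (h : InK M (c₁ • kroneckerPow C + c₂ • kroneckerPow C')) :
    InK M (c₁ • kroneckerPow (update C i (rone f u v')) + c₂ • kroneckerPow (update C' i (rone f v' u))) := by
  have hg : ∀ l, Isom f ((Pi.mulSingle i r : Fin t → GL (Fin k) F) l) := fun l => by
    rcases eq_or_ne l i with rfl | hl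
    · simpa using hr
    · simpa [hl] using isom_one f
  have h1 := kron_conj hM hg h
  rw [mul_add, add_mul, mul_smul_comm, smul_mul_assoc, mul_smul_comm, smul_mul_assoc, kroneckerPow_mul,
    kroneckerPow_mul, kroneckerPow_mul, kroneckerPow_mul] at h1
  have e : ∀ (D : Fin t → Matrix (Fin k) (Fin k) F),
      (fun l => ((Pi.mulSingle i r : Fin t → GL (Fin k) F) l).val * D l *
        ((Pi.mulSingle i r : Fin t → GL (Fin k) F) l)⁻¹.val) =
      update D i (r.val * D i * r⁻¹.val) := fun D => by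
    funext l
    rcases eq_or_ne l i with rfl | hl <;> simp [-Matrix.coe_units_inv, *]
  rw [e, e, hC, hC', conj_rone hr, conj_rone hr, hru, hrv] at h1
  have hz : ∀ (D D' : Fin t → Matrix (Fin k) (Fin k) F), D x = C x → D' x = C x →
      kroneckerPow D * kroneckerPow D' = 0 := fun D D' hD hD' => by
    rw [kroneckerPow_mul]
    exact kron_zero x (by rw [hD, hD', hxx])
  have h2 := h1.sub h (by
    simp only [add_mul, mul_add, smul_mul_smul_comm]
    rw [hz _ _ (update_of_ne hxi _ _) rfl, hz _ _ (update_of_ne hxi _ _) hx,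
      hz _ _ ((update_of_ne hxi _ _).trans hx) rfl, hz _ _ ((update_of_ne hxi _ _).trans hx) hx]
    simp) (by
    simp only [add_mul, mul_add, smul_mul_smul_comm]
    rw [hz _ _ rfl rfl, hz _ _ rfl hx, hz _ _ hx rfl, hz _ _ hx hx]
    simp)
  convert h2 using 1
  have e1 : C = update C i (rone f u v) := by rw [← hC, update_eq_self]
  have e2 : C' = update C' i (rone f v u) := by rw [← hC', update_eq_self]
  conv_rhs => arg 2; rw [e1, e2]
  rw [rone_add_left, rone_add_right, kron_update_add, kron_update_add]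
  module

/-- The commutator of two elements whose supports differ, normalised by moves. -/
lemma bracket [Finite F] {κ κ' : Fin t → PKind} (h : Good f M κ) (h' : Good f M κ') {a x y : Fin t}
    (ha : κ a = .nn) (ha' : κ' a ≠ .one) (hsame : ∀ i ≠ a, κ i ≠ .one → κ' i ≠ .one → κ i = κ' i)
    (hx : κ x ≠ .one) (hx' : κ' x = .one) (hy : κ y = .one) (hy' : κ' y = .nn)
    (hk4 : ∀ i, κ i = .am ∨ κ' i = .am → 4 ≤ k) :
    ∃ κ'' : Fin t → PKind, Good f M κ'' ∧ κ'' y = .nn ∧
      (∀ i ≠ a, κ'' i = .one ↔ κ i = .one ∧ κ' i = .one) ∧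
      (∀ i, κ'' i = .am → 4 ≤ k) ∧ (κ'' a ≠ .one ∨ k = 2 ∧ κ'' a = .one) := by
  classical
  have hf := hM.symp
  have hk1 : 1 ≤ k := le_trans (by norm_num) hM.two_le
  obtain ⟨e₀, he₀⟩ : ∃ e₀ : Fin k → F, e₀ ≠ 0 :=
    ⟨Pi.single ⟨0, hk1⟩ 1, by simp⟩
  have hya : y ≠ a := fun e => by rw [e, ha] at hy; simp at hy
  have hxa : x ≠ a := fun e => ha' (by rw [← e, hx'])
  obtain ⟨Xa, Xa', ua, va, δ, hXa, hXa', ha1, ha2, hδ, hua, hfa⟩ :=
    exists_pair_mixed hM (κ' a) ha' (fun e => hk4 a (Or.inr e))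
  -- the data away from `a`
  have hdata : ∀ i ≠ a, ∃ (X X' E : Matrix (Fin k) (Fin k) F) (u v : Fin k → F) (σ : F),
      Pc f (κ i) X ∧ Pc f (κ' i) X' ∧ σ ≠ 0 ∧
      ((κ i ≠ .one ∧ κ' i ≠ .one ∧ E = nmat f u ∧ u ≠ 0 ∧ X * X' = σ • rone f u v ∧ X' * X = rone f v u ∧
          (u = v ∨ ∃ r : GL (Fin k) F, Isom f r ∧ r.val *ᵥ u = u ∧ r.val *ᵥ v = v + u)) ∨
        ((κ i = .one ∨ κ' i = .one) ∧ X * X' = E ∧ X' * X = E ∧ σ = 1 ∧
          Pc f (if κ i = .one then κ' i else κ i) E)) := by
    intro i hi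
    by_cases h1 : κ i = .one
    · obtain ⟨E, hE⟩ : ∃ E, Pc f (κ' i) E := by
        cases hκ : κ' i with
        | one => exact ⟨1, rfl⟩
        | nn => exact ⟨_, e₀, he₀, rfl⟩
        | am =>
          obtain ⟨X, -, -, -, hX, -⟩ := exists_pair hM .am (by simp) (fun _ => hk4 i (Or.inr hκ))
          exact ⟨X, hX⟩
      exact ⟨1, E, E, 0, 0, 1, h1 ▸ rfl, hE, one_ne_zero, Or.inr ⟨Or.inl h1, one_mul _, mul_one _, rfl,
        by rwa [if_pos h1]⟩⟩
    by_cases h2 : κ' i = .one
    · obtain ⟨E, hE⟩ : ∃ E, Pc f (κ i) E := by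
        cases hκ : κ i with
        | one => exact ⟨1, rfl⟩
        | nn => exact ⟨_, e₀, he₀, rfl⟩
        | am =>
          obtain ⟨X, -, -, -, hX, -⟩ := exists_pair hM .am (by simp) (fun _ => hk4 i (Or.inl hκ))
          exact ⟨X, hX⟩
      exact ⟨E, 1, E, 0, 0, 1, hE, h2 ▸ rfl, one_ne_zero, Or.inr ⟨Or.inr h2, mul_one _, one_mul _, rfl,
        by rwa [if_neg h1]⟩⟩
    obtain ⟨X, X', u, v, hX, hX', e1, e2, hu, hv, hor⟩ :=
      exists_pair hM (κ i) h1 (fun e => hk4 i (Or.inl e))
    refine ⟨X, X', _, u, v, -1, hX, hsame i hi h1 h2 ▸ hX', by simp, Or.inl ⟨h1, h2, rfl, hu, e1, e2, ?_⟩⟩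
    rcases hor with ⟨-, huv, -⟩ | ⟨-, huv⟩
    · exact Or.inl huv
    · exact Or.inr (exists_isom_fix hf (a := u) (x := v) (y := v + u) (by rw [map_add, hf.alt, add_zero])
        (Or.inl (by rw [huv]; exact one_ne_zero)))
  choose! X X' E u v σ hX hX' hσ hdata using hdata
  set B := update X a Xa with hBdef
  set B' := update X' a Xa' with hB'def
  have hB : ∀ i, Pc f (κ i) (B i) := fun i => by
    rcases eq_or_ne i a with rfl | hi
    · simpa [hBdef, ha] using hXa
    · simpa [hBdef, hi] using hX i hi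
  have hB' : ∀ i, Pc f (κ' i) (B' i) := fun i => by
    rcases eq_or_ne i a with rfl | hi
    · simpa [hB'def] using hXa'
    · simpa [hB'def, hi] using hX' i hi
  set K := kroneckerPow B with hK
  set K' := kroneckerPow B' with hK'
  have hbr : InK M (K * K' - K' * K) := by
    have h1 : InK M K := by simpa using h 1 B hB
    have h2 : InK M K' := by simpa using h' 1 B' hB'
    refine h1.comm h2 ?_ ?_ ?_ ?_ <;> simp only [hK, hK', kroneckerPow_mul]
    · exact kron_zero a ((hB a).sq hf (by rw [ha]; simp))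
    · exact kron_zero a ((hB' a).sq hf ha')
    · refine kron_zero x ?_
      rw [show B' x = 1 by have := hB' x; rwa [hx'] at this, mul_one]
      exact (hB x).sq hf hx
    · refine kron_zero y ?_
      rw [show B y = 1 by have := hB y; rwa [hy] at this, mul_one]
      exact (hB' y).sq hf (by rw [hy']; simp)
  -- the state after the moves in a set of factors
  let C : Finset (Fin t) → Fin t → Matrix (Fin k) (Fin k) F := fun L i =>
    if i = a then rone f ua va else if κ i ≠ .one ∧ κ' i ≠ .one ∧ i ∉ L then rone f (u i) (v i) else E i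
  let C' : Finset (Fin t) → Fin t → Matrix (Fin k) (Fin k) F := fun L i =>
    if i = a then rone f va ua else if κ i ≠ .one ∧ κ' i ≠ .one ∧ i ∉ L then rone f (v i) (u i) else E i
  set c₁ := ∏ i, update σ a (-1 : F) i with hc₁
  set c₂ := -(∏ i, update (fun _ => (1 : F)) a δ i) with hc₂
  have hc₁0 : c₁ ≠ 0 := Finset.prod_ne_zero_iff.2 fun i _ => by
    rcases eq_or_ne i a with rfl | hi
    · simp
    · simpa [hi] using hσ i hi
  have h0 : InK M (c₁ • kroneckerPow (C ∅) + c₂ • kroneckerPow (C' ∅)) := by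
    convert hbr using 1
    rw [hK, hK', kroneckerPow_mul, kroneckerPow_mul, hc₁, hc₂, neg_smul, ← sub_eq_add_neg,
      ← kroneckerPow_smul, ← kroneckerPow_smul]
    congr 1 <;> refine congrArg kroneckerPow (funext fun i => ?_)
    · rcases eq_or_ne i a with rfl | hi
      · simp [C, hBdef, hB'def, ha1]
      · rcases hdata i hi with ⟨h1, h2, -, -, e1, -, -⟩ | ⟨h12, e1, -, hs, -⟩
        · simp [C, hBdef, hB'def, hi, h1, h2, e1]
        · have : ¬(κ i ≠ .one ∧ κ' i ≠ .one) := fun hh => h12.elim hh.1 hh.2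
          simp [C, hBdef, hB'def, hi, e1, hs, this]
    · rcases eq_or_ne i a with rfl | hi
      · simp [C', hBdef, hB'def, ha2]
      · rcases hdata i hi with ⟨h1, h2, -, -, -, e2, -⟩ | ⟨h12, -, e2, -, -⟩
        · simp [C', hBdef, hB'def, hi, h1, h2, e2]
        · have : ¬(κ i ≠ .one ∧ κ' i ≠ .one) := fun hh => h12.elim hh.1 hh.2
          simp [C', hBdef, hB'def, hi, e2, this]
  have hCx : ∀ L, C' L x = C L x ∧ C L x * C L x = 0 := fun L => by
    have h12 : ¬(κ x ≠ .one ∧ κ' x ≠ .one ∧ x ∉ L) := fun hh => hh.2.1 hx'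
    refine ⟨by simp only [C, C', if_neg hxa, if_neg h12], ?_⟩
    simp only [C, if_neg hxa, if_neg h12]
    rcases hdata x hxa with ⟨-, h2, -⟩ | ⟨-, -, -, -, hE⟩
    · exact absurd hx' h2
    · rw [if_neg hx] at hE
      exact hE.sq hf hx
  have hL : ∀ L : Finset (Fin t), InK M (c₁ • kroneckerPow (C L) + c₂ • kroneckerPow (C' L)) := by
    intro L
    induction L using Finset.induction_on with
    | empty => exact h0
    | @insert i L hiL ih =>
      by_cases hact : i ≠ a ∧ κ i ≠ .one ∧ κ' i ≠ .one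
      swap
      · have e : ∀ l, (l = a ∨ ((κ l ≠ .one ∧ κ' l ≠ .one ∧ l ∉ insert i L) ↔
            (κ l ≠ .one ∧ κ' l ≠ .one ∧ l ∉ L))) := fun l => by
          by_cases hl : l = a
          · exact Or.inl hl
          · refine Or.inr ⟨fun hh => ⟨hh.1, hh.2.1, fun hm => hh.2.2 (Finset.mem_insert_of_mem hm)⟩,
              fun hh => ⟨hh.1, hh.2.1, fun hm => ?_⟩⟩
            rcases Finset.mem_insert.1 hm with rfl | hm
            · exact hact ⟨hl, hh.1, hh.2.1⟩
            · exact hh.2.2 hm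
        have e1 : C (insert i L) = C L := funext fun l => by
          rcases e l with h | h
          · simp [C, h]
          · simp only [C, h]
        have e2 : C' (insert i L) = C' L := funext fun l => by
          rcases e l with h | h
          · simp [C', h]
          · simp only [C', h]
        rw [e1, e2]; exact ih
      obtain ⟨hia, hi1, hi2⟩ := hact
      rcases hdata i hia with ⟨-, -, hE, hu, -, -, hor⟩ | ⟨h12, -⟩
      swap
      · exact (h12.elim hi1 hi2).elim
      have e1 : C (insert i L) = update (C L) i (rone f (u i) (u i)) := funext fun l => by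
        rcases eq_or_ne l i with rfl | hl
        · simp [C, hia, hE, nmat_eq]
        · simp [C, hl]
      have e2 : C' (insert i L) = update (C' L) i (rone f (u i) (u i)) := funext fun l => by
        rcases eq_or_ne l i with rfl | hl
        · simp [C', hia, hE, nmat_eq]
        · simp [C', hl]
      rw [e1, e2]
      rcases hor with huv | ⟨r, hr, hru, hrv⟩
      · convert ih using 4 <;>
        · funext l
          rcases eq_or_ne l i with rfl | hl
          · simp [C, C', hia, hi1, hi2, hiL, huv]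
          · simp [hl]
      · exact move_step hM (fun e => hi2 (by rw [← e]; exact hx')) (hCx L).1 (hCx L).2
          (by simp [C, hia, hi1, hi2, hiL]) (by simp [C', hia, hi1, hi2, hiL]) hr hru hrv ih
  have hend := hL Finset.univ
  set κ₀ : Fin t → PKind := fun i =>
    if κ i ≠ .one ∧ κ' i ≠ .one then .nn else if κ i = .one then κ' i else κ i with hκ₀
  have hPc : ∀ i ≠ a, Pc f (κ₀ i) (C Finset.univ i) ∧ C' Finset.univ i = C Finset.univ i := by
    intro i hi
    have hn : ¬(κ i ≠ .one ∧ κ' i ≠ .one ∧ i ∉ Finset.univ) := fun hh => hh.2.2 (Finset.mem_univ i)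
    refine ⟨?_, by simp only [C, C', if_neg hi, if_neg hn]⟩
    simp only [C, if_neg hi, if_neg hn]
    rcases hdata i hi with ⟨h1, h2, hE, hu, -, -, -⟩ | ⟨h12, -, -, -, hE⟩
    · rw [hκ₀]; simp only [if_pos (And.intro h1 h2), hE]
      exact ⟨u i, hu, rfl⟩
    · rw [hκ₀]; simp only [if_neg (fun hh : κ i ≠ .one ∧ κ' i ≠ .one => h12.elim hh.1 hh.2)]
      exact hE
  have hκone : ∀ i, κ₀ i = .one ↔ κ i = .one ∧ κ' i = .one := fun i => by
    rw [hκ₀]
    by_cases h1 : κ i = .one <;> by_cases h2 : κ' i = .one <;> simp [h1, h2]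
  have hκam : ∀ i, κ₀ i = .am → 4 ≤ k := fun i => by
    rw [hκ₀]
    intro hi
    by_cases h1 : κ i = .one <;> by_cases h2 : κ' i = .one <;> simp [h1, h2] at hi
    · exact hk4 i (Or.inr hi)
    · exact hk4 i (Or.inl hi)
  have hκy : κ₀ y = .nn := by simp [hκ₀, hy, hy']
  -- the end of the proof, given the last factor
  have finish : ∀ (p : PKind) (Z : Matrix (Fin k) (Fin k) F) (d : F), d ≠ 0 → Pc f p Z →
      (p = .am → 4 ≤ k) → (p ≠ .one ∨ k = 2 ∧ p = .one) →
      InK M (d • kroneckerPow (update (C Finset.univ) a Z)) →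
      ∃ κ'' : Fin t → PKind, Good f M κ'' ∧ κ'' y = .nn ∧
        (∀ i ≠ a, κ'' i = .one ↔ κ i = .one ∧ κ' i = .one) ∧
        (∀ i, κ'' i = .am → 4 ≤ k) ∧ (κ'' a ≠ .one ∨ k = 2 ∧ κ'' a = .one) := by
    intro p Z d hd hZ hp4 hp hK
    have hy2 : update κ₀ a p y = .nn := by rw [update_of_ne hya]; exact hκy
    refine ⟨update κ₀ a p, good_of_one hM hy2 hd (fun i => ?_) hK, hy2,
      fun i hi => by rw [update_of_ne hi]; exact hκone i, fun i hi => ?_, by simpa using hp⟩
    · rcases eq_or_ne i a with rfl | hi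
      · simpa using hZ
      · simpa [hi] using (hPc i hi).1
    · rcases eq_or_ne i a with rfl | h
      · exact hp4 (by simpa using hi)
      · exact hκam i (by simpa [h] using hi)
  have hCa : C Finset.univ a = rone f ua va := by simp [C]
  have hC'a : C' Finset.univ a = rone f va ua := by simp [C']
  have hupd : ∀ Z, update (C' Finset.univ) a Z = update (C Finset.univ) a Z := fun Z => funext fun i => by
    rcases eq_or_ne i a with rfl | hi
    · simp
    · simp [hi, (hPc i hi).2]
  by_cases hc : c₁ + c₂ = 0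
  swap
  · obtain ⟨r, hr, hru, hrv⟩ := exists_isom_fix hf (a := ua) (x := va) (y := va + ua)
      (by rw [map_add, hf.alt, add_zero]) (hfa.imp (fun h => by rw [h.2]; exact one_ne_zero)
        fun h => ⟨hua, h.2.2, fun hm => h.2.2 (by
          simpa using Submodule.sub_mem _ hm (Submodule.mem_span_singleton_self ua))⟩)
    have h2 := move_step hM hxa (hCx _).1 (hCx _).2 hCa hC'a hr hru hrv hend
    rw [hupd, ← add_smul] at h2
    exact finish .nn _ _ hc ⟨ua, hua, rfl⟩ (by simp) (Or.inl (by simp)) h2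
  have hc2 : c₂ = -c₁ := eq_neg_of_add_eq_zero_right hc
  have toA : ∀ w, InK M (c₁ • kroneckerPow (update (C Finset.univ) a (rone f ua w))
      + c₂ • kroneckerPow (update (C' Finset.univ) a (rone f w ua))) →
      InK M (c₁ • kroneckerPow (update (C Finset.univ) a (amat f ua w))) := fun w hw => by
    rwa [hupd, hc2, neg_smul, ← sub_eq_add_neg, ← smul_sub, ← kron_update_sub] at hw
  have hend' : InK M (c₁ • kroneckerPow (update (C Finset.univ) a (amat f ua va))) := by
    refine toA va ?_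
    rw [← hCa, ← hC'a, update_eq_self, update_eq_self]
    exact hend
  rcases hfa with ⟨-, huv⟩ | ⟨hk, huv, hvF⟩
  swap
  · exact finish .am _ _ hc₁0 ⟨ua, va, hua, huv, hvF, rfl⟩ (fun _ => hk) (Or.inl (by simp)) hend'
  rcases hM.small with ⟨hk, -, -⟩ | ⟨hk, -⟩
  · rw [amat_eq, amat_eq_one hM hk huv] at hend'
    exact finish .one 1 _ hc₁0 rfl (by simp) (Or.inr ⟨hk, rfl⟩) hend'
  · obtain ⟨e, e', b, hee, heb, heb', hb⟩ := exists_triple hf hk
    have he : e ≠ 0 := fun h => by simp [h] at hee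
    obtain ⟨r, hr, hre, hre'⟩ := exists_isom_pair hf he hua (hee.trans huv.symm)
      (Or.inl (by rw [hee]; exact one_ne_zero))
    set w := r.val *ᵥ b with hw
    have huw : f ua w = 0 := by rw [hw, ← hre, hr, heb]
    have hvw : f va w = 0 := by rw [hw, ← hre', hr, heb']
    have hw0 : w ≠ 0 := fun h => hb (by
      have := congrArg (r⁻¹.val *ᵥ ·) h
      simpa [hw, mulVec_mulVec, ← Units.val_mul] using this)
    have hwF : w ∉ Submodule.span F ({ua} : Set (Fin k → F)) := fun h => by
      obtain ⟨c, hc⟩ := Submodule.mem_span_singleton.1 h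
      rw [← hc, map_smul, hf.skew ua va, huv, smul_eq_mul, mul_neg, mul_one, neg_eq_zero] at hvw
      exact hw0 (by rw [← hc, hvw, zero_smul])
    obtain ⟨r', hr', hru, hrv⟩ := exists_isom_fix hf (a := ua) (x := va) (y := va + w)
      (by rw [map_add, huw, add_zero]) (Or.inl (by rw [huv]; exact one_ne_zero))
    have h2 := move_step hM hxa (hCx _).1 (hCx _).2 hCa hC'a hr' hru hrv hend
    exact finish .am _ _ hc₁0 ⟨ua, w, hua, huw, hwF, rfl⟩ (fun _ => hk) (Or.inl (by simp)) (toA w h2)

variable [Finite F]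

/-- Full support. -/
lemma rootPat_of_full {κ : Fin t → PKind} {a : Fin t} (ha : κ a = .nn) (hne : ∀ i, κ i ≠ .one)
    (h : Good f M κ) (hk4 : ∀ i, κ i = .am → 4 ≤ k) :
    ∃ D u v, RootPat f M D u v := by
  classical
  choose X X' u v hX hX' e1 e2 hu hv hor using fun i => exists_pair hM (κ i) (hne i) (hk4 i)
  obtain ⟨j, hj⟩ : ∃ j, κ j = .am := by
    by_contra! hno
    have hall : ∀ i, κ i = .nn := fun i => by
      have := hne i; have := hno i
      cases hκ : κ i <;> simp_all
    exact one_ne_zero (not_all_nn hM a hall hX (h 1 X hX))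
  refine ⟨Finset.univ.filter fun i => κ i = .nn, u, v, ⟨a, by simp [ha]⟩, ⟨j, by simp [hj]⟩,
    fun i hi => ?_, fun i hi => ?_, fun i => ⟨hu i, hv i⟩, fun c => ?_⟩
  · rcases hor i with h1 | h1
    · exact h1.2.1
    · simp [h1.1] at hi
  · rcases hor i with h1 | h1
    · simp [h1.1] at hi
    · rw [h1.2]; exact one_ne_zero
  have hsgn : (-1 : F) ^ t = 1 := by
    by_cases h2 : (2 : F) = 0
    · rw [show (-1 : F) = 1 by linear_combination -h2, one_pow]
    · exact (hM.even_t h2).neg_one_pow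
  have hz : ∀ i, κ i = .am → X i * X' i * X i = 0 ∧ X' i * X i * X' i = 0 := fun i hi => by
    rcases hor i with h1 | h1
    · exact h1.2.2
    · simp [h1.1] at hi
  have h1 := (h c X hX).comm (by simpa using h 1 X' hX')
    (by rw [smul_mul_smul_comm, kroneckerPow_mul, kron_zero a ((hX a).sq hM.symp (hne a)), smul_zero])
    (by rw [kroneckerPow_mul, kron_zero a ((hX' a).sq hM.symp (hne a))])
    (by rw [smul_mul_assoc, smul_mul_smul_comm, kroneckerPow_mul, kroneckerPow_mul,
      kron_zero j (hz j hj).1, smul_zero])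
    (by rw [mul_smul_comm, smul_mul_assoc, kroneckerPow_mul, kroneckerPow_mul,
      kron_zero j (hz j hj).2, smul_zero])
  rw [smul_mul_assoc, mul_smul_comm, kroneckerPow_mul, kroneckerPow_mul, ← smul_sub] at h1
  convert h1 using 3
  · rw [show (fun i => X i * X' i) = fun i => (-1 : F) • rone f (u i) (v i) from funext e1,
      kroneckerPow_smul, Finset.prod_const, Finset.card_univ, Fintype.card_fin, hsgn, one_smul]
  · rw [show (fun i => X' i * X i) = fun i => rone f (v i) (u i) from funext e2]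

/-- The support grows to all factors. -/
lemma exists_full (hk : 4 ≤ k) : ∀ (m : ℕ) (κ : Fin t → PKind),
    (Finset.univ.filter fun i => κ i = .one).card ≤ m → Good f M κ → ∀ a b, κ a = .nn → b ≠ a →
    κ b ≠ .one → ∃ κ' : Fin t → PKind, Good f M κ' ∧ (∀ i, κ' i ≠ .one) ∧ ∃ a, κ' a = .nn := by
  classical
  intro m
  induction m with
  | zero =>
    intro κ hm h a b ha _ _
    refine ⟨κ, h, fun i hi => ?_, a, ha⟩
    rw [Nat.le_zero, Finset.card_eq_zero, Finset.filter_eq_empty_iff] at hm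
    exact hm (Finset.mem_univ i) hi
  | succ m ih =>
    intro κ hm h a b ha hba hb
    by_cases hfull : ∀ i, κ i ≠ .one
    · exact ⟨κ, h, hfull, a, ha⟩
    push Not at hfull
    obtain ⟨y, hy⟩ := hfull
    have hya : y ≠ a := fun e => by rw [e, ha] at hy; simp at hy
    have hyb : y ≠ b := fun e => hb (e ▸ hy)
    set σ : Equiv.Perm (Fin t) := Equiv.swap a b * Equiv.swap a y with hσ
    have hσA : σ ∈ alternatingGroup (Fin t) := by
      rw [Equiv.Perm.mem_alternatingGroup, hσ, map_mul, Equiv.Perm.sign_swap hba.symm,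
        Equiv.Perm.sign_swap hya.symm]
      decide
    have h1 : σ⁻¹ y = a := by
      rw [Equiv.Perm.inv_eq_iff_eq]; simp [σ, Equiv.swap_apply_of_ne_of_ne hya hyb]
    have h2 : σ⁻¹ b = y := by rw [Equiv.Perm.inv_eq_iff_eq]; simp [σ]
    have h3 : σ⁻¹ a = b := by
      rw [Equiv.Perm.inv_eq_iff_eq]; simp [σ, Equiv.swap_apply_of_ne_of_ne hba hyb.symm]
    have h4 : ∀ i, i ≠ a → i ≠ b → i ≠ y → σ⁻¹ i = i := fun i e1 e2 e3 => by
      rw [Equiv.Perm.inv_eq_iff_eq]
      simp [σ, Equiv.swap_apply_of_ne_of_ne e1 e3, Equiv.swap_apply_of_ne_of_ne e1 e2]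
    obtain ⟨κ'', hG, hy'', hone, -, hka⟩ := bracket hM h (h.perm hM hσA) (a := a) (x := b) (y := y) ha
      (by rw [h3]; exact hb)
      (fun i hi e1 e2 => by
        rcases eq_or_ne i b with rfl | hib
        · rw [h2] at e2; exact absurd hy e2
        rcases eq_or_ne i y with rfl | hiy
        · exact absurd hy e1
        rw [h4 i hi hib hiy])
      hb (by rw [h2]; exact hy) hy (by rw [h1]; exact ha) (fun _ _ => hk)
    have hka : κ'' a ≠ .one := hka.resolve_right fun e => by omega
    refine ih κ'' ?_ hG y a hy'' hya.symm hka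
    have hss : (Finset.univ.filter fun i => κ'' i = .one) ⊆
        (Finset.univ.filter fun i => κ i = .one).erase y := fun i hi => by
      simp only [Finset.mem_filter, Finset.mem_univ, true_and] at hi
      refine Finset.mem_erase.2 ⟨fun e => ?_, ?_⟩
      · rw [e, hy''] at hi; simp at hi
      · rcases eq_or_ne i a with rfl | hia
        · exact absurd hi hka
        · simpa using ((hone i hia).1 hi).1
    have := Finset.card_le_card hss
    rw [Finset.card_erase_of_mem (by simpa using hy)] at this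
    omega

/-- In dimension two the support grows to all factors but one. -/
lemma exists_full_two (hk : k = 2) : ∀ (m : ℕ) (κ : Fin t → PKind),
    (Finset.univ.filter fun i => κ i = .one).card ≤ m → Good f M κ → (∀ i, κ i ≠ .am) →
    2 ≤ (Finset.univ.filter fun i => κ i = .nn).card →
    ∃ (κ' : Fin t → PKind) (j : Fin t), Good f M κ' ∧ κ' j = .one ∧ ∀ i ≠ j, κ' i = .nn := by
  classical
  have h2 : (2 : F) ≠ 0 := by
    rcases hM.small with ⟨-, h, -⟩ | ⟨h, -⟩
    · exact h
    · omega
  have ht := hM.even_t h2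
  intro m
  induction m with
  | zero =>
    intro κ hm h ham h2J
    rw [Nat.le_zero, Finset.card_eq_zero, Finset.filter_eq_empty_iff] at hm
    have hall : ∀ i, κ i = .nn := fun i => by
      have := hm (Finset.mem_univ i); have := ham i
      cases hκ : κ i <;> simp_all
    choose X hX using fun i => show ∃ X, Pc f (κ i) X from by
      obtain ⟨X, -, -, -, hX, -⟩ := exists_pair hM .nn (by simp) (by simp)
      exact ⟨X, by rw [hall i]; exact hX⟩
    exact absurd (not_all_nn hM (Finset.card_pos.1 (by omega : 0 < (Finset.univ.filter fun i => κ i = .nn).card)).choose hall hX (h 1 X hX)) one_ne_zero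
  | succ m ih =>
    intro κ hm h ham h2J
    set J := Finset.univ.filter fun i => κ i = .nn with hJ
    have hJc : ∀ i, i ∉ J → κ i = .one := fun i hi => by
      have := ham i
      simp only [hJ, Finset.mem_filter, Finset.mem_univ, true_and] at hi
      cases hκ : κ i <;> simp_all
    obtain ⟨a, haJ⟩ : ∃ a, a ∈ J := Finset.card_pos.1 (by omega)
    have ha : κ a = .nn := by simpa [hJ] using haJ
    have hsign : ∀ κ : Fin t → PKind, Good f M κ → ∀ a, κ a = .nn → (∀ i, κ i ≠ .am) →
        Odd (Finset.univ.filter fun i => κ i = .nn).card := by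
      intro κ h a ha ham
      choose X hX using fun i => show ∃ X, Pc f (κ i) X from by
        cases hκ : κ i with
        | one => exact ⟨1, rfl⟩
        | nn =>
          obtain ⟨X, -, -, -, hX, -⟩ := exists_pair hM .nn (by simp) (by simp)
          exact ⟨X, hX⟩
        | am => exact absurd hκ (ham i)
      have hs := inK_sign hM ha one_ne_zero hX (h 1 X hX)
      have hprod : ∏ i, pSign (F := F) (κ i) = (-1) ^ (Finset.univ.filter fun i => κ i = .nn).card := by
        rw [← Finset.prod_const (-1 : F), Finset.prod_filter]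
        exact Finset.prod_congr rfl fun i _ => by cases κ i <;> simp [pSign]
      rw [hprod] at hs
      by_contra ho
      rw [(Nat.not_odd_iff_even.1 ho).neg_one_pow] at hs
      exact h2 (by linear_combination hs)
    have hoJ := hsign κ h a ha ham
    rw [← hJ] at hoJ
    have hJt : J.card ≤ t := by simpa using Finset.card_le_univ J
    by_cases hdone : J.card + 1 = t
    · obtain ⟨j, hj⟩ : ∃ j, Jᶜ = {j} := Finset.card_eq_one.1 (by
        rw [Finset.card_compl, Fintype.card_fin]; omega)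
      refine ⟨κ, j, h, hJc j (Finset.mem_compl.1 (by simp [hj])), fun i hi => ?_⟩
      have : i ∈ J := by
        by_contra h'
        exact hi (Finset.mem_singleton.1 (hj ▸ Finset.mem_compl.2 h'))
      simpa [hJ] using this
    obtain ⟨r, hr⟩ := hoJ
    obtain ⟨q, hq⟩ := ht
    obtain ⟨x₁, hx₁, x₂, hx₂, hx12⟩ : ∃ x₁ ∈ J.erase a, ∃ x₂ ∈ J.erase a, x₁ ≠ x₂ :=
      Finset.one_lt_card.1 (by rw [Finset.card_erase_of_mem haJ]; omega)
    obtain ⟨y₁, hy₁, y₂, hy₂, hy12⟩ : ∃ y₁ ∈ Jᶜ, ∃ y₂ ∈ Jᶜ, y₁ ≠ y₂ :=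
      Finset.one_lt_card.1 (by rw [Finset.card_compl, Fintype.card_fin]; omega)
    rw [Finset.mem_erase] at hx₁ hx₂
    rw [Finset.mem_compl] at hy₁ hy₂
    have n11 : x₁ ≠ y₁ := fun e => hy₁ (e ▸ hx₁.2)
    have n12 : x₁ ≠ y₂ := fun e => hy₂ (e ▸ hx₁.2)
    have n21 : x₂ ≠ y₁ := fun e => hy₁ (e ▸ hx₂.2)
    have n22 : x₂ ≠ y₂ := fun e => hy₂ (e ▸ hx₂.2)
    have nay1 : a ≠ y₁ := fun e => hy₁ (e ▸ haJ)
    have nay2 : a ≠ y₂ := fun e => hy₂ (e ▸ haJ)
    set σ : Equiv.Perm (Fin t) := Equiv.swap x₁ y₁ * Equiv.swap x₂ y₂ with hσ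
    have hσA : σ ∈ alternatingGroup (Fin t) := by
      rw [Equiv.Perm.mem_alternatingGroup, hσ, map_mul, Equiv.Perm.sign_swap n11,
        Equiv.Perm.sign_swap n22]
      decide
    have g1 : σ⁻¹ x₁ = y₁ := by
      rw [Equiv.Perm.inv_eq_iff_eq]; simp [σ, Equiv.swap_apply_of_ne_of_ne n21.symm hy12]
    have g2 : σ⁻¹ y₁ = x₁ := by
      rw [Equiv.Perm.inv_eq_iff_eq]; simp [σ, Equiv.swap_apply_of_ne_of_ne hx12 n12]
    have g3 : σ⁻¹ x₂ = y₂ := by
      rw [Equiv.Perm.inv_eq_iff_eq]; simp [σ, Equiv.swap_apply_of_ne_of_ne hx12.symm n21]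
    have g4 : σ⁻¹ y₂ = x₂ := by
      rw [Equiv.Perm.inv_eq_iff_eq]; simp [σ, Equiv.swap_apply_of_ne_of_ne n12.symm hy12.symm]
    have g5 : ∀ i, i ≠ x₁ → i ≠ y₁ → i ≠ x₂ → i ≠ y₂ → σ⁻¹ i = i := fun i e1 e2 e3 e4 => by
      rw [Equiv.Perm.inv_eq_iff_eq]
      simp [σ, Equiv.swap_apply_of_ne_of_ne e3 e4, Equiv.swap_apply_of_ne_of_ne e1 e2]
    have ga : σ⁻¹ a = a := g5 a hx₁.1.symm nay1 hx₂.1.symm nay2
    have hx1n : κ x₁ = .nn := by simpa [hJ] using hx₁.2
    have hx2n : κ x₂ = .nn := by simpa [hJ] using hx₂.2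
    obtain ⟨κ'', hG, hy'', hone, hk4'', hka⟩ := bracket hM h (h.perm hM hσA) (a := a) (x := x₁) (y := y₁)
      ha (by rw [ga, ha]; simp)
      (fun i hi e1 e2 => by
        rcases eq_or_ne i x₁ with rfl | u1
        · rw [g1] at e2; exact absurd (hJc _ hy₁) e2
        rcases eq_or_ne i y₁ with rfl | u2
        · exact absurd (hJc _ hy₁) e1
        rcases eq_or_ne i x₂ with rfl | u3
        · rw [g3] at e2; exact absurd (hJc _ hy₂) e2
        rcases eq_or_ne i y₂ with rfl | u4
        · exact absurd (hJc _ hy₂) e1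
        rw [g5 i u1 u2 u3 u4])
      (by rw [hx1n]; simp) (by rw [g1]; exact hJc _ hy₁) (hJc _ hy₁) (by rw [g2]; exact hx1n)
      (fun i e => by rcases e with e | e <;> exact absurd e (ham _))
    have ham'' : ∀ i, κ'' i ≠ .am := fun i e => by have := hk4'' i e; omega
    set J'' := Finset.univ.filter fun i => κ'' i = .nn with hJ''
    have hmem : ∀ i ≠ a, i ∈ J'' ↔ i ∈ J ∨ i = y₁ ∨ i = y₂ := by
      intro i hia
      have e1 : i ∈ J'' ↔ κ'' i ≠ .one := by
        simp only [hJ'', Finset.mem_filter, Finset.mem_univ, true_and]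
        have := ham'' i
        cases hκ : κ'' i <;> simp_all
      rw [e1, Ne, hone i hia]
      constructor
      · intro hh
        by_contra! h3
        obtain ⟨h4, u2, u4⟩ := h3
        exact hh ⟨hJc i h4, by
          rw [g5 i (fun e => h4 (e ▸ hx₁.2)) u2 (fun e => h4 (e ▸ hx₂.2)) u4]; exact hJc i h4⟩
      · rintro (h3 | rfl | rfl) ⟨p1, p2⟩
        · rw [hJ] at h3; simp [p1] at h3
        · rw [g2, hx1n] at p2; simp at p2
        · rw [g4, hx2n] at p2; simp at p2
    have hkey : κ'' a ≠ .one := by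
      intro e
      have hset : J'' = insert y₁ (insert y₂ (J.erase a)) := Finset.ext fun i => by
        rcases eq_or_ne i a with rfl | hia
        · simp [hJ'', e, nay1, nay2]
        · rw [hmem i hia]
          simp [hia]
          tauto
      have ho := hsign κ'' hG y₁ hy'' ham''
      rw [← hJ'', hset, Finset.card_insert_of_notMem (by simp [hy12, hy₁]),
        Finset.card_insert_of_notMem (by simp [hy₂]), Finset.card_erase_of_mem haJ] at ho
      obtain ⟨r', hr'⟩ := ho
      omega
    have hset : J'' = insert y₁ (insert y₂ J) := Finset.ext fun i => by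
      rcases eq_or_ne i a with rfl | hia
      · have := ham'' i
        simp only [hJ'', Finset.mem_filter, Finset.mem_univ, true_and, Finset.mem_insert, haJ, or_true,
          iff_true]
        cases hκ : κ'' i <;> simp_all
      · rw [hmem i hia]
        simp
        tauto
    have hcard : J''.card = J.card + 2 := by
      rw [hset, Finset.card_insert_of_notMem (by simp [hy12, hy₁]), Finset.card_insert_of_notMem hy₂]
    refine ih κ'' ?_ hG ham'' (by rw [← hJ'']; omega)
    have hcompl : ∀ κ : Fin t → PKind, (∀ i, κ i ≠ .am) →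
        (Finset.univ.filter fun i => κ i = .one).card +
          (Finset.univ.filter fun i => κ i = .nn).card = t := by
      intro κ ham
      have : (Finset.univ.filter fun i => κ i = .nn) = (Finset.univ.filter fun i => κ i = .one)ᶜ := by
        ext i
        have := ham i
        cases hκ : κ i <;> simp_all
      rw [this, Finset.card_add_card_compl, Fintype.card_fin]
    have c1 := hcompl κ ham
    have c2 := hcompl κ'' ham''
    rw [← hJ] at c1
    rw [← hJ''] at c2
    omega

omit [Finite F]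

/-- The pattern of rank one factors and one identity is a long root element. -/
lemma rootPat_of_two (hk : k = 2) (ht : 2 ≤ t) {κ : Fin t → PKind} {j : Fin t} (hj : κ j = .one)
    (hnn : ∀ i ≠ j, κ i = .nn) (h : Good f M κ) : ∃ u v, RootPat f M {j} u v := by
  classical
  obtain ⟨X, X', e, e', hX, -, -, -, he, he', hor⟩ := exists_pair hM .nn (by simp) (by simp)
  obtain ⟨-, hee⟩ := hor.resolve_left fun h => by simp at h
  refine ⟨fun _ => e, update (fun _ => e) j e', Finset.singleton_nonempty j, ?_, fun i hi => ?_,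
    fun i hi => ?_, fun i => ⟨he, ?_⟩, fun c => ?_⟩
  · have : Nontrivial (Fin t) := Fin.nontrivial_iff_two_le.2 ht
    obtain ⟨i, hi⟩ := exists_ne j
    exact ⟨i, by simpa using hi⟩
  · rw [update_of_ne (by simpa using hi)]
  · rw [Finset.mem_singleton.1 hi, update_self, hee]; exact one_ne_zero
  · rcases eq_or_ne i j with rfl | hi
    · simpa using he'
    · simpa [hi] using he
  · have h1 := h c (update (fun _ => nmat f e) j 1) fun i => by
      rcases eq_or_ne i j with rfl | hi
      · rw [update_self, hj]; rfl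
      · rw [update_of_ne hi, hnn i hi]; exact ⟨e, he, rfl⟩
    rw [← amat_eq_one hM hk hee, kron_update_sub] at h1
    convert h1 using 3 <;>
    · congr 1
      funext i
      rcases eq_or_ne i j with rfl | hi
      · simp
      · simp [hi, nmat_eq]

end CfsgLib.OPlusWreath94
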