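import Cfsg.Agent.SympWreath17.Basic
import Cfsg.Agent.WreathTensor14.Descent

/-!
Elementary facts about an alternating form, contractions along it, and groups of similitudes of a
tensor product containing the isometries of the alternating factor.
-/

set_option autoImplicit false
set_option linter.unusedSectionVars false

namespace CfsgLib.OPlusWreath94

open Matrix Module
open CfsgLib.TensorMax (InM rootMap pure pure_mulVec memb mem_memb pure_mem_memb pureL pureL_apply
  mem_memb_of_forall_orth)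
open CfsgLib.WreathTensor14 (TV pv slot slotGroup kronE permE kronE_insertNth_one kronE_insertNth_left
  linearMap_ext_pv)
open CfsgLib.SympWreath17 (IsSymp Isom tform tform_slot tform_comm sdual sdual_apply dotProduct_sdual
  sctr sctr_apply sctr_pure sroot sroot_apply sphi sphi_pure_right sphi_pure_pure exists_transvection)

variable {F : Type*} [Field F] {k t s : ℕ} {ι : Type} [Fintype ι] [DecidableEq ι]

section pure

variable {κ : Type} [Fintype κ] [DecidableEq κ]

lemma pure_add_l (u u' : ι → F) (w : κ → F) : pure (u + u') w = pure u w + pure u' w :=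
  add_vecMulVec u u' w

lemma pure_sub_l (u u' : ι → F) (w : κ → F) : pure (u - u') w = pure u w - pure u' w :=
  sub_vecMulVec u u' w

lemma pure_neg_l (u : ι → F) (w : κ → F) : pure (-u) w = -pure u w := neg_vecMulVec u w

lemma pure_smul_l (c : F) (u : ι → F) (w : κ → F) : pure (c • u) w = c • pure u w :=
  smul_vecMulVec c u w

lemma pure_zero_l (w : κ → F) : pure (0 : ι → F) w = (0 : Matrix ι κ F) := zero_vecMulVec w

lemma pure_add_r (u : ι → F) (w w' : κ → F) : pure u (w + w') = pure u w + pure u w' :=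
  vecMulVec_add u w w'

lemma pure_sub_r (u : ι → F) (w w' : κ → F) : pure u (w - w') = pure u w - pure u w' :=
  vecMulVec_sub u w w'

lemma pure_neg_r (u : ι → F) (w : κ → F) : pure u (-w) = -pure u w := vecMulVec_neg u w

lemma pure_smul_r (c : F) (u : ι → F) (w : κ → F) : pure u (c • w) = c • pure u w := by
  ext i j; simp [TensorMax.pure, vecMulVec_apply]; ring

lemma pure_zero_r (u : ι → F) : pure u (0 : κ → F) = (0 : Matrix ι κ F) := by
  ext i j; simp [TensorMax.pure, vecMulVec_apply]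

lemma pure_mul_transpose (u : ι → F) (z : κ → F) (a : Matrix κ κ F) :
    pure u z * aᵀ = pure u (a *ᵥ z) := by
  rw [TensorMax.pure, TensorMax.pure, vecMulVec_mul, vecMul_transpose]

lemma eq_sum_rows (X : Matrix ι κ F) : X = ∑ i, pure (Pi.single i (1 : F)) (X i) := by
  ext i j
  simp [Matrix.sum_apply, TensorMax.pure, vecMulVec_apply, Pi.single_apply]

lemma linearMap_ext_pure {W : Type*} [AddCommMonoid W] [Module F W]
    {A B : Matrix ι κ F →ₗ[F] W} (h : ∀ u z, A (pure u z) = B (pure u z)) : A = B :=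
  LinearMap.ext fun X => by
    rw [eq_sum_rows X, map_sum, map_sum]
    exact Finset.sum_congr rfl fun i _ => h _ _

end pure

section form

variable {f : LinearMap.BilinForm F (Fin k → F)} (hf : IsSymp f)
include hf

lemma orth_comm {x y : Fin k → F} (h : f x y = 0) : f y x = 0 := by rw [hf.skew, h, neg_zero]

lemma nd_right {w : Fin k → F} (h : ∀ z, f z w = 0) : w = 0 :=
  hf.nd w fun y => orth_comm hf (h y)

lemma sdual_injective : Function.Injective (sdual f) := by
  rw [injective_iff_map_eq_zero]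
  intro w hw
  refine nd_right hf fun z => ?_
  rw [← dotProduct_sdual, hw, dotProduct_zero]

lemma sdual_ne_zero {w : Fin k → F} (hw : w ≠ 0) : sdual f w ≠ 0 := fun h =>
  hw (sdual_injective hf (h.trans (map_zero _).symm))

lemma exists_sdual_eq (ψ : Fin k → F) : ∃ w, sdual f w = ψ :=
  LinearMap.surjective_of_injective (sdual_injective hf) ψ

lemma exists_form_eq (l : (Fin k → F) →ₗ[F] F) : ∃ a, ∀ z, f z a = l z := by
  obtain ⟨a, ha⟩ := exists_sdual_eq hf fun j => l (Pi.single j 1)
  refine ⟨a, fun z => ?_⟩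
  rw [← dotProduct_sdual, ha]
  conv_rhs => rw [pi_eq_sum_univ' z, map_sum]
  exact Finset.sum_congr rfl fun j _ => by simp

lemma exists_partner {w : Fin k → F} (hw : w ≠ 0) : ∃ e, f e w = 1 := by
  obtain ⟨y, hy⟩ := hf.exists_one hw
  exact ⟨-y, by simp [hf.skew w y, hy]⟩

omit hf in
/-- A vector orthogonal to finitely many vectors outside a small subspace. -/
lemma exists_perp_not_mem {r : ℕ} (xs : Fin r → Fin k → F) (E : Submodule F (Fin k → F))
    (h : r + finrank F E < k) : ∃ z, (∀ i, f z (xs i) = 0) ∧ z ∉ E := by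
  let L : (Fin k → F) →ₗ[F] (Fin r → F) := LinearMap.pi fun i => f.flip (xs i)
  by_contra! hc
  have h1 := LinearMap.finrank_range_add_finrank_ker L
  have h2 : finrank F (LinearMap.range L) ≤ r :=
    (Submodule.finrank_le _).trans (by rw [finrank_pi, Fintype.card_fin])
  have h3 : finrank F (LinearMap.ker L) ≤ finrank F E :=
    Submodule.finrank_mono fun z hz => hc z fun i => congrFun (LinearMap.mem_ker.1 hz) i
  rw [finrank_pi, Fintype.card_fin] at h1
  omega

/-- A vector separating `z` from a line, orthogonal to the line. -/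
lemma exists_sep {w z : Fin k → F} (hz : z ∉ Submodule.span F ({w} : Set (Fin k → F))) :
    ∃ d, f d w = 0 ∧ f d z = 1 := by
  obtain ⟨φ, hφz, hφw⟩ := TensorMax.exists_covec hz
  obtain ⟨a, ha⟩ := exists_form_eq hf
    ({ toFun := fun x => φ ⬝ᵥ x
       map_add' := fun x y => dotProduct_add φ x y
       map_smul' := fun c x => dotProduct_smul c φ x } : (Fin k → F) →ₗ[F] F)
  refine ⟨-a, orth_comm hf ?_, ?_⟩
  · rw [map_neg, ha]
    simp [hφw w (Submodule.mem_span_singleton_self w)]
  · rw [map_neg, LinearMap.neg_apply, hf.skew z a, neg_neg, ha]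
    simpa using hφz

/-- A hyperbolic pair orthogonal to a vector. -/
lemma exists_pair_orth (hk : 4 ≤ k) (w : Fin k → F) :
    ∃ a a', f a w = 0 ∧ f a' w = 0 ∧ f a a' = 1 := by
  obtain ⟨a, ha, haw⟩ := exists_perp_not_mem (f := f) ![w] (Submodule.span F {w})
    (by have := finrank_span_le_card (R := F) ({w} : Set (Fin k → F)); simp at this; omega)
  obtain ⟨d, hd, hda⟩ := exists_sep hf haw
  exact ⟨d, a, hd, ha 0, hda⟩

omit hf in
lemma not_mem_span_of_orth {x y z : Fin k → F} (h : f x z = 0) (h' : f y z ≠ 0) :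
    y ∉ Submodule.span F ({x} : Set (Fin k → F)) := fun hm => by
  obtain ⟨c, rfl⟩ := Submodule.mem_span_singleton.1 hm
  simp [h] at h'

/-- Isometries fixing `w` are transitive on the vectors orthogonal to it outside its line. -/
lemma exists_isom_move (hk : 4 ≤ k) {w b b' : Fin k → F} (hb : f b w = 0) (hb' : f b' w = 0)
    (hbw : b ∉ Submodule.span F ({w} : Set (Fin k → F)))
    (hb'w : b' ∉ Submodule.span F ({w} : Set (Fin k → F))) :
    ∃ a : GL (Fin k) F, Isom f a ∧ a.val *ᵥ w = w ∧ a.val *ᵥ b = b' := by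
  have direct : ∀ x y, f x w = 0 → f y w = 0 → f x y ≠ 0 →
      ∃ a : GL (Fin k) F, Isom f a ∧ a.val *ᵥ w = w ∧ a.val *ᵥ x = y := by
    intro x y hx hy hxy
    obtain ⟨a, ha, -, haz, -⟩ := exists_transvection hf (f x y)⁻¹ (y - x)
    refine ⟨a, ha, ?_, ?_⟩
    · rw [haz, map_sub, orth_comm hf hx, orth_comm hf hy, sub_zero, mul_zero, zero_smul, add_zero]
    · rw [haz, map_sub, hf.alt, sub_zero, inv_mul_cancel₀ hxy, one_smul, add_sub_cancel]
  obtain ⟨z, hz, hbz, hzb'⟩ : ∃ z, f z w = 0 ∧ f b z ≠ 0 ∧ f z b' ≠ 0 := by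
    obtain ⟨d, hdw, hdb⟩ := exists_sep hf hbw
    obtain ⟨d', hd'w, hd'b⟩ := exists_sep hf hb'w
    have h1 : f b d ≠ 0 := by rw [hf.skew, hdb]; simp
    by_cases e1 : f d b' = 0
    · by_cases e2 : f b d' = 0
      · exact ⟨d + d', by simp [hdw, hd'w], by rw [map_add, e2, add_zero]; exact h1,
          by simp [e1, hd'b]⟩
      · exact ⟨d', hd'w, e2, by rw [hd'b]; exact one_ne_zero⟩
    · exact ⟨d, hdw, h1, e1⟩
  obtain ⟨a, ha, haw, hab⟩ := direct b z hb hz hbz
  obtain ⟨a', ha', ha'w, ha'z⟩ := direct z b' hz hb' hzb'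
  exact ⟨a' * a, ha'.mul ha, by rw [Units.val_mul, ← mulVec_mulVec, haw, ha'w],
    by rw [Units.val_mul, ← mulVec_mulVec, hab, ha'z]⟩

/-- An isometry fixing `a` and moving `c` to `c + a`, for independent orthogonal `a`, `c`. -/
lemma exists_isom_shift {a c : Fin k → F} (hac : f a c = 0)
    (hc : c ∉ Submodule.span F ({a} : Set (Fin k → F))) :
    ∃ g : GL (Fin k) F, Isom f g ∧ g.val *ᵥ a = a ∧ g.val *ᵥ c = c + a := by
  obtain ⟨d, hda, hdc⟩ := exists_sep hf hc
  have hcd : f c d = -1 := by rw [hf.skew, hdc]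
  obtain ⟨g₁, h₁, -, z₁, -⟩ := exists_transvection hf (-1) (a + d)
  obtain ⟨g₂, h₂, -, z₂, -⟩ := exists_transvection hf 1 a
  obtain ⟨g₃, h₃, -, z₃, -⟩ := exists_transvection hf 1 d
  refine ⟨g₁ * g₂ * g₃, (h₁.mul h₂).mul h₃, ?_, ?_⟩ <;>
    simp only [Units.val_mul, ← mulVec_mulVec, z₁, z₂, z₃, map_add, map_smul, LinearMap.add_apply,
      LinearMap.smul_apply, smul_eq_mul, hac, orth_comm hf hac, hda, orth_comm hf hda, hdc, hcd,
      hf.alt]
  · module
  · module

lemma sctr_ext {X : Matrix ι (Fin k) F} (h : ∀ w, sctr f w X = 0) : X = 0 :=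
  Matrix.ext_of_mulVec_single fun j => by
    obtain ⟨w, hw⟩ := exists_sdual_eq hf (Pi.single j 1)
    rw [← hw, zero_mulVec]
    exact h w

omit hf in
lemma sctr_add (w w' : Fin k → F) (X : Matrix ι (Fin k) F) :
    sctr f (w + w') X = sctr f w X + sctr f w' X := by
  simp [mulVec_add]

omit hf in
lemma sctr_sub (w w' : Fin k → F) (X : Matrix ι (Fin k) F) :
    sctr f (w - w') X = sctr f w X - sctr f w' X := by
  simp [mulVec_sub]

omit hf in
lemma sctr_smul (c : F) (w : Fin k → F) (X : Matrix ι (Fin k) F) :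
    sctr f (c • w) X = c • sctr f w X := by
  simp [mulVec_smul]

omit hf in
lemma sctr_row (w : Fin k → F) (X : Matrix ι (Fin k) F) (i : ι) : sctr f w X i = f (X i) w := by
  rw [← dotProduct_sdual]
  rfl

/-- A matrix killed by the contractions orthogonal to `w` lies in the member at `w`. -/
lemma mem_memb_of_sctr {w : Fin k → F} (hw : w ≠ 0) {Z : Matrix ι (Fin k) F}
    (h : ∀ a, f a w = 0 → sctr f a Z = 0) : Z ∈ memb w :=
  mem_memb_of_forall_orth hw fun φ hφ => by
    obtain ⟨a, rfl⟩ := exists_sdual_eq hf φ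
    exact h a (orth_comm hf (by rw [← dotProduct_sdual]; exact hφ))

omit hf in
lemma sctr_memb {w a : Fin k → F} (h : f w a = 0) {Z : Matrix ι (Fin k) F} (hZ : Z ∈ memb w) :
    sctr f a Z = 0 := by
  obtain ⟨u, rfl⟩ := mem_memb.1 hZ
  rw [sctr_pure, h, zero_smul]

lemma sroot_sq {θ θ' : Matrix ι ι F} (w : Fin k → F) (X : Matrix ι (Fin k) F) :
    sroot f θ w (sroot f θ' w X) = 0 := by
  rw [sroot_apply, sroot_apply, sctr_pure, hf.alt, zero_smul, mulVec_zero, pure_zero_l]

end form

omit [Fintype ι] [DecidableEq ι] in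
lemma sphi_pure_left {b : LinearMap.BilinForm F (ι → F)} [Fintype ι] [DecidableEq ι]
    {f : LinearMap.BilinForm F (Fin k → F)} (hf : IsSymp f) (u : ι → F) (z : Fin k → F)
    (Y : Matrix ι (Fin k) F) : sphi b f (pure u z) Y = -b u (sctr f z Y) := by
  suffices h : sphi b f (pure u z) = -(b u ∘ₗ sctr f z) from LinearMap.congr_fun h Y
  refine linearMap_ext_pure fun u' z' => ?_
  rw [sphi_pure_pure, LinearMap.neg_apply, LinearMap.comp_apply, sctr_pure, map_smul, smul_eq_mul,
    hf.skew z' z]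
  ring

/-- A group on matrices preserving the product form up to scalars and containing the isometries of
the second factor. -/
structure Ctx (b : LinearMap.BilinForm F (ι → F)) (f : LinearMap.BilinForm F (Fin k → F))
    (M : Subgroup (Matrix ι (Fin k) F ≃ₗ[F] Matrix ι (Fin k) F)) : Prop where
  symp : IsSymp f
  bl : ∀ x, (∀ y, b x y = 0) → x = 0
  br : ∀ y, (∀ x, b x y = 0) → y = 0
  sim : ∀ g ∈ M, ∃ c : F, ∀ X Y, sphi b f (g X) (g Y) = c * sphi b f X Y
  right : ∀ a : GL (Fin k) F, Isom f a → ∃ e ∈ M, ∀ X, e X = X * (a : Matrix (Fin k) (Fin k) F)ᵀ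

/-- The scalar coefficient hypothesis on one factor. -/
def Scal (f : LinearMap.BilinForm F (Fin k → F))
    (M : Subgroup (Matrix ι (Fin k) F ≃ₗ[F] Matrix ι (Fin k) F)) : Prop :=
  ∀ (θ : Matrix ι ι F) (w : Fin k → F), w ≠ 0 → InM M (sroot f θ w) → ∃ c : F, θ = c • 1

section ctx

variable {b : LinearMap.BilinForm F (ι → F)} {f : LinearMap.BilinForm F (Fin k → F)}
  {M : Subgroup (Matrix ι (Fin k) F ≃ₗ[F] Matrix ι (Fin k) F)} (hM : Ctx b f M)
include hM

lemma sphi_nd {X : Matrix ι (Fin k) F} (h : ∀ Y, sphi b f X Y = 0) : X = 0 :=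
  sctr_ext hM.symp fun w => hM.bl _ fun u => by rw [← sphi_pure_right]; exact h _

/-- The root elements with scalar coefficient. -/
lemma exists_transvection_elem (c : F) (w : Fin k → F) :
    InM M (sroot f (c • (1 : Matrix ι ι F)) w) := by
  obtain ⟨a, ha, -, haz, -⟩ := exists_transvection hM.symp c w
  obtain ⟨e, he, heX⟩ := hM.right a ha
  refine ⟨e, he, fun X => ?_⟩
  suffices h : e.toLinearMap = LinearMap.id + sroot f (c • (1 : Matrix ι ι F)) w from
    LinearMap.congr_fun h X
  refine linearMap_ext_pure fun u z => ?_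
  rw [LinearEquiv.coe_coe, heX, pure_mul_transpose, haz, LinearMap.add_apply, LinearMap.id_apply,
    sroot_apply, sctr_pure, smul_mulVec, one_mulVec, pure_add_r, pure_smul_r, smul_smul, pure_smul_l]

/-- The radical element of the second factor at `w` along `a`. -/
lemma exists_q {w a : Fin k → F} (hw : f w a = 0) :
    ∃ e ∈ M, ∀ X, e X = X + pure (sctr f a X) w + pure (sctr f w X) a := by
  have hf := hM.symp
  have haw := orth_comm hf hw
  obtain ⟨g₁, h₁, -, z₁, -⟩ := exists_transvection hf 1 (w + a)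
  obtain ⟨g₂, h₂, -, z₂, -⟩ := exists_transvection hf (-1) w
  obtain ⟨g₃, h₃, -, z₃, -⟩ := exists_transvection hf (-1) a
  obtain ⟨e, he, heX⟩ := hM.right _ ((h₁.mul h₂).mul h₃)
  refine ⟨e, he, fun X => ?_⟩
  suffices h : e.toLinearMap = LinearMap.id + (pureL w ∘ₗ sctr f a + pureL a ∘ₗ sctr f w) from
    (LinearMap.congr_fun h X).trans (add_assoc _ _ _).symm
  refine linearMap_ext_pure fun u z => ?_
  rw [LinearEquiv.coe_coe, heX, pure_mul_transpose]
  simp only [Units.val_mul, ← mulVec_mulVec, z₁, z₂, z₃, map_add, map_smul, LinearMap.add_apply,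
    LinearMap.smul_apply, smul_eq_mul, hw, haw, hf.alt, LinearMap.comp_apply, LinearMap.id_apply,
    pureL_apply, sctr_pure, ← pure_smul_r, ← pure_add_r]
  congr 1
  module

end ctx

/-- A group on tensor coordinates for the only-scalar half: similitudes containing all products of
isometries of the factors and the permutations of order dividing three. -/
structure FBase (f : LinearMap.BilinForm F (Fin k → F))
    (M : Subgroup (TV F k t ≃ₗ[F] TV F k t)) : Prop where
  symp : IsSymp f
  small : (k = 2 ∧ (2 : F) ≠ 0 ∧ ∃ r : F, r ≠ 0 ∧ r ^ 2 ≠ 1) ∨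
    (4 ≤ k ∧ ((2 : F) = 0 → 6 ≤ k))
  sim : ∀ g ∈ M, ∃ c : F, ∀ u v, tform f t (g u) (g v) = c * tform f t u v
  kron_mem : ∀ gs : Fin t → GL (Fin k) F, (∀ i, Isom f (gs i)) → kronE gs ∈ M
  perm_mem : ∀ σ : Equiv.Perm (Fin t), σ ^ 3 = 1 → permE σ ∈ M

lemma FBase.two_le {f : LinearMap.BilinForm F (Fin k → F)}
    {M : Subgroup (TV F k t ≃ₗ[F] TV F k t)} (hM : FBase f M) : 2 ≤ k := by
  rcases hM.small with ⟨h, -⟩ | ⟨h, -⟩ <;> omega

/-- The tensor power of a non-degenerate form is non-degenerate. -/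
lemma tform_nd {f : LinearMap.BilinForm F (Fin k → F)} (hf : IsSymp f) : ∀ t : ℕ,
    (∀ x, (∀ y, tform f t x y = 0) → x = 0) ∧ ∀ y, (∀ x, tform f t x y = 0) → y = 0 := by
  intro t
  suffices hl : ∀ x, (∀ y, tform f t x y = 0) → x = 0 by
    refine ⟨hl, fun y h => hl y fun x => ?_⟩
    rw [tform_comm hf, h, mul_zero]
  induction t with
  | zero =>
    intro x h
    funext p
    have h1 := h (Pi.single p 1)
    rw [SympWreath17.tform_apply] at h1
    simpa [Fintype.sum_unique, Subsingleton.elim (default : Fin 0 → Fin k) p] using h1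
  | succ s ih =>
    intro x h
    refine (slot (0 : Fin (s + 1))).map_eq_zero_iff.1 (sctr_ext hf fun w => ih _ fun u => ?_)
    rw [← sphi_pure_right, ← (slot (0 : Fin (s + 1))).apply_symm_apply (pure u w), tform_slot]
    exact h _

/-- The context of one factor. -/
lemma FBase.ctx {f : LinearMap.BilinForm F (Fin k → F)}
    {M : Subgroup (TV F k (s + 1) ≃ₗ[F] TV F k (s + 1))} (hM : FBase f M) (i : Fin (s + 1)) :
    Ctx (tform f s) f (slotGroup M i) where
  symp := hM.symp
  bl := (tform_nd hM.symp s).1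
  br := (tform_nd hM.symp s).2
  sim := by
    rintro _ ⟨g, hg, rfl⟩
    obtain ⟨c, hc⟩ := hM.sim g hg
    refine ⟨c, fun X Y => ?_⟩
    obtain ⟨u, rfl⟩ := (slot i).surjective X
    obtain ⟨v, rfl⟩ := (slot i).surjective Y
    simp [tform_slot, hc]
  right := fun a ha => by
    refine ⟨_, Subgroup.mem_map_of_mem _ (hM.kron_mem
      (Fin.insertNth (α := fun _ => GL (Fin k) F) i a 1) fun l => ?_), kronE_insertNth_one i a⟩
    rcases Fin.eq_self_or_eq_succAbove i l with rfl | ⟨j, rfl⟩
    · simpa using ha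
    · simpa using SympWreath17.isom_one f

end CfsgLib.OPlusWreath94
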