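import Cfsg.Agent.OPlusWreath94.Radical
import Cfsg.Agent.TensorMax.Member

/-!
With only scalar root coefficients, a similitude carrying one member to a member is a product map.
-/

set_option autoImplicit false
set_option linter.unusedSectionVars false

namespace CfsgLib.OPlusWreath94

open Matrix Module
open CfsgLib.TensorMax (InM pure pure_mulVec memb mem_memb pure_mem_memb pureL pureL_apply colL
  colL_apply exists_dual pure_eq_zero_iff pureL_injective)
open CfsgLib.SympWreath17 (IsSymp sctr sctr_apply sctr_pure sroot sroot_apply sphi sphi_pure_right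
  sphi_pure_pure)

variable {F : Type*} [Field F] {k : ℕ} {ι : Type} [Fintype ι] [DecidableEq ι]
  {b : LinearMap.BilinForm F (ι → F)} {f : LinearMap.BilinForm F (Fin k → F)}
  {M M' : Subgroup (Matrix ι (Fin k) F ≃ₗ[F] Matrix ι (Fin k) F)}
  {e : Matrix ι (Fin k) F ≃ₗ[F] Matrix ι (Fin k) F}

/-- The vectors over which `e` is `α` on the first factor. -/
def prodSub (e : Matrix ι (Fin k) F ≃ₗ[F] Matrix ι (Fin k) F) (α : (ι → F) →ₗ[F] (ι → F)) :
    Submodule F (Fin k → F) where
  carrier := {z | ∃ ξ : Fin k → F, ∀ u, e (pure u z) = pure (α u) ξ}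
  add_mem' := by
    rintro z z' ⟨ξ, h⟩ ⟨ξ', h'⟩
    exact ⟨ξ + ξ', fun u => by rw [pure_add_r, map_add, h, h', ← pure_add_r]⟩
  zero_mem' := ⟨0, fun u => by rw [pure_zero_r, pure_zero_r, map_zero]⟩
  smul_mem' := by
    rintro c z ⟨ξ, h⟩
    exact ⟨c • ξ, fun u => by rw [pure_smul_r, map_smul, h, ← pure_smul_r]⟩

/-- Two groups and a similitude carrying one onto the other. -/
structure Move (b : LinearMap.BilinForm F (ι → F)) (f : LinearMap.BilinForm F (Fin k → F))
    (M M' : Subgroup (Matrix ι (Fin k) F ≃ₗ[F] Matrix ι (Fin k) F))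
    (e : Matrix ι (Fin k) F ≃ₗ[F] Matrix ι (Fin k) F) : Prop where
  src : Ctx b f M
  tgt : Ctx b f M'
  rad : RadProp f M
  rad' : RadProp f M'
  sim : ∃ c : F, ∀ X Y, sphi b f (e X) (e Y) = c * sphi b f X Y
  conj : ∀ x ∈ M, e.symm.trans (x.trans e) ∈ M'
  conj' : ∀ y ∈ M', e.trans (y.trans e.symm) ∈ M

/-- The data of a member carried to a member. -/
structure Img (f : LinearMap.BilinForm F (Fin k → F))
    (e : Matrix ι (Fin k) F ≃ₗ[F] Matrix ι (Fin k) F) (α : (ι → F) ≃ₗ[F] (ι → F)) (ρ : F)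
    (w v : Fin k → F) : Prop where
  w0 : w ≠ 0
  v0 : v ≠ 0
  map : ∀ u, e (pure u w) = pure (α u) v
  ρ0 : ρ ≠ 0
  ker : ∀ X, sctr f w X = 0 ↔ sctr f v (e X) = 0
  mid : ∀ z, f z w = 0 → ∃ (ξ : Fin k → F) (δ : (ι → F) →ₗ[F] (ι → F)), f ξ v = 0 ∧
    ∀ u, e (pure u z) = pure (α u) ξ + pure (δ u) v
  scale : ∀ (z ξ : Fin k → F) (δ : (ι → F) →ₗ[F] (ι → F)),
    (∀ u, e (pure u z) = pure (α u) ξ + pure (δ u) v) → ∀ X, sctr f v (e X) = 0 →
      sctr f ξ (e X) = ρ • α (sctr f z X)

variable (H : Move b f M M' e) (hk : 4 ≤ k) [Nonempty ι]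
include H hk

set_option maxHeartbeats 800000 in
/-- A member going to a member gives the data. -/
lemma exists_img {w v : Fin k → F} (hw : w ≠ 0) (hmap : ∀ u, e (pure u w) ∈ memb v) :
    ∃ (α : (ι → F) ≃ₗ[F] (ι → F)) (ρ : F), Img f e α ρ w v := by
  have hf := H.src.symp
  obtain ⟨u₀, hu₀⟩ := exists_ne (0 : ι → F)
  have hv : v ≠ 0 := by
    rintro rfl
    obtain ⟨z, hz⟩ := mem_memb.1 (hmap u₀)
    refine hu₀ ((pure_eq_zero_iff hw).1 (e.injective ?_))
    rw [← hz, map_zero, pure_zero_r]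
  obtain ⟨η, hη⟩ := exists_dual hv
  let α₀ : (ι → F) →ₗ[F] (ι → F) := colL η ∘ₗ e.toLinearMap ∘ₗ pureL w
  have hα₀ : ∀ u, e (pure u w) = pure (α₀ u) v := fun u => by
    obtain ⟨z, hz⟩ := mem_memb.1 (hmap u)
    simp only [α₀, LinearMap.comp_apply, pureL_apply, LinearEquiv.coe_coe, colL_apply]
    rw [← hz, pure_mulVec, hη, one_smul]
  have hinj : Function.Injective α₀ := fun x y hxy =>
    pureL_injective hw (e.injective (by simp [hα₀, hxy]))
  let α := LinearEquiv.ofBijective α₀ ⟨hinj, LinearMap.surjective_of_injective hinj⟩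
  have hα : ∀ u, e (pure u w) = pure (α u) v := hα₀
  have hα0 : α u₀ ≠ 0 := fun h => hu₀ (α.map_eq_zero_iff.1 h)
  obtain ⟨c, hc⟩ := H.sim
  have hc0 : c ≠ 0 := fun h0 => by
    refine hu₀ ((pure_eq_zero_iff hw).1 (e.injective ?_))
    rw [map_zero]
    refine sphi_nd H.src fun Y => ?_
    obtain ⟨y, rfl⟩ := e.surjective Y
    rw [hc, h0, zero_mul]
  have himg : ∀ X u, b (sctr f v (e X)) (α u) = c * b (sctr f w X) u := fun X u => by
    rw [← sphi_pure_right, ← hα, hc, sphi_pure_right]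
  have hker : ∀ X, sctr f w X = 0 ↔ sctr f v (e X) = 0 := fun X => by
    refine ⟨fun h => H.src.bl _ fun y => ?_, fun h => H.src.bl _ fun y => ?_⟩
    · obtain ⟨u, rfl⟩ := α.surjective y
      rw [himg, h, map_zero, LinearMap.zero_apply, mul_zero]
    · have := himg X y
      rw [h, map_zero, LinearMap.zero_apply, zero_eq_mul] at this
      exact this.resolve_left hc0
  -- the images of the vectors orthogonal to `w`
  have hmid : ∀ z, f z w = 0 → ∃ (ξ : Fin k → F) (δ : (ι → F) →ₗ[F] (ι → F)), f ξ v = 0 ∧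
      ∀ u, e (pure u z) = pure (α u) ξ + pure (δ u) v := by
    intro z hz
    obtain ⟨χ, hχ⟩ := exists_dual hα0
    set ξ := χ ᵥ* e (pure u₀ z) with hξ
    have hkz : ∀ u : ι → F, sctr f w (pure u z) = 0 := fun u => by rw [sctr_pure, hz, zero_smul]
    have htr : ∀ a', f a' v = 0 → ∃ a, ∀ u, sctr f a' (e (pure u z)) = f z a • α u := by
      intro a' ha'
      obtain ⟨q, hq, hqX⟩ := exists_q H.tgt (orth_comm hf ha')
      have hgw : ∀ u, (e.trans (q.trans e.symm)) (pure u w) = pure u w := fun u => by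
        simp only [LinearEquiv.trans_apply, hα, hqX, sctr_pure, hf.alt, orth_comm hf ha',
          zero_smul, pure_zero_l, add_zero]
        rw [← hα u, e.symm_apply_apply]
      obtain ⟨a, -, ha⟩ := H.rad w hw _ (H.conj' q hq) hgw
        (α.symm.toLinearMap ∘ₗ sctr f a' ∘ₗ e.toLinearMap) fun X hX => by
          simp only [LinearEquiv.trans_apply, hqX, (hker X).1 hX, pure_zero_l, add_zero, map_add,
            LinearEquiv.symm_apply_apply, LinearMap.comp_apply, LinearEquiv.coe_coe]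
          congr 1
          rw [e.symm_apply_eq, hα, α.apply_symm_apply]
      refine ⟨a, fun u => ?_⟩
      have h := ha _ (hkz u)
      simp only [LinearMap.comp_apply, LinearEquiv.coe_coe, α.symm_apply_eq] at h
      rw [h, sctr_pure, map_smul]
    have hξv : ∀ a', f a' v = 0 → ∀ u, sctr f a' (e (pure u z)) = f ξ a' • α u := by
      intro a' ha' u
      obtain ⟨a, ha⟩ := htr a' ha'
      rw [ha]
      congr 1
      have h := congrArg (fun y => χ ⬝ᵥ y) (ha u₀)
      simp only [sctr_apply, dotProduct_mulVec, dotProduct_smul, smul_eq_mul, ← hξ,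
        SympWreath17.dotProduct_sdual] at h
      rw [h, dotProduct_comm χ, hχ, mul_one]
    let δ : (ι → F) →ₗ[F] (ι → F) :=
      colL η ∘ₗ (e.toLinearMap ∘ₗ pureL z - pureL ξ ∘ₗ α.toLinearMap)
    have hdec : ∀ u, e (pure u z) = pure (α u) ξ + pure (δ u) v := fun u => by
      obtain ⟨y, hy⟩ := mem_memb.1 (mem_memb_of_sctr hf hv (Z := e (pure u z) - pure (α u) ξ)
        fun a' ha' => by rw [map_sub, hξv a' ha', sctr_pure, sub_self])
      simp only [δ, LinearMap.comp_apply, LinearMap.sub_apply, LinearEquiv.coe_coe, pureL_apply,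
        colL_apply, ← hy, pure_mulVec, hη, one_smul]
      rw [hy, add_sub_cancel]
    refine ⟨ξ, δ, ?_, hdec⟩
    have h := (hker _).1 (hkz u₀)
    rw [hdec, map_add, sctr_pure, sctr_pure, hf.alt, zero_smul, add_zero, smul_eq_zero] at h
    exact h.resolve_right hα0
  -- the scale
  obtain ⟨z, z', hz, hz', hzz⟩ := exists_pair_orth hf hk w
  obtain ⟨ξ, δ, hξ, hd⟩ := hmid z hz
  obtain ⟨ξ', δ', hξ', hd'⟩ := hmid z' hz'
  set ρ := f ξ ξ'
  have hαc : ∀ u u', ρ * b (α u) (α u') = c * b u u' := fun u u' => by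
    have h := hc (pure u z) (pure u' z')
    simp only [hd, hd', map_add, LinearMap.add_apply, sphi_pure_pure, hξ, orth_comm hf hξ', hf.alt,
      hzz, zero_mul, add_zero, one_mul] at h
    exact h
  obtain ⟨u₁, hu₁⟩ : ∃ u₁, b u₀ u₁ ≠ 0 := by
    by_contra! h
    exact hu₀ (H.src.bl _ h)
  have hρ0 : ρ ≠ 0 := fun h0 => by
    have h := hαc u₀ u₁
    rw [h0, zero_mul, zero_eq_mul] at h
    exact h.elim hc0 hu₁
  have hconv : ∀ (x y : ι → F), (∀ u, b x (α u) = c * b y u) → x = ρ • α y := fun x y hxy => by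
    refine sub_eq_zero.1 (H.src.bl _ fun u' => ?_)
    obtain ⟨u, rfl⟩ := α.surjective u'
    rw [map_sub, LinearMap.sub_apply, hxy, map_smul, LinearMap.smul_apply, smul_eq_mul, hαc,
      sub_self]
  refine ⟨α, ρ, hw, hv, hα, hρ0, hker, hmid, ?_⟩
  intro y η' ε hy X hX
  refine hconv _ _ fun u => ?_
  have h := hc X (pure u y)
  rw [hy, map_add, sphi_pure_right, sphi_pure_right, sphi_pure_right, hX, map_zero,
    LinearMap.zero_apply, add_zero] at h
  exact h

/-- Everything orthogonal to `w` splits. -/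
lemma perp_prod {α : (ι → F) ≃ₗ[F] (ι → F)} {ρ : F} {w v : Fin k → F} (I : Img f e α ρ w v)
    {z : Fin k → F} (hzw : f z w = 0) : z ∈ prodSub e α.toLinearMap := by
  have hf := H.src.symp
  have hwz := orth_comm hf hzw
  by_cases hm : z ∈ Submodule.span F ({w} : Set (Fin k → F))
  · have hwP : w ∈ prodSub e α.toLinearMap := ⟨v, I.map⟩
    exact (Submodule.span_singleton_le_iff_mem _ _).2 hwP hm
  obtain ⟨ξ, δ, hξv, hdec⟩ := I.mid z hzw
  have hvξ := orth_comm hf hξv
  obtain ⟨x, hx, hxX'⟩ := exists_transvection_elem H.src 1 z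
  obtain ⟨y, hy, hyX'⟩ := exists_transvection_elem H.tgt (-ρ⁻¹) ξ
  have hxX : ∀ X, x X = X + pure (sctr f z X) z := fun X => by
    rw [hxX', sroot_apply, one_smul, one_mulVec]
  have hyX : ∀ X, y X = X - ρ⁻¹ • pure (sctr f ξ X) ξ := fun X => by
    rw [hyX', sroot_apply, smul_mulVec, one_mulVec, pure_smul_l, neg_smul, sub_eq_add_neg]
  set g := (e.symm.trans (x.trans e)) * y
  have hg : g ∈ M' := M'.mul_mem (H.conj x hx) hy
  have hxw : ∀ u, x (pure u w) = pure u w := fun u => by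
    rw [hxX, sctr_pure, hwz, zero_smul, pure_zero_l, add_zero]
  have hgv : ∀ p, g (pure p v) = pure p v := fun p => by
    obtain ⟨u, rfl⟩ := α.surjective p
    simp only [g, LinearEquiv.mul_apply, hyX, sctr_pure, hvξ, zero_smul, pure_zero_l, smul_zero,
      sub_zero, LinearEquiv.trans_apply]
    rw [← I.map, e.symm_apply_apply, hxw]
  obtain ⟨a', ha'v, ha'⟩ := H.rad' v I.v0 g hg hgv (δ ∘ₗ sctr f z ∘ₗ e.symm.toLinearMap) fun Y hY => by
    obtain ⟨X, rfl⟩ := e.surjective Y
    simp only [g, LinearEquiv.mul_apply, hyX, I.scale z ξ δ hdec X hY, pure_smul_l, smul_smul,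
      inv_mul_cancel₀ I.ρ0, one_smul, LinearEquiv.trans_apply, LinearMap.comp_apply,
      LinearEquiv.coe_coe, LinearEquiv.symm_apply_apply]
    set s := sctr f z X
    obtain ⟨u', hu'⟩ := α.surjective (δ s)
    have h2 : e.symm (pure (α s) ξ) = pure s z - pure u' w := by
      rw [e.symm_apply_eq, map_sub, hdec, I.map, hu', add_sub_cancel_right]
    have hxz : x (pure s z) = pure s z := by
      rw [hxX, sctr_pure, hf.alt, zero_smul, pure_zero_l, add_zero]
    simp only [map_sub, e.symm_apply_apply, h2, hxw, hxz]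
    simp only [hxX X, map_add, hdec, I.map, hu', s]
    abel
  obtain ⟨z', hz', hzz'⟩ := exists_sep hf hm
  obtain ⟨ξ', δ', hξ'v, hdec'⟩ := I.mid z' hz'
  refine ⟨ξ + f ξ' a' • v, fun u => ?_⟩
  have hkz : sctr f v (e (pure u z')) = 0 := (I.ker _).1 (by rw [sctr_pure, hz', zero_smul])
  have h := ha' _ hkz
  simp only [LinearMap.comp_apply, LinearEquiv.coe_coe, LinearEquiv.symm_apply_apply, sctr_pure,
    hzz', one_smul] at h
  rw [hdec', map_add, sctr_pure, sctr_pure, orth_comm hf ha'v, zero_smul, add_zero] at h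
  rw [hdec, h, pure_add_r, pure_smul_r, pure_smul_l]
  rfl

/-- A similitude carrying a member to a member is a product. -/
theorem exists_mul_mul_of_member {w v : Fin k → F} (hw : w ≠ 0)
    (hmap : ∀ u, e (pure u w) ∈ memb v) :
    ∃ (A : Matrix ι ι F) (B : Matrix (Fin k) (Fin k) F), ∀ X, e X = A * X * Bᵀ := by
  have hf := H.src.symp
  obtain ⟨α, ρ, I⟩ := exists_img H hk hw hmap
  have hperp : ∀ z, f z w = 0 → z ∈ prodSub e α.toLinearMap := fun z hz => perp_prod H hk I hz
  obtain ⟨y, hyw', hyw⟩ := exists_perp_not_mem (f := f) ![w] (Submodule.span F {w})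
    (by have := finrank_span_le_card (R := F) ({w} : Set (Fin k → F)); simp at this; omega)
  have hy : y ≠ 0 := fun h => hyw (h ▸ Submodule.zero_mem _)
  obtain ⟨ξ, hξ⟩ := hperp y (hyw' 0)
  obtain ⟨α', ρ', I'⟩ := exists_img H hk hy (v := ξ) fun u => by
    rw [hξ]; exact pure_mem_memb _ _
  have hα : α' = α := LinearEquiv.ext fun u =>
    pureL_injective I'.v0 ((I'.map u).symm.trans (hξ u))
  subst hα
  have hwy : w ∉ Submodule.span F ({y} : Set (Fin k → F)) := fun hm => by
    obtain ⟨r, hr⟩ := Submodule.mem_span_singleton.1 hm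
    rcases eq_or_ne r 0 with rfl | hr0
    · exact hw (by rw [← hr, zero_smul])
    · exact hyw (Submodule.mem_span_singleton.2 ⟨r⁻¹, by rw [← hr, inv_smul_smul₀ hr0]⟩)
  obtain ⟨d, hdy, hdw⟩ := exists_sep hf hwy
  have hall : ∀ z, z ∈ prodSub e α'.toLinearMap := fun z => by
    rw [show z = (z - f z w • d) + f z w • d from (sub_add_cancel _ _).symm]
    refine Submodule.add_mem _ (hperp _ ?_) (Submodule.smul_mem _ _ (perp_prod H hk I' hdy))
    simp [hdw]
  have : Nonempty (Fin k) := ⟨⟨0, by omega⟩⟩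
  refine TensorMax.exists_mul_mul e fun z _ => ?_
  obtain ⟨η, hη⟩ := hall z
  exact ⟨η, fun u => by rw [hη]; exact pure_mem_memb _ _⟩

end CfsgLib.OPlusWreath94
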