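import Cfsg.Agent.OPlusWreath94.RadicalAlgebra

/-!
With only scalar root coefficients, an element of the radical at a vector of the second factor is a
contraction with a vector orthogonal to it.
-/

set_option autoImplicit false
set_option linter.unusedSectionVars false

namespace CfsgLib.OPlusWreath94

open Matrix Module
open CfsgLib.TensorMax (InM pure memb mem_memb pure_mem_memb pureL pureL_apply pure_eq_zero_iff)
open CfsgLib.WreathTensor14 (TV slot slotGroup kronE kronE_apply kronE_insertNth_left)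
open CfsgLib.Aschbacher (kroneckerPow)
open CfsgLib.SympWreath17 (IsSymp Isom tform sdual sctr sctr_apply sctr_pure sroot sroot_apply sphi
  sphi_pure_right sphi_pure_pure)

variable {F : Type*} [Field F] {k t s : ℕ} {ι : Type} [Fintype ι] [DecidableEq ι]
  {b : LinearMap.BilinForm F (ι → F)} {f : LinearMap.BilinForm F (Fin k → F)}
  {M : Subgroup (Matrix ι (Fin k) F ≃ₗ[F] Matrix ι (Fin k) F)}

/-- `φ` is the coefficient along `a` of an element of `M` in the radical at `w`. -/
def RadE (f : LinearMap.BilinForm F (Fin k → F))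
    (M : Subgroup (Matrix ι (Fin k) F ≃ₗ[F] Matrix ι (Fin k) F)) (w a : Fin k → F)
    (φ : (ι → F) →ₗ[F] (ι → F)) : Prop :=
  ∃ g ∈ M, (∀ u, g (pure u w) = pure u w) ∧
    ∀ X, sctr f w X = 0 → g X = X + pure (φ (sctr f a X)) w

/-- Contractions transported by an isometry of the second factor. -/
lemma sctr_mul (hf : IsSymp f) {g : GL (Fin k) F} (hg : Isom f g) (a : Fin k → F)
    (X : Matrix ι (Fin k) F) :
    sctr f (g.val *ᵥ a) (X * (g : Matrix (Fin k) (Fin k) F)ᵀ) = sctr f a X := by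
  suffices h : sctr f (g.val *ᵥ a) ∘ₗ mulRightLinearMap ι F (g : Matrix (Fin k) (Fin k) F)ᵀ
      = (sctr f a : Matrix ι (Fin k) F →ₗ[F] ι → F) from LinearMap.congr_fun h X
  refine linearMap_ext_pure fun u z => ?_
  rw [LinearMap.comp_apply, mulRightLinearMap_apply, pure_mul_transpose, sctr_pure, sctr_pure, hg]

section
variable (hM : Ctx b f M) (hk : 4 ≤ k) [Nonempty ι]
include hM hk

lemma iso_of_rad {w : Fin k → F} {g : Matrix ι (Fin k) F ≃ₗ[F] Matrix ι (Fin k) F}
    (hg : g ∈ M) {φ : Matrix ι (Fin k) F →ₗ[F] (ι → F)}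
    (hgφ : ∀ X, sctr f w X = 0 → g X = X + pure (φ X) w) :
    ∀ X Y, sphi b f (g X) (g Y) = sphi b f X Y := by
  have hf := hM.symp
  obtain ⟨c, hc⟩ := hM.sim g hg
  obtain ⟨a, a', ha, ha', haa⟩ := exists_pair_orth hf hk w
  obtain ⟨p, hp⟩ := exists_ne (0 : ι → F)
  obtain ⟨q, hq⟩ : ∃ q, b p q ≠ 0 := by
    by_contra! h
    exact hp (hM.bl p h)
  have h := hc (pure p a) (pure q a')
  rw [hgφ _ (by rw [sctr_pure, ha, zero_smul]), hgφ _ (by rw [sctr_pure, ha', zero_smul])] at h
  simp only [map_add, LinearMap.add_apply, sphi_pure_pure, ha, haa, orth_comm hf ha', hf.alt,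
    zero_mul, add_zero, one_mul] at h
  have hc1 : c = 1 := mul_right_cancel₀ hq (by rw [← h, one_mul])
  intro X Y
  rw [hc, hc1, one_mul]

lemma sctr_rad {w : Fin k → F} {g : Matrix ι (Fin k) F ≃ₗ[F] Matrix ι (Fin k) F} (hg : g ∈ M)
    (hgw : ∀ u, g (pure u w) = pure u w) {φ : Matrix ι (Fin k) F →ₗ[F] (ι → F)}
    (hgφ : ∀ X, sctr f w X = 0 → g X = X + pure (φ X) w) (X : Matrix ι (Fin k) F) :
    sctr f w (g X) = sctr f w X := by
  refine sub_eq_zero.1 (hM.bl _ fun u => ?_)
  rw [map_sub, LinearMap.sub_apply, ← sphi_pure_right, ← sphi_pure_right]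
  nth_rw 1 [← hgw u]
  rw [iso_of_rad hM hk hg hgφ, sub_self]

lemma RadE.congr {w a a' : Fin k → F} {φ φ' : (ι → F) →ₗ[F] (ι → F)} (h : RadE f M w a φ)
    (he : ∀ X, sctr f w X = 0 → φ' (sctr f a' X) = φ (sctr f a X)) : RadE f M w a' φ' := by
  obtain ⟨g, hg, hgw, hgX⟩ := h
  exact ⟨g, hg, hgw, fun X hX => by rw [hgX X hX, he X hX]⟩

lemma RadE.zero {w a : Fin k → F} : RadE f M w a 0 :=
  ⟨1, M.one_mem, fun _ => rfl, fun X _ => by simp [pure_zero_l]⟩

lemma RadE.add {w a : Fin k → F} {φ φ' : (ι → F) →ₗ[F] (ι → F)} (ha : f a w = 0)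
    (h : RadE f M w a φ) (h' : RadE f M w a φ') : RadE f M w a (φ + φ') := by
  obtain ⟨g, hg, hgw, hgX⟩ := h
  obtain ⟨g', hg', hgw', hgX'⟩ := h'
  refine ⟨g * g', M.mul_mem hg hg', fun u => ?_, fun X hX => ?_⟩
  · rw [LinearEquiv.mul_apply, hgw', hgw]
  · rw [LinearEquiv.mul_apply, hgX' X hX, map_add, hgw, hgX X hX, LinearMap.add_apply, pure_add_l,
      add_assoc]

/-- The adjoint of a radical coefficient. -/
lemma RadE.adjoint {w a a' e : Fin k → F} {φ : (ι → F) →ₗ[F] (ι → F)}
    (ha' : f a' w = 0) (haa : f a a' = 1) (he : f e w = 1) (h : RadE f M w a φ) :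
    ∃ g ∈ M, (∀ u, g (pure u w) = pure u w) ∧
      (∀ X, sctr f w X = 0 → g X = X + pure (φ (sctr f a X)) w) ∧
      IsAdjL b φ (sctr f a' ∘ₗ (g.toLinearMap - LinearMap.id) ∘ₗ pureL e) := by
  have hf := hM.symp
  obtain ⟨g, hg, hgw, hgX⟩ := h
  refine ⟨g, hg, hgw, hgX, fun p u => ?_⟩
  have hgX' : ∀ X, sctr f w X = 0 → g X = X + pure ((φ ∘ₗ sctr f a) X) w := hgX
  have h1 := iso_of_rad hM hk hg hgX' (pure p e) (pure u a')
  rw [hgX (pure u a') (by rw [sctr_pure, ha', zero_smul]), sctr_pure, hf.skew a a', haa, map_add,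
    sphi_pure_right, sphi_pure_right, sphi_pure_pure, sctr_rad hM hk hg hgw hgX', sctr_pure, he,
    one_smul, map_smul, map_smul, smul_eq_mul] at h1
  simp only [LinearMap.comp_apply, LinearMap.sub_apply, LinearEquiv.coe_coe, LinearMap.id_apply,
    pureL_apply, map_sub, sctr_pure, map_smul, LinearMap.smul_apply, smul_eq_mul]
  linear_combination h1

/-- The commutator of two radical elements. -/
lemma RadE.pair (hsc : Scal f M) {w a a' : Fin k → F} {φ φ' φt φt' : (ι → F) →ₗ[F] (ι → F)}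
    (hw : w ≠ 0) (ha : f a w = 0) (ha' : f a' w = 0) (haa : f a a' = 1)
    (h : RadE f M w a φ) (h' : RadE f M w a' φ') (hadj : IsAdjL b φ φt)
    (hadj' : IsAdjL b φ' φt') : ∃ e : F, φ ∘ₗ φt' + φ' ∘ₗ φt = e • LinearMap.id := by
  have hf := hM.symp
  obtain ⟨e₀, he⟩ := exists_partner hf hw
  have haa' : f a' (-a) = 1 := by rw [map_neg, hf.skew a a', haa, neg_neg]
  obtain ⟨g, hg, hgw, hgX, hga⟩ := RadE.adjoint hM hk ha' haa he h
  obtain ⟨g', hg', hgw', hgX', hga'⟩ :=
    RadE.adjoint hM hk (a' := -a) (by simp [ha]) haa' he h'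
  have huniq : ∀ (A B : (ι → F) →ₗ[F] (ι → F)) ψ, IsAdjL b ψ A → IsAdjL b ψ B → A = B :=
    fun A B ψ hA hB => LinearMap.ext fun p => sub_eq_zero.1 (hM.bl _ fun u => by
      rw [map_sub, LinearMap.sub_apply, hA, hB, sub_self])
  have e1 := huniq _ _ _ hga hadj
  have e2 := huniq _ _ _ hga' hadj'
  set θ := LinearMap.toMatrix' (-(φ ∘ₗ φt' + φ' ∘ₗ φt))
  have hgφ : ∀ X, sctr f w X = 0 → g X = X + pure ((φ ∘ₗ sctr f a) X) w := hgX
  have hgφ' : ∀ X, sctr f w X = 0 → g' X = X + pure ((φ' ∘ₗ sctr f a') X) w := hgX'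
  have hZ : ∀ p, sctr f w (g (pure p e₀) - pure p e₀) = 0 ∧
      sctr f w (g' (pure p e₀) - pure p e₀) = 0 := fun p => by
    rw [map_sub, map_sub, sctr_rad hM hk hg hgw hgφ, sctr_rad hM hk hg' hgw' hgφ', sub_self]
    exact ⟨rfl, rfl⟩
  have hsplit : g.toLinearMap ∘ₗ g'.toLinearMap
      = g'.toLinearMap ∘ₗ g.toLinearMap + sroot f θ w := by
    refine linearMap_ext_pure fun u z => ?_
    have hz : pure u z = pure u (z - f z w • e₀) + pure (f z w • u) e₀ := by
      rw [pure_smul_l, ← pure_smul_r, ← pure_add_r, sub_add_cancel]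
    have h0 : sctr f w (pure u (z - f z w • e₀)) = 0 := by
      rw [sctr_pure, map_sub, map_smul, LinearMap.sub_apply, LinearMap.smul_apply, he, smul_eq_mul,
        mul_one, sub_self, zero_smul]
    rw [hz]
    simp only [map_add]
    congr 1
    · simp only [LinearMap.add_apply, LinearMap.comp_apply, LinearEquiv.coe_coe, sroot_apply, h0,
        mulVec_zero, pure_zero_l, add_zero, hgX' _ h0, hgX _ h0, map_add, hgw, hgw']
      abel
    · set p := f z w • u
      obtain ⟨hZ1, hZ2⟩ := hZ p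
      have p1 : sctr f a' (g (pure p e₀) - pure p e₀) = φt p := by rw [← e1]; rfl
      have p2 : sctr f a (g' (pure p e₀) - pure p e₀) = -φt' p := by
        rw [← e2]
        simp only [LinearMap.comp_apply, LinearMap.sub_apply, LinearEquiv.coe_coe, LinearMap.id_apply,
          pureL_apply, map_neg, sctr_apply, map_sub, mulVec_neg, sub_mulVec]
        abel
      have d1 : g (g' (pure p e₀)) = g (pure p e₀) + (g' (pure p e₀) - pure p e₀)
          + pure (φ (sctr f a (g' (pure p e₀) - pure p e₀))) w := by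
        rw [add_assoc, ← hgX _ hZ2, ← map_add, add_sub_cancel]
      have d2 : g' (g (pure p e₀)) = g' (pure p e₀) + (g (pure p e₀) - pure p e₀)
          + pure (φ' (sctr f a' (g (pure p e₀) - pure p e₀))) w := by
        rw [add_assoc, ← hgX' _ hZ1, ← map_add, add_sub_cancel]
      simp only [LinearMap.add_apply, LinearMap.comp_apply, LinearEquiv.coe_coe, sroot_apply,
        sctr_pure, he, one_smul, d1, d2, p1, p2, θ, LinearMap.toMatrix'_mulVec, LinearMap.neg_apply,
        map_neg, neg_mulVec, LinearMap.add_apply, LinearMap.comp_apply, pure_neg_l, pure_add_l]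
      abel
  have hY : ∀ X, sctr f w (g' (g X)) = sctr f w X := fun X => by
    rw [sctr_rad hM hk hg' hgw' hgφ', sctr_rad hM hk hg hgw hgφ]
  obtain ⟨d, hd⟩ := hsc θ w hw ⟨g * g' * g⁻¹ * g'⁻¹,
    M.mul_mem (M.mul_mem (M.mul_mem hg hg') (M.inv_mem hg)) (M.inv_mem hg'), fun Y => by
      obtain ⟨X, rfl⟩ : ∃ X, g' (g X) = Y := ⟨g.symm (g'.symm Y), by simp⟩
      simp only [LinearEquiv.mul_apply]
      change g (g' (g.symm (g'.symm (g' (g X))))) = _
      rw [g'.symm_apply_apply, g.symm_apply_apply, sroot_apply, hY]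
      exact LinearMap.congr_fun hsplit X⟩
  refine ⟨-d, LinearMap.ext fun p => ?_⟩
  have h2 := LinearMap.toMatrix'_mulVec (-(φ ∘ₗ φt' + φ' ∘ₗ φt)) p
  rw [show LinearMap.toMatrix' (-(φ ∘ₗ φt' + φ' ∘ₗ φt)) = d • 1 from hd, smul_mulVec, one_mulVec,
    LinearMap.neg_apply, eq_neg_iff_add_eq_zero] at h2
  rw [LinearMap.smul_apply, LinearMap.id_apply, neg_smul, eq_neg_iff_add_eq_zero, add_comm]
  exact h2

/-- The coefficient does not depend on the vector. -/
lemma RadE.move {w a a' : Fin k → F} {φ : (ι → F) →ₗ[F] (ι → F)} (ha : f a w = 0)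
    (haw : a ∉ Submodule.span F ({w} : Set (Fin k → F))) (ha' : f a' w = 0)
    (h : RadE f M w a φ) : RadE f M w a' φ := by
  have hf := hM.symp
  by_cases ha'w : a' ∈ Submodule.span F ({w} : Set (Fin k → F))
  · obtain ⟨r, rfl⟩ := Submodule.mem_span_singleton.1 ha'w
    exact RadE.congr hM hk (φ := 0) (a := a) (RadE.zero hM hk) fun X hX => by
      rw [sctr_smul, hX, smul_zero, map_zero, LinearMap.zero_apply]
  obtain ⟨c, hc, hcw, hca⟩ := exists_isom_move hf hk ha ha' haw ha'w
  obtain ⟨e, he, heX⟩ := hM.right c hc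
  obtain ⟨g, hg, hgw, hgX⟩ := h
  have hew : ∀ u, e (pure u w) = pure u w := fun u => by rw [heX, pure_mul_transpose, hcw]
  refine ⟨e * g * e⁻¹, M.mul_mem (M.mul_mem he hg) (M.inv_mem he), fun u => ?_, fun X hX => ?_⟩
  · change e (g (e.symm (pure u w))) = _
    rw [(e.symm_apply_eq).2 (hew u).symm, hgw, hew]
  · obtain ⟨Y, rfl⟩ := e.surjective X
    have h1 : sctr f w (e Y) = sctr f w Y := by
      rw [heX]
      nth_rw 1 [← hcw]
      exact sctr_mul hf hc w Y
    change e (g (e.symm (e Y))) = _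
    rw [e.symm_apply_apply, hgX Y (by rw [← h1, hX]), map_add, hew, heX Y, ← hca, sctr_mul hf hc]

/-- The space of radical coefficients at `w`. -/
def radSpace (w : Fin k → F) : Submodule F ((ι → F) →ₗ[F] (ι → F)) where
  carrier := {φ | ∀ a, f a w = 0 → RadE f M w a φ}
  add_mem' h h' a ha := (h a ha).add hM hk ha (h' a ha)
  zero_mem' _ _ := RadE.zero hM hk
  smul_mem' l φ h a ha := (h (l • a) (by simp [ha])).congr hM hk fun X _ => by
    rw [sctr_smul, map_smul, LinearMap.smul_apply]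

lemma mem_radSpace {w a : Fin k → F} {φ : (ι → F) →ₗ[F] (ι → F)} (ha : f a w = 0)
    (haw : a ∉ Submodule.span F ({w} : Set (Fin k → F))) (h : RadE f M w a φ) :
    φ ∈ radSpace hM hk w := fun _ ha' => h.move hM hk ha haw ha'

lemma one_mem_radSpace (w : Fin k → F) : LinearMap.id ∈ radSpace hM hk w := fun a ha => by
  obtain ⟨e, he, heX⟩ := exists_q hM (orth_comm hM.symp ha)
  refine ⟨e, he, fun u => ?_, fun X hX => ?_⟩
  · rw [heX, sctr_pure, sctr_pure, hM.symp.alt, orth_comm hM.symp ha]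
    simp [pure_zero_l]
  · rw [heX, hX, pure_zero_l, add_zero, LinearMap.id_apply]

lemma radSpace_adj (hsc : Scal f M) {w : Fin k → F} (hw : w ≠ 0) {φ : (ι → F) →ₗ[F] (ι → F)}
    (hφ : φ ∈ radSpace hM hk w) : ∃ c : F, IsAdjL b φ (c • LinearMap.id - φ) := by
  have hf := hM.symp
  obtain ⟨a, a', ha, ha', haa⟩ := exists_pair_orth hf hk w
  obtain ⟨e, he⟩ := exists_partner hf hw
  obtain ⟨g, -, -, -, hadj⟩ := RadE.adjoint hM hk ha' haa he (hφ a ha)
  obtain ⟨c, hc⟩ := RadE.pair hM hk hsc hw ha ha' haa (hφ a ha) (one_mem_radSpace hM hk w a' ha')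
    hadj (φt' := LinearMap.id) (fun p u => rfl)
  refine ⟨c, ?_⟩
  rw [LinearMap.comp_id, LinearMap.id_comp] at hc
  rwa [← eq_sub_of_add_eq' hc]

lemma radSpace_anti (hsc : Scal f M) {w : Fin k → F} (hw : w ≠ 0)
    {φ φ' φt φt' : (ι → F) →ₗ[F] (ι → F)} (hφ : φ ∈ radSpace hM hk w)
    (hφ' : φ' ∈ radSpace hM hk w) (h : IsAdjL b φ φt) (h' : IsAdjL b φ' φt') :
    ∃ e : F, φ ∘ₗ φt' + φ' ∘ₗ φt = e • LinearMap.id := by
  obtain ⟨a, a', ha, ha', haa⟩ := exists_pair_orth hM.symp hk w
  exact RadE.pair hM hk hsc hw ha ha' haa (hφ a ha) (hφ' a' ha') h h'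

/-- With scalar coefficient spaces a radical element is a contraction. -/
theorem exists_covec_of_scalar {w : Fin k → F} (hw : w ≠ 0)
    (hΦ : ∀ φ ∈ radSpace hM hk w, ∃ d : F, φ = d • LinearMap.id)
    {g : Matrix ι (Fin k) F ≃ₗ[F] Matrix ι (Fin k) F} (hg : g ∈ M)
    (hgw : ∀ u, g (pure u w) = pure u w) (φ : Matrix ι (Fin k) F →ₗ[F] (ι → F))
    (hgφ : ∀ X, sctr f w X = 0 → g X = X + pure (φ X) w) :
    ∃ a, f a w = 0 ∧ ∀ X, sctr f w X = 0 → φ X = sctr f a X := by
  have hf := hM.symp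
  have hφw : ∀ u, φ (pure u w) = 0 := fun u => by
    have h := hgφ (pure u w) (by rw [sctr_pure, hf.alt, zero_smul])
    rw [hgw, left_eq_add] at h
    exact (pure_eq_zero_iff hw).1 h
  have key : ∀ a, f a w = 0 → ∃ l : F, ∀ u, φ (pure u a) = l • u := by
    intro a ha
    by_cases haw : a ∈ Submodule.span F ({w} : Set (Fin k → F))
    · obtain ⟨r, rfl⟩ := Submodule.mem_span_singleton.1 haw
      exact ⟨0, fun u => by rw [pure_smul_r, map_smul, hφw, smul_zero, zero_smul]⟩
    set L : (ι → F) →ₗ[F] (ι → F) := φ ∘ₗ pureL a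
    obtain ⟨x, hx, hxX⟩ := exists_transvection_elem hM 1 a
    have hxX' : ∀ X, x X = X + pure (sctr f a X) a := fun X => by
      rw [hxX, sroot_apply, one_smul, one_mulVec]
    have hwa := orth_comm hf ha
    have hxi : ∀ X, x.symm X = X - pure (sctr f a X) a := fun X => by
      rw [LinearEquiv.symm_apply_eq, hxX', map_sub, sctr_pure, hf.alt, zero_smul, sub_zero,
        sub_add_cancel]
    have hxw : ∀ u, x (pure u w) = pure u w := fun u => by
      rw [hxX', sctr_pure, hwa, zero_smul, pure_zero_l, add_zero]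
    have hL : -L ∈ radSpace hM hk w := by
      refine mem_radSpace hM hk ha haw ⟨x * g * x⁻¹ * g⁻¹,
        M.mul_mem (M.mul_mem (M.mul_mem hx hg) (M.inv_mem hx)) (M.inv_mem hg),
        fun u => ?_, fun X hX => ?_⟩
      · change x (g (x.symm (g.symm (pure u w)))) = _
        rw [g.symm_apply_eq.2 (hgw u).symm, x.symm_apply_eq.2 (hxw u).symm, hgw, hxw]
      · change x (g (x.symm (g.symm X))) = _
        have hi : g.symm X = X - pure (φ X) w := by
          rw [g.symm_apply_eq, map_sub, hgw, hgφ X hX, add_sub_cancel_right]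
        have hs : sctr f a (X - pure (φ X) w) = sctr f a X := by
          rw [map_sub, sctr_pure, hwa, zero_smul, sub_zero]
        rw [hi, hxi, hs]
        simp only [map_sub, hgw, hgφ X hX,
          hgφ _ (show sctr f w (pure (sctr f a X) a) = 0 by rw [sctr_pure, ha, zero_smul])]
        simp only [hxX']
        simp only [map_sub, map_add, sctr_pure, hwa, hf.alt, zero_smul, pure_zero_l, sub_zero, add_zero, L,
          LinearMap.neg_apply, LinearMap.comp_apply, pureL_apply, pure_neg_l]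
        abel
    obtain ⟨d, hd⟩ := hΦ _ hL
    refine ⟨-d, fun u => ?_⟩
    have := LinearMap.congr_fun hd u
    rw [LinearMap.neg_apply, LinearMap.smul_apply, LinearMap.id_apply, neg_eq_iff_eq_neg,
      ← neg_smul] at this
    exact this
  obtain ⟨u₀, hu₀⟩ := exists_ne (0 : ι → F)
  obtain ⟨χ, hχ⟩ := TensorMax.exists_dual hu₀
  let lin : (Fin k → F) →ₗ[F] F :=
    { toFun := fun z => φ (pure u₀ z) ⬝ᵥ χ
      map_add' := fun z z' => by rw [pure_add_r, map_add, add_dotProduct]
      map_smul' := fun c z => by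
        rw [pure_smul_r, map_smul, smul_dotProduct, RingHom.id_apply] }
  obtain ⟨a, hla⟩ := exists_form_eq hf lin
  have hval : ∀ z, f z w = 0 → ∀ u, φ (pure u z) = f z a • u := by
    intro z hz u
    obtain ⟨l, hl⟩ := key z hz
    rw [hla]
    change _ = (φ (pure u₀ z) ⬝ᵥ χ) • u
    rw [hl, hl, smul_dotProduct, hχ, smul_eq_mul, mul_one]
  refine ⟨a, orth_comm hf ?_, fun X hX => ?_⟩
  · rw [hla]
    change φ (pure u₀ w) ⬝ᵥ χ = 0
    rw [hφw, zero_dotProduct]
  conv_lhs => rw [eq_sum_rows X, map_sum]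
  rw [Finset.sum_congr rfl fun i _ => hval (X i) (by rw [← sctr_row, hX]; rfl) (Pi.single i 1),
    show sctr f a X = fun i => f (X i) a from funext fun i => sctr_row a X i]
  exact (pi_eq_sum_univ' _).symm

end

/-- The radical property of one factor. -/
def RadProp (f : LinearMap.BilinForm F (Fin k → F))
    (M : Subgroup (Matrix ι (Fin k) F ≃ₗ[F] Matrix ι (Fin k) F)) : Prop :=
  ∀ (w : Fin k → F), w ≠ 0 → ∀ g ∈ M, (∀ u, g (pure u w) = pure u w) →
    ∀ φ : Matrix ι (Fin k) F →ₗ[F] (ι → F),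
      (∀ X, sctr f w X = 0 → g X = X + pure (φ X) w) →
        ∃ a, f a w = 0 ∧ ∀ X, sctr f w X = 0 → φ X = sctr f a X

/-- The only-scalar hypothesis gives the radical property. -/
theorem FBase.radProp {f : LinearMap.BilinForm F (Fin k → F)}
    {M : Subgroup (TV F k (s + 1) ≃ₗ[F] TV F k (s + 1))} (hM : FBase f M)
    (hsc : SympWreath17.OnlyScal f M) (hk : 4 ≤ k) (i : Fin (s + 1)) :
    RadProp f (slotGroup M i) := by
  intro w hw g hg hgw φ hgφ
  have : Nonempty (Fin k) := ⟨⟨0, by omega⟩⟩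
  have hC := hM.ctx i
  have hsc' : Scal f (slotGroup M i) := hsc i
  refine exists_covec_of_scalar hC hk hw ?_ hg hgw φ hgφ
  intro ψ hψ
  rcases s with _ | s'
  · refine ⟨ψ (fun _ => 1) default, LinearMap.ext fun u => funext fun p => ?_⟩
    have hu : u = u default • (fun _ => (1 : F)) := funext fun q => by
      simp [Subsingleton.elim q default]
    rw [hu]
    simp [Subsingleton.elim p default]
  have small : (2 : F) = 0 → 6 ≤ k := fun h => by
    rcases hM.small with ⟨-, h', -⟩ | ⟨-, h'⟩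
    · exact absurd h h'
    · exact h' h
  have hS : Sys f (radSpace hC hk w) :=
    { symp := hM.symp
      four := hk
      small := small
      conj := fun φ hφ gs hgs a ha => by
        have hmem := hM.kron_mem _ (restElem_isom (f := f) i hgs)
        obtain ⟨x, hx, hxw, hxX⟩ := hφ a ha
        set e := WreathTensor14.slotConj i
          (kronE (Fin.insertNth (α := fun _ => GL (Fin k) F) i 1 gs)) with he
        have hem : e ∈ slotGroup M i := Subgroup.mem_map_of_mem _ hmem
        have heX : ∀ X, e X = kroneckerPow (fun l => (gs l).val) * X :=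
          fun X => kronE_insertNth_left i gs X
        have hec : ∀ (c : Fin k → F) X, sctr f c (e X) = kronE gs (sctr f c X) := fun c X => by
          rw [heX, sctr_apply, sctr_apply, kronE_apply, mulVec_mulVec]
        have hep : ∀ u z, e (pure u z) = pure (kronE gs u) z := fun u z => by
          rw [heX, TensorMax.pure, mul_vecMulVec]
          rfl
        refine ⟨e * x * e⁻¹, Subgroup.mul_mem _ (Subgroup.mul_mem _ hem hx) (Subgroup.inv_mem _ hem),
          fun u => ?_, fun X hX => ?_⟩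
        · change e (x (e.symm (pure u w))) = _
          obtain ⟨u', rfl⟩ := (kronE gs).surjective u
          rw [← hep, e.symm_apply_apply, hxw]
        · obtain ⟨Y, rfl⟩ := e.surjective X
          change e (x (e.symm (e Y))) = _
          rw [hec] at hX
          rw [e.symm_apply_apply, hxX Y ((kronE gs).map_eq_zero_iff.1 hX), map_add, hep, hec]
          simp
      adj := fun φ hφ => radSpace_adj hC hk hsc' hw hφ
      anti := fun φ hφ φ' hφ' φt φt' h h' => radSpace_anti hC hk hsc' hw hφ hφ' h h' }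
  exact hS.scalar hψ

end CfsgLib.OPlusWreath94
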