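import Cfsg.Agent.OPlusWreath94.Commutant

/-!
A space of maps of a tensor power, invariant under the isometries of the factors, in which the sum
with the adjoint and the symmetrised products with adjoints are scalar, consists of scalars.
-/

set_option autoImplicit false
set_option linter.unusedSectionVars false

namespace CfsgLib.OPlusWreath94

open Matrix Module
open CfsgLib.TensorMax (pure memb mem_memb pure_mem_memb pureL pureL_apply pure_eq_zero_iff
  pureL_injective)
open CfsgLib.WreathTensor14 (TV slot kronE)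
open CfsgLib.SympWreath17 (IsSymp Isom tform tform_slot sctr sctr_pure sphi_pure_pure sphi_pure_right
  exists_isom_map)

variable {F : Type*} [Field F] {k t s : ℕ} {f : LinearMap.BilinForm F (Fin k → F)}

/-- `φt` is adjoint to `φ`. -/
def IsAdjL {V : Type*} [AddCommGroup V] [Module F V] (b : LinearMap.BilinForm F V)
    (φ φt : V →ₗ[F] V) : Prop := ∀ p u, b (φt p) u = b p (φ u)

/-- The hypotheses on the space of radical coefficients. -/
structure Sys (f : LinearMap.BilinForm F (Fin k → F))
    (S : Submodule F (TV F k t →ₗ[F] TV F k t)) : Prop where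
  symp : IsSymp f
  four : 4 ≤ k
  small : (2 : F) = 0 → 6 ≤ k
  conj : ∀ φ ∈ S, ∀ gs : Fin t → GL (Fin k) F, (∀ i, Isom f (gs i)) →
    (kronE gs).toLinearMap ∘ₗ φ ∘ₗ (kronE gs).symm.toLinearMap ∈ S
  adj : ∀ φ ∈ S, ∃ c : F, IsAdjL (tform f t) φ (c • LinearMap.id - φ)
  anti : ∀ φ ∈ S, ∀ φ' ∈ S, ∀ φt φt', IsAdjL (tform f t) φ φt → IsAdjL (tform f t) φ' φt' →
    ∃ e : F, φ ∘ₗ φt' + φ' ∘ₗ φt = e • LinearMap.id

/-- The map `u ⊗ z ↦ f z c • A u ⊗ a` in the factor `i`. -/
def op (f : LinearMap.BilinForm F (Fin k → F)) (i : Fin (s + 1)) (A : TV F k s →ₗ[F] TV F k s)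
    (a c : Fin k → F) : TV F k (s + 1) →ₗ[F] TV F k (s + 1) :=
  (slot i).symm.toLinearMap ∘ₗ pureL a ∘ₗ A ∘ₗ sctr f c ∘ₗ (slot i).toLinearMap

lemma op_apply (i : Fin (s + 1)) (A : TV F k s →ₗ[F] TV F k s) (a c : Fin k → F)
    (x : TV F k (s + 1)) :
    op f i A a c x = (slot i).symm (pure (A (sctr f c (slot i x))) a) := rfl

lemma op_pure (i : Fin (s + 1)) (A : TV F k s →ₗ[F] TV F k s) (a c : Fin k → F) (u : TV F k s)
    (z : Fin k → F) :
    op f i A a c ((slot i).symm (pure u z)) = f z c • (slot i).symm (pure (A u) a) := by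
  rw [op_apply, LinearEquiv.apply_symm_apply, sctr_pure, map_smul, pure_smul_l, map_smul]

/-- The part of `φ` from `c` to the contraction with `a`. -/
def part (f : LinearMap.BilinForm F (Fin k → F)) (i : Fin (s + 1))
    (φ : TV F k (s + 1) →ₗ[F] TV F k (s + 1)) (a c : Fin k → F) : TV F k s →ₗ[F] TV F k s :=
  sctr f a ∘ₗ (slot i).toLinearMap ∘ₗ φ ∘ₗ (slot i).symm.toLinearMap ∘ₗ pureL c

lemma nW_comp_nW (i : Fin (s + 1)) (φ : TV F k (s + 1) →ₗ[F] TV F k (s + 1)) (a c : Fin k → F) :
    nW f i a ∘ₗ φ ∘ₗ nW f i c = op f i (part f i φ a c) a c :=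
  LinearMap.ext fun x => by
    simp only [LinearMap.comp_apply, nW_apply, op_apply, part, LinearEquiv.coe_coe, pureL_apply]

lemma kronE_symm_apply {t : ℕ} (gs : Fin t → GL (Fin k) F) (x : TV F k t) :
    (kronE gs).symm x = kronE gs⁻¹ x := by rw [map_inv]; rfl

/-- Conjugating by an element of the factor `i`. -/
lemma slotElem_conj_op (i : Fin (s + 1)) {g : GL (Fin k) F} (hg : Isom f g)
    (A : TV F k s →ₗ[F] TV F k s) (a c : Fin k → F) :
    (slotElem i g).toLinearMap ∘ₗ op f i A a c ∘ₗ (slotElem i g).symm.toLinearMap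
      = op f i A (g.val *ᵥ a) (g.val *ᵥ c) := by
  refine ext_slot i fun u z => ?_
  have h1 : (slotElem i g).symm ((slot i).symm (pure u z))
      = (slot i).symm (pure u ((g⁻¹).val *ᵥ z)) := by
    rw [LinearEquiv.symm_apply_eq, slotElem_pure, mulVec_mulVec, ← Units.val_mul, mul_inv_cancel,
      Units.val_one, one_mulVec]
  have h2 : f z (g.val *ᵥ c) = f ((g⁻¹).val *ᵥ z) c := by
    rw [← hg ((g⁻¹).val *ᵥ z) c, mulVec_mulVec, ← Units.val_mul, mul_inv_cancel, Units.val_one,
      one_mulVec]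
  simp only [LinearMap.comp_apply, LinearEquiv.coe_coe, h1, op_pure, map_smul, slotElem_pure, h2]

/-- Conjugating by elements of the other factors. -/
lemma restElem_conj_op (i : Fin (s + 1)) (gs : Fin s → GL (Fin k) F)
    (A : TV F k s →ₗ[F] TV F k s) (a c : Fin k → F) :
    (kronE (Fin.insertNth (α := fun _ => GL (Fin k) F) i 1 gs)).toLinearMap ∘ₗ op f i A a c ∘ₗ
        (kronE (Fin.insertNth (α := fun _ => GL (Fin k) F) i 1 gs)).symm.toLinearMap
      = op f i ((kronE gs).toLinearMap ∘ₗ A ∘ₗ (kronE gs).symm.toLinearMap) a c := by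
  refine ext_slot i fun u z => ?_
  have h1 : (kronE (Fin.insertNth (α := fun _ => GL (Fin k) F) i 1 gs)).symm
      ((slot i).symm (pure u z)) = (slot i).symm (pure ((kronE gs).symm u) z) := by
    rw [LinearEquiv.symm_apply_eq, restElem_pure, LinearEquiv.apply_symm_apply]
  simp only [LinearMap.comp_apply, LinearEquiv.coe_coe, h1, op_pure, map_smul, restElem_pure]

lemma op_sub_left (i : Fin (s + 1)) (A B : TV F k s →ₗ[F] TV F k s) (a c : Fin k → F) :
    op f i (A - B) a c = op f i A a c - op f i B a c := by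
  refine ext_slot i fun u z => ?_
  simp only [LinearMap.sub_apply, op_pure, pure_sub_l, map_sub, smul_sub]

lemma op_add_left (i : Fin (s + 1)) (A B : TV F k s →ₗ[F] TV F k s) (a c : Fin k → F) :
    op f i (A + B) a c = op f i A a c + op f i B a c := by
  refine ext_slot i fun u z => ?_
  simp only [LinearMap.add_apply, op_pure, pure_add_l, map_add, smul_add]

namespace Sys

variable {S : Submodule F (TV F k (s + 1) →ₗ[F] TV F k (s + 1))} (hS : Sys f S)
include hS

/-- Two mixed products with orthogonal transvections. -/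
lemma mixed_mem {φ : TV F k (s + 1) →ₗ[F] TV F k (s + 1)} (hφ : φ ∈ S) (i : Fin (s + 1))
    {a c : Fin k → F} (hac : f a c = 0) :
    op f i (part f i φ a c) a c + op f i (part f i φ c a) c a ∈ S := by
  have hf := hS.symp
  obtain ⟨ga, hga, hgax⟩ := exists_slot_transvection hf i 1 a
  obtain ⟨gc, hgc, hgcx⟩ := exists_slot_transvection hf i 1 c
  have inv : ∀ (g : GL (Fin k) F) (v : Fin k → F), Isom f g →
      (∀ x, slotElem i g x = x + (1 : F) • nW f i v x) →
      ∀ x, (slotElem i g).symm x = x - nW f i v x := by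
    intro g v _ hgx x
    rw [LinearEquiv.symm_apply_eq, hgx, one_smul, map_sub]
    have : nW f i v (nW f i v x) = 0 := by
      rw [nW_apply i v x, nW_pure, hf.alt, zero_smul]
    rw [this, sub_zero, sub_add_cancel]
  have mv : ∀ (g : GL (Fin k) F) (v : Fin k → F), Isom f g →
      (∀ x, slotElem i g x = x + (1 : F) • nW f i v x) → ∀ ψ ∈ S,
      nW f i v ∘ₗ ψ - ψ ∘ₗ nW f i v - nW f i v ∘ₗ ψ ∘ₗ nW f i v ∈ S := by
    intro g v hg hgx ψ hψ
    have h1 := S.sub_mem (hS.conj ψ hψ _ (slotElem_isom i hg)) hψ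
    convert h1 using 1
    refine LinearMap.ext fun x => ?_
    simp only [LinearMap.sub_apply, LinearMap.comp_apply, LinearEquiv.coe_coe]
    rw [show (kronE (Fin.insertNth (α := fun _ => GL (Fin k) F) i g 1)).symm x = _ from
      inv g v hg hgx x, show ∀ y, kronE (Fin.insertNth (α := fun _ => GL (Fin k) F) i g 1) y = _ from
      hgx, one_smul, map_sub, map_sub]
    abel
  have h := S.neg_mem (mv ga a hga hgax _ (mv gc c hgc hgcx φ hφ))
  convert h using 1
  rw [← nW_comp_nW, ← nW_comp_nW]
  have z1 : ∀ x, nW f i a (nW f i c x) = 0 := fun x => by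
    rw [nW_apply i c x, nW_pure, orth_comm hf hac, zero_smul]
  have z2 : ∀ x, nW f i c (nW f i a x) = 0 := fun x => by
    rw [nW_apply i a x, nW_pure, hac, zero_smul]
  refine LinearMap.ext fun x => ?_
  simp only [LinearMap.add_apply, LinearMap.sub_apply, LinearMap.neg_apply, LinearMap.comp_apply,
    map_sub, z1, z2, map_zero]
  abel

/-- An element killing a vector of a factor, with image orthogonal to it, is skew. -/
lemma skew_of_kill {φ : TV F k (s + 1) →ₗ[F] TV F k (s + 1)} (hφ : φ ∈ S) (i : Fin (s + 1))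
    {a : Fin k → F} (ha : a ≠ 0) (hkill : ∀ u, φ ((slot i).symm (pure u a)) = 0)
    (him : ∀ x, sctr f a (slot i (φ x)) = 0) :
    IsAdjL (tform f (s + 1)) φ (-φ) := by
  have hf := hS.symp
  obtain ⟨c, hc⟩ := hS.adj φ hφ
  suffices h0 : c = 0 by rwa [h0, zero_smul, zero_sub] at hc
  by_contra h0
  obtain ⟨e, he⟩ := exists_partner hf ha
  have : Nonempty (Fin k) := ⟨⟨0, by have := hS.four; omega⟩⟩
  obtain ⟨x, hx⟩ := exists_ne (0 : TV F k s)
  obtain ⟨y, hy⟩ : ∃ y, tform f s x y ≠ 0 := by
    by_contra! h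
    exact hx ((tform_nd hf s).1 x h)
  have h := hc ((slot i).symm (pure x a)) ((slot i).symm (pure y e))
  rw [LinearMap.sub_apply, hkill, sub_zero, LinearMap.smul_apply, LinearMap.id_apply] at h
  simp only [← tform_slot i, map_smul, LinearMap.smul_apply, LinearEquiv.apply_symm_apply,
    sphi_pure_left hf, him, sctr_pure, map_zero, neg_zero, he, smul_eq_mul] at h
  exact h0 (by simpa [hy] using h)

/-- Skew elements anticommute up to scalars. -/
lemma anti_skew {φ φ' : TV F k (s + 1) →ₗ[F] TV F k (s + 1)} (h : φ ∈ S) (h' : φ' ∈ S)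
    (hs : IsAdjL (tform f (s + 1)) φ (-φ)) (hs' : IsAdjL (tform f (s + 1)) φ' (-φ')) :
    ∃ e : F, ∀ x, φ (φ' x) + φ' (φ x) = e • x := by
  obtain ⟨e, he⟩ := hS.anti φ h φ' h' _ _ hs hs'
  refine ⟨-e, fun x => ?_⟩
  have := LinearMap.congr_fun he x
  simp only [LinearMap.add_apply, LinearMap.comp_apply, LinearMap.neg_apply, map_neg,
    LinearMap.smul_apply, LinearMap.id_apply] at this
  rw [neg_smul, ← this]
  abel

/-- An invariant family with all products zero is zero. -/
lemma eq_zero_of_mul_zero (T : Set (TV F k s →ₗ[F] TV F k s))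
    (hT : ∀ A ∈ T, ∀ gs : Fin s → GL (Fin k) F, (∀ i, Isom f (gs i)) →
      (kronE gs).toLinearMap ∘ₗ A ∘ₗ (kronE gs).symm.toLinearMap ∈ T)
    (h0 : ∀ A ∈ T, ∀ B ∈ T, ∀ u, A (B u) = 0) {A : TV F k s →ₗ[F] TV F k s} (hA : A ∈ T) :
    A = 0 := by
  by_contra hne
  let W := Submodule.span F {y | ∃ B ∈ T, ∃ u, B u = y}
  obtain ⟨u, hu⟩ : ∃ u, A u ≠ 0 := by
    by_contra! h
    exact hne (LinearMap.ext h)
  have hW : W = ⊤ := by
    refine eq_top_of_invariant hS.symp s W (fun gs hgs x hx => ?_) fun hb =>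
      hu ((Submodule.mem_bot F).1 (hb ▸ Submodule.subset_span ⟨A, hA, u, rfl⟩))
    induction hx using Submodule.span_induction with
    | mem y hy =>
      obtain ⟨B, hB, v, rfl⟩ := hy
      refine Submodule.subset_span ⟨_, hT B hB gs hgs, kronE gs v, ?_⟩
      simp
    | zero => rw [map_zero]; exact W.zero_mem
    | add y z _ _ hy hz => rw [map_add]; exact W.add_mem hy hz
    | smul c y _ hy => rw [map_smul]; exact W.smul_mem c hy
  have hker : W ≤ LinearMap.ker A :=
    Submodule.span_le.2 fun y ⟨B, hB, v, hv⟩ => hv ▸ h0 A hA B hB v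
  exact hu (LinearMap.mem_ker.1 (hker (hW ▸ Submodule.mem_top)))

/-- Coefficients of transvection type vanish. -/
lemma op_self_eq_zero (i : Fin (s + 1)) {a : Fin k → F} (ha : a ≠ 0)
    {A : TV F k s →ₗ[F] TV F k s} (hA : op f i A a a ∈ S) : A = 0 := by
  have hf := hS.symp
  let T : Set (TV F k s →ₗ[F] TV F k s) := {B | ∀ a, a ≠ 0 → op f i B a a ∈ S}
  have hAT : A ∈ T := fun a' ha' => by
    obtain ⟨g, hg, hga⟩ := exists_isom_map hf ha ha'
    have := hS.conj _ hA _ (slotElem_isom i hg)
    rw [show kronE _ = slotElem i g from rfl, slotElem_conj_op i hg, hga] at this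
    exact this
  refine hS.eq_zero_of_mul_zero T (fun B hB gs hgs a' ha' => ?_) (fun B hB C hC u => ?_) hAT
  · rw [← restElem_conj_op]
    exact hS.conj _ (hB a' ha') _ (restElem_isom i hgs)
  obtain ⟨a', ha'⟩ := hf.exists_one ha
  have ha'0 : a' ≠ 0 := fun h => by simp [h] at ha'
  have sk : ∀ b, b ≠ 0 → ∀ D : TV F k s →ₗ[F] TV F k s, op f i D b b ∈ S →
      IsAdjL (tform f (s + 1)) (op f i D b b) (-(op f i D b b)) := fun b hb D hD =>
    hS.skew_of_kill hD i hb (fun u => by rw [op_pure, hf.alt, zero_smul])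
      fun x => by rw [op_apply, LinearEquiv.apply_symm_apply, sctr_pure, hf.alt, zero_smul]
  obtain ⟨e, he⟩ := hS.anti_skew (hB a ha) (hC a' ha'0) (sk a ha B (hB a ha))
    (sk a' ha'0 C (hC a' ha'0))
  obtain ⟨z, hz, hz0⟩ := exists_perp_not_mem (f := f) ![a, a'] ⊥
    (by have := hS.four; simp; omega)
  have he0 : e = 0 := by
    have : Nonempty (Fin k) := ⟨⟨0, by have := hS.four; omega⟩⟩
    obtain ⟨x, hx⟩ := exists_ne (0 : TV F k s)
    have h := he ((slot i).symm (pure x z))
    simp only [op_pure, show f z a = 0 from hz 0, show f z a' = 0 from hz 1, zero_smul, map_zero,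
      add_zero] at h
    refine (smul_eq_zero.1 h.symm).resolve_right fun h' => hx ?_
    rw [LinearEquiv.map_eq_zero_iff, pure_eq_zero_iff (fun h0 => hz0 (by rw [h0]; exact Submodule.zero_mem _))] at h'
    exact h'
  have h := he ((slot i).symm (pure u a))
  simp only [op_pure, hf.alt, ha', hf.skew a a', zero_smul, map_zero, add_zero, one_smul, he0,
    smul_zero, neg_smul, map_neg, neg_eq_zero, LinearEquiv.map_eq_zero_iff] at h
  exact (pure_eq_zero_iff ha).1 h

/-- The two-sided coefficient at an orthogonal pair. -/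
def pairOp (f : LinearMap.BilinForm F (Fin k → F)) (i : Fin (s + 1))
    (A : TV F k s →ₗ[F] TV F k s) (a c : Fin k → F) : TV F k (s + 1) →ₗ[F] TV F k (s + 1) :=
  op f i A a c - op f i A c a

/-- Coefficients of an orthogonal pair vanish. -/
lemma pairOp_eq_zero (i : Fin (s + 1)) {a c : Fin k → F} (ha : a ≠ 0) (hac : f a c = 0)
    (hind : c ∉ Submodule.span F ({a} : Set (Fin k → F)))
    {A : TV F k s →ₗ[F] TV F k s} (hA : pairOp f i A a c ∈ S) : A = 0 := by
  have hf := hS.symp
  have hca := orth_comm hf hac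
  let T : Set (TV F k s →ₗ[F] TV F k s) := {B | ∀ x y, f x y = 0 →
    y ∉ Submodule.span F ({x} : Set (Fin k → F)) → x ≠ 0 → pairOp f i B x y ∈ S}
  have hAT : A ∈ T := fun x y hxy hy hx => by
    obtain ⟨g₁, hg₁, hg₁a⟩ := exists_isom_map hf ha hx
    have hc' : g₁.val *ᵥ c ∉ Submodule.span F ({x} : Set (Fin k → F)) := fun hm => by
      obtain ⟨r, hr⟩ := Submodule.mem_span_singleton.1 hm
      refine hind (Submodule.mem_span_singleton.2 ⟨r, ?_⟩)
      have := congrArg (fun v => (g₁⁻¹).val *ᵥ v) hr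
      rw [← hg₁a] at this
      simpa [mulVec_smul, mulVec_mulVec] using this
    obtain ⟨g₂, hg₂, hg₂x, hg₂c⟩ := exists_isom_move hf hS.four (w := x) (b := g₁.val *ᵥ c)
      (b' := y) (by rw [← hg₁a, hg₁, hca]) (orth_comm hf hxy) hc' hy
    have := hS.conj _ hA _ (slotElem_isom i (hg₂.mul hg₁))
    rw [show kronE _ = slotElem i (g₂ * g₁) from rfl, pairOp, LinearMap.sub_comp,
      LinearMap.comp_sub, slotElem_conj_op i (hg₂.mul hg₁), slotElem_conj_op i (hg₂.mul hg₁),
      Units.val_mul, ← mulVec_mulVec, ← mulVec_mulVec, hg₁a, hg₂x, hg₂c] at this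
    exact this
  have hTconj : ∀ B ∈ T, ∀ gs : Fin s → GL (Fin k) F, (∀ l, Isom f (gs l)) →
      (kronE gs).toLinearMap ∘ₗ B ∘ₗ (kronE gs).symm.toLinearMap ∈ T :=
    fun B hB gs hgs x y h1 h2 h3 => by
      have := hS.conj _ (hB x y h1 h2 h3) _ (restElem_isom i hgs)
      rwa [pairOp, LinearMap.sub_comp, LinearMap.comp_sub, restElem_conj_op, restElem_conj_op]
        at this
  have sk : ∀ B ∈ T, ∀ x y, f x y = 0 → y ∉ Submodule.span F ({x} : Set (Fin k → F)) → x ≠ 0 →
      IsAdjL (tform f (s + 1)) (pairOp f i B x y) (-(pairOp f i B x y)) :=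
    fun B hB x y hxy hy hx => hS.skew_of_kill (hB x y hxy hy hx) i hx
      (fun u => by simp [pairOp, op_pure, hf.alt, hxy])
      fun v => by
        simp only [pairOp, LinearMap.sub_apply, op_apply, map_sub, LinearEquiv.apply_symm_apply,
          sctr_pure, hf.alt, orth_comm hf hxy, zero_smul, sub_self]
  -- the dual vectors
  have hind' : a ∉ Submodule.span F ({c} : Set (Fin k → F)) := fun hm => by
    obtain ⟨r, hr⟩ := Submodule.mem_span_singleton.1 hm
    have hr0 : r ≠ 0 := fun h0 => ha (by rw [← hr, h0, zero_smul])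
    exact hind (Submodule.mem_span_singleton.2 ⟨r⁻¹, by rw [← hr, inv_smul_smul₀ hr0]⟩)
  obtain ⟨d₁, hd₁c, hd₁a⟩ := exists_sep hf hind'
  obtain ⟨d₂', hd₂a', hd₂c'⟩ := exists_sep hf hind
  set d₂ := d₂' + (-(f d₁ d₂')) • a with hd₂
  have hd₂a : f d₂ a = 0 := by simp [hd₂, hd₂a', hf.alt]
  have hd₂c : f d₂ c = 1 := by simp [hd₂, hd₂c', hac]
  have hd₁₂ : f d₁ d₂ = 0 := by simp [hd₂, hd₁a]
  have hd₂₁ := orth_comm hf hd₁₂
  have hnd : d₂ ∉ Submodule.span F ({d₁} : Set (Fin k → F)) :=
    not_mem_span_of_orth hd₁c (by rw [hd₂c]; exact one_ne_zero)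
  have hd₁0 : d₁ ≠ 0 := fun h => by simp [h] at hd₁a
  have had₁ : f a d₁ = -1 := by rw [hf.skew, hd₁a]
  have had₂ : f a d₂ = 0 := orth_comm hf hd₂a
  have hcd₁ : f c d₁ = 0 := orth_comm hf hd₁c
  have hcd₂ : f c d₂ = -1 := by rw [hf.skew, hd₂c]
  have pr : ∀ B ∈ T, ∀ C ∈ T, ∃ e : F, (∀ u, B (C u) = e • u) ∧ (∀ u, C (B u) = e • u) ∧
      (6 ≤ k → e = 0) := by
    intro B hB C hC
    obtain ⟨e, he⟩ := hS.anti_skew (hB a c hac hind ha) (hC d₁ d₂ hd₁₂ hnd hd₁0)
      (sk B hB a c hac hind ha) (sk C hC d₁ d₂ hd₁₂ hnd hd₁0)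
    have e1 : ∀ u z, pairOp f i B a c ((slot i).symm (pure u z))
        = (slot i).symm (pure (B u) (f z c • a - f z a • c)) := fun u z => by
      simp [pairOp, op_pure, pure_sub_r, pure_smul_r]
    have e2 : ∀ u z, pairOp f i C d₁ d₂ ((slot i).symm (pure u z))
        = (slot i).symm (pure (C u) (f z d₂ • d₁ - f z d₁ • d₂)) := fun u z => by
      simp [pairOp, op_pure, pure_sub_r, pure_smul_r]
    refine ⟨e, fun u => ?_, fun u => ?_, fun h6 => ?_⟩
    · have h := he ((slot i).symm (pure u a))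
      simp only [e1, e2, had₁, had₂, hac, hd₂c, hd₂a, hf.alt, zero_smul, sub_self, zero_sub,
        neg_smul, one_smul, neg_neg, sub_zero, pure_zero_r, map_zero, add_zero,
        ← map_smul, ← pure_smul_l] at h
      exact pureL_injective ha ((slot i).symm.injective h)
    · have h := he ((slot i).symm (pure u d₁))
      simp only [e1, e2, hd₁c, hd₁a, hd₁₂, hcd₁, hcd₂, hf.alt, zero_smul, zero_sub, sub_zero,
        neg_smul, one_smul, sub_self, pure_zero_r, map_zero, zero_add,
        pure_neg_r, map_neg, neg_neg, ← map_smul, ← pure_smul_l] at h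
      exact pureL_injective hd₁0 ((slot i).symm.injective h)
    · obtain ⟨z, hz, hz0⟩ := exists_perp_not_mem (f := f) ![a, c, d₁, d₂] ⊥ (by simp; omega)
      have : Nonempty (Fin k) := ⟨⟨0, by omega⟩⟩
      obtain ⟨x, hx⟩ := exists_ne (0 : TV F k s)
      have h := he ((slot i).symm (pure x z))
      simp only [e1, e2, show f z a = 0 from hz 0, show f z c = 0 from hz 1,
        show f z d₁ = 0 from hz 2, show f z d₂ = 0 from hz 3, zero_smul, sub_self, pure_zero_r,
        map_zero, add_zero] at h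
      refine (smul_eq_zero.1 h.symm).resolve_right fun h' => hx ?_
      rw [LinearEquiv.map_eq_zero_iff,
        pure_eq_zero_iff (fun h0 => hz0 (by rw [h0]; exact Submodule.zero_mem _))] at h'
      exact h'
  by_cases hall : ∀ B ∈ T, ∀ C ∈ T, ∀ u, B (C u) = 0
  · exact hS.eq_zero_of_mul_zero T hTconj hall hAT
  push Not at hall
  obtain ⟨B, hB, C, hC, u₀, hne⟩ := hall
  obtain ⟨e, hBC, hCB, h6⟩ := pr B hB C hC
  have he : e ≠ 0 := fun h0 => hne (by rw [hBC, h0, zero_smul])
  have h2 : (2 : F) ≠ 0 := fun h => he (h6 (hS.small h))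
  have hBinj : ∀ u, B u = 0 → u = 0 := fun u hu => by
    have := hCB u
    rw [hu, map_zero] at this
    exact (smul_eq_zero.1 this.symm).resolve_left he
  -- conjugates of `B` are multiples of it
  have hlin : ∀ D ∈ T, ∃ l : F, D = l • B := by
    intro D hD
    obtain ⟨e', hDC, -, -⟩ := pr D hD C hC
    refine ⟨e⁻¹ * e', LinearMap.ext fun u => ?_⟩
    have := hDC (B u)
    rw [hCB, map_smul] at this
    rw [LinearMap.smul_apply, mul_smul, ← this, inv_smul_smul₀ he]
  obtain ⟨d, hd⟩ : ∃ d : F, B = d • LinearMap.id := by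
    rcases s with _ | s'
    · refine ⟨B (fun _ => 1) default, LinearMap.ext fun u => funext fun p => ?_⟩
      have hu : u = u default • (fun _ => (1 : F)) := funext fun q => by
        simp [Subsingleton.elim q default]
      rw [hu]
      simp [Subsingleton.elim p default]
    refine scalar_of_comm hf B fun l b hb => ?_
    obtain ⟨g, hg, hgx⟩ := exists_slot_transvection hf l 1 b
    obtain ⟨m, hm⟩ := hlin _ (hTconj B hB _ (slotElem_isom l hg))
    have hgi : ∀ x, (slotElem l g).symm (x + nW f l b x) = x := fun x => by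
      rw [LinearEquiv.symm_apply_eq, hgx, one_smul]
    have key : ∀ x, B x + nW f l b (B x) = m • B x + m • B (nW f l b x) := fun x => by
      have := LinearMap.congr_fun hm (x + nW f l b x)
      simp only [LinearMap.comp_apply, LinearEquiv.coe_coe, LinearMap.smul_apply,
        show (kronE _).symm (x + nW f l b x) = x from hgi x] at this
      rw [show kronE _ (B x) = _ from hgx (B x), one_smul, map_add, smul_add] at this
      exact this
    have hnn : ∀ x, nW f l b (nW f l b x) = 0 := fun x => by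
      rw [nW_apply l b x, nW_pure, hf.alt, zero_smul]
    suffices hm1 : m = 1 by
      refine LinearMap.ext fun x => ?_
      have := key x
      rw [hm1, one_smul, one_smul, add_left_cancel_iff] at this
      exact this.symm
    by_contra hm1
    have h1 : ∀ x, nW f l b (B (nW f l b x)) = (m - 1) • B (nW f l b x) := fun x => by
      have := key (nW f l b x)
      rw [hnn, map_zero, smul_zero, add_zero] at this
      rw [sub_smul, one_smul, ← this, add_sub_cancel_left]
    have h3 : ∀ x, B (nW f l b x) = 0 := fun x => by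
      have := congrArg (nW f l b) (h1 x)
      rw [hnn, map_smul, h1, smul_smul, eq_comm] at this
      exact (smul_eq_zero.1 this).resolve_left (mul_self_ne_zero.2 (sub_ne_zero.2 hm1))
    obtain ⟨y, hy⟩ := hf.exists_one hb
    have : Nonempty (Fin k) := ⟨⟨0, by have := hS.four; omega⟩⟩
    obtain ⟨x, hx⟩ := exists_ne (0 : TV F k s')
    have h4 := hBinj _ (h3 ((slot l).symm (pure x y)))
    rw [nW_pure, hf.skew b y, hy, neg_smul, one_smul, neg_eq_zero, LinearEquiv.map_eq_zero_iff,
      pure_eq_zero_iff hb] at h4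
    exact hx h4
  have hd0 : d = 0 := by
    have h := sk B hB a c hac hind ha
    have : Nonempty (Fin k) := ⟨⟨0, by have := hS.four; omega⟩⟩
    obtain ⟨x, hx⟩ := exists_ne (0 : TV F k s)
    obtain ⟨y, hy⟩ : ∃ y, tform f s x y ≠ 0 := by
      by_contra! h'
      exact hx ((tform_nd hf s).1 x h')
    have h' := h ((slot i).symm (pure x d₁)) ((slot i).symm (pure y d₂))
    simp only [pairOp, hd, LinearMap.neg_apply, LinearMap.sub_apply, op_pure, LinearMap.smul_apply,
      LinearMap.id_apply, hd₁c, hd₁a, hd₂c, hd₂a, zero_smul, one_smul, zero_sub, sub_zero, neg_neg,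
      ← tform_slot i, map_smul, map_neg, LinearEquiv.apply_symm_apply, sphi_pure_pure, hcd₂,
      smul_eq_mul] at h'
    have h'' : (2 : F) * (d * tform f s x y) = 0 := by
      linear_combination -h'
    exact ((mul_eq_zero.1 ((mul_eq_zero.1 h'').resolve_left h2)).resolve_right hy)
  exact absurd (hne) (by rw [hd, hd0]; simp)

/-- The space consists of scalars. -/
theorem scalar {φ : TV F k (s + 1) →ₗ[F] TV F k (s + 1)} (hφ : φ ∈ S) :
    ∃ d : F, φ = d • LinearMap.id := by
  have hf := hS.symp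
  refine scalar_of_orth hf φ fun i => ?_
  suffices h : ∀ a c, f a c = 0 → c ∉ Submodule.span F ({a} : Set (Fin k → F)) → a ≠ 0 →
      part f i φ a c = 0 by
    intro a c hac u
    rcases eq_or_ne a 0 with rfl | ha
    · simp
    by_cases hc : c ∈ Submodule.span F ({a} : Set (Fin k → F))
    · obtain ⟨r, rfl⟩ := Submodule.mem_span_singleton.1 hc
      obtain ⟨x, hx, hxa⟩ := exists_perp_not_mem (f := f) ![a] (Submodule.span F {a})
        (by rw [finrank_span_singleton ha]; have := hS.four; omega)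
      have hax : f a x = 0 := orth_comm hf (hx 0)
      have h2 : part f i φ a (x + a) = 0 := h a (x + a) (by simp [hax, hf.alt])
        (fun hm => hxa ((Submodule.add_mem_iff_left _ (Submodule.mem_span_singleton_self a)).1 hm)) ha
      have e1 := LinearMap.congr_fun h2 (r • u)
      have e2 := LinearMap.congr_fun (h a x hax hxa ha) (r • u)
      simp only [part, LinearMap.comp_apply, LinearEquiv.coe_coe, pureL_apply, LinearMap.zero_apply,
        pure_add_r, map_add] at e1 e2
      rw [e2, zero_add, pure_smul_l, ← pure_smul_r] at e1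
      exact e1
    · exact LinearMap.congr_fun (h a c hac hc ha) u
  intro a c hac hind ha
  set A := part f i φ a c
  set A' := part f i φ c a
  have hm := hS.mixed_mem hφ i hac
  obtain ⟨g, hg, hga, hgc⟩ := exists_isom_shift hf hac hind
  have h1 := S.sub_mem (hS.conj _ hm _ (slotElem_isom i hg)) hm
  rw [show kronE _ = slotElem i g from rfl, LinearMap.add_comp, LinearMap.comp_add,
    slotElem_conj_op i hg, slotElem_conj_op i hg, hga, hgc] at h1
  have h2 : op f i A a (c + a) + op f i A' (c + a) a - (op f i A a c + op f i A' c a)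
      = op f i (A + A') a a := by
    refine ext_slot i fun u z => ?_
    simp only [LinearMap.sub_apply, LinearMap.add_apply, op_pure, pure_add_r, pure_add_l, map_add,
      smul_add]
    module
  rw [h2] at h1
  have hneg : A' = -A := by
    rw [eq_neg_iff_add_eq_zero, add_comm]; exact hS.op_self_eq_zero i ha h1
  refine hS.pairOp_eq_zero i ha hac hind ?_
  convert hm using 1
  rw [show part f i φ c a = A' from rfl, hneg, show part f i φ a c = A from rfl]
  refine ext_slot i fun u z => ?_
  simp only [pairOp, LinearMap.sub_apply, LinearMap.add_apply, op_pure, LinearMap.neg_apply,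
    pure_neg_l, map_neg, smul_neg, sub_eq_add_neg]

end Sys

end CfsgLib.OPlusWreath94
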