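import Cfsg.Agent.OPlusWreath94.NonScalarSpread
import Cfsg.Agent.OrthGeo.RootLines

/-!
A long root element attached to two pure tensors gives all root elements at pure tensors, hence `Ω`.
-/

set_option autoImplicit false
set_option linter.unusedSectionVars false

namespace CfsgLib.OPlusWreath94

open Matrix Module Function
open CfsgLib.Aschbacher (kroneckerPow)
open CfsgLib.SympWreath17 (IsSymp Isom exists_isom_map tform tform_pv)
open CfsgLib.WreathTensor14 (TV pv pv_single kronE kronE_pv permE permE_pv toE toE_apply toE_injective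
  kroneckerPow_mulVec_pv linearMap_ext_pv)
open CfsgLib.OrthGeo (EIn bform bform_apply eichlerMat eichlerMat_mulVec q_smul omega_le_of_root_vectors
  b_symm)
open Cfsg.Geo (IsNondegenerateQuadraticForm)

variable {F : Type*} [Field F] {k t : ℕ} {f : LinearMap.BilinForm F (Fin k → F)}

lemma pv_update_add (x : Fin t → Fin k → F) (i : Fin t) (u v : Fin k → F) :
    pv (update x i (u + v)) = pv (update x i u) + pv (update x i v) := by
  funext p
  simp only [pv, Pi.add_apply]
  rw [← Finset.mul_prod_erase _ _ (Finset.mem_univ i), ← Finset.mul_prod_erase _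
    (fun l => update x i u l (p l)) (Finset.mem_univ i), ← Finset.mul_prod_erase _
    (fun l => update x i v l (p l)) (Finset.mem_univ i)]
  simp only [update_self, Pi.add_apply, add_mul]
  congr 1 <;> congr 1 <;>
  · refine Finset.prod_congr rfl fun l hl => ?_
    rw [update_of_ne (Finset.ne_of_mem_erase hl), update_of_ne (Finset.ne_of_mem_erase hl)]

lemma pv_update_smul (x : Fin t → Fin k → F) (i : Fin t) (c : F) (u : Fin k → F) :
    pv (update x i (c • u)) = c • pv (update x i u) := by
  funext p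
  simp only [pv, Pi.smul_apply, smul_eq_mul]
  rw [← Finset.mul_prod_erase _ _ (Finset.mem_univ i), ← Finset.mul_prod_erase _
    (fun l => update x i u l (p l)) (Finset.mem_univ i)]
  simp only [update_self, Pi.smul_apply, smul_eq_mul, ← mul_assoc]
  congr 1
  refine Finset.prod_congr rfl fun l hl => ?_
  rw [update_of_ne (Finset.ne_of_mem_erase hl), update_of_ne (Finset.ne_of_mem_erase hl)]

lemma pv_zero_slot (x : Fin t → Fin k → F) (i : Fin t) (h : x i = 0) : pv x = 0 := by
  funext p
  exact Finset.prod_eq_zero (Finset.mem_univ i) (by rw [h]; rfl)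

lemma pv_smul_all (c : Fin t → F) (x : Fin t → Fin k → F) :
    pv (fun i => c i • x i) = (∏ i, c i) • pv x := by
  funext p
  simp [pv, Finset.prod_mul_distrib]

lemma toE_surjective {α : Type} [Fintype α] [DecidableEq α] :
    Function.Surjective (toE (F := F) (α := α)) :=
  fun e => ⟨Matrix.GeneralLinearGroup.toLin.symm
    ((LinearMap.GeneralLinearGroup.generalLinearEquiv F _).symm e), by simp [toE]⟩

lemma exists_common_ne (hf : IsSymp f) {a b : Fin k → F} (ha : a ≠ 0) (hb : b ≠ 0) :
    ∃ z, f a z ≠ 0 ∧ f b z ≠ 0 := by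
  obtain ⟨z₁, h₁⟩ := hf.exists_one ha
  obtain ⟨z₂, h₂⟩ := hf.exists_one hb
  by_cases e1 : f b z₁ = 0
  · by_cases e2 : f a z₂ = 0
    · exact ⟨z₁ + z₂, by simp [h₁, e2], by simp [e1, h₂]⟩
    · exact ⟨z₂, e2, by simp [h₂]⟩
  · exact ⟨z₁, by simp [h₁], e1⟩

lemma exists_orth_two (hk : 3 ≤ k) (a b : Fin k → F) : ∃ v, f a v = 0 ∧ f b v = 0 ∧ v ≠ 0 := by
  let L : (Fin k → F) →ₗ[F] F × F := (f a).prod (f b)
  have h1 := L.finrank_range_add_finrank_ker
  have h2 := Submodule.finrank_le (LinearMap.range L)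
  rw [finrank_prod, finrank_self] at h2
  rw [finrank_pi, Fintype.card_fin] at h1
  obtain ⟨v, hv, hv0⟩ := Submodule.exists_mem_ne_zero_of_ne_bot (p := LinearMap.ker L) (fun h0 => by
    rw [h0, finrank_bot] at h1; omega)
  simp only [LinearMap.mem_ker, L, LinearMap.prod_apply, Function.prod, Prod.mk_eq_zero] at hv
  exact ⟨v, hv.1, hv.2, hv0⟩

variable {Q : TV F k t → F}

/-- The members of a group of linear maps, as matrices. -/
abbrev matGroup (M : Subgroup (TV F k t ≃ₗ[F] TV F k t)) : Subgroup (GL (Fin t → Fin k) F) :=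
  M.comap toE

/-- Root elements at two pure tensors whose factors are equal off `D` and hyperbolic on `D`. -/
def PatIn (f : LinearMap.BilinForm F (Fin k → F)) (Q : TV F k t → F)
    (H : Subgroup (GL (Fin t → Fin k) F)) (D : Finset (Fin t)) : Prop :=
  ∀ u v : Fin t → Fin k → F, (∀ i ∉ D, u i = v i) → (∀ i ∈ D, f (u i) (v i) ≠ 0) →
    (∀ i, u i ≠ 0) → ∀ c : F, EIn Q H (pv u) (c • pv v)

variable {M : Subgroup (TV F k t ≃ₗ[F] TV F k t)} (hM : OBase f Q M)
  (hQ : IsNondegenerateQuadraticForm Q)
include hM hQ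

lemma bform_eq (x y : TV F k t) : bform hQ x y = tform f t x y := by
  rw [bform_apply, QuadraticMap.polar, hM.q_add]
  ring

lemma matGroup_le : matGroup M ≤ Cfsg.isometryGroup F Q := fun g hg =>
  OrthGeo.mem_isometryGroup.2 fun v => by
    have := hM.iso _ hg v
    rwa [toE_apply] at this

lemma kron_fix {gs : Fin t → GL (Fin k) F} (hgs : ∀ i, Isom f (gs i)) :
    ∃ g ∈ matGroup M, ∀ x, (g : Matrix (Fin t → Fin k) (Fin t → Fin k) F) *ᵥ pv x =
      pv fun i => (gs i).val *ᵥ x i := by
  obtain ⟨g, hg⟩ := toE_surjective (kronE gs)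
  refine ⟨g, Subgroup.mem_comap.2 (by rw [hg]; exact hM.kron_mem gs hgs), fun x => ?_⟩
  rw [← toE_apply, hg, kronE_pv]

/-- The root element from the product pattern. -/
lemma patIn_of_rootPat {D : Finset (Fin t)} {u v : Fin t → Fin k → F} (h : RootPat f M D u v) :
    PatIn f Q (matGroup M) D := by
  classical
  obtain ⟨-, ⟨o, ho⟩, heq, hne, h0, hK⟩ := h
  have hQu : Q (pv u) = 0 := hM.q_pure u
  have horth : ∀ a b : Fin t → Fin k → F, a o = b o → bform hQ (pv a) (pv b) = 0 := fun a b hab => by
    rw [bform_eq hM hQ, tform_pv]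
    exact Finset.prod_eq_zero (Finset.mem_univ o) (by rw [hab, hM.symp.alt])
  have base : ∀ c : F, EIn Q (matGroup M) (pv u) (c • pv v) := by
    intro c
    obtain ⟨e, he, hev⟩ := hK c
    obtain ⟨g, rfl⟩ := toE_surjective e
    refine ⟨g, he, Matrix.ext_of_mulVec_single fun p => ?_⟩
    generalize (Pi.single p 1 : TV F k t) = z
    have hrk : ∀ a b : Fin t → Fin k → F,
        kroneckerPow (fun i => rone f (a i) (b i)) *ᵥ z = tform f t z (pv b) • pv a := fun a b => by
      have := LinearMap.congr_fun (f := (kroneckerPow fun i => rone f (a i) (b i)).mulVecLin)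
        (g := (LinearMap.toSpanSingleton F _ (pv a)).comp ((tform f t).flip (pv b)))
        (linearMap_ext_pv fun x => by
          simp only [mulVecLin_apply, kroneckerPow_mulVec_pv, LinearMap.comp_apply,
            LinearMap.flip_apply, LinearMap.BilinForm.flip_apply, LinearMap.toSpanSingleton_apply, rone_mulVec,
            pv_smul_all]
          rw [tform_pv]) z
      simpa using this
    have := hev z
    rw [toE_apply, mulVecLin_apply, smul_mulVec, sub_mulVec, hrk, hrk] at this
    rw [this, eichlerMat_mulVec hQ, q_smul hQ, hM.q_pure, b_symm hQ (pv u) z, b_symm hQ (c • pv v) z,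
      bform_eq hM hQ, bform_eq hM hQ, map_smul, smul_eq_mul]
    module
  intro u' v' heq' hne' h0' c
  let lam : Fin t → F := fun i => if i ∈ D then f (u' i) (v' i) / f (u i) (v i) else 1
  have hr : ∀ i, ∃ r : GL (Fin k) F, Isom f r ∧ r.val *ᵥ u i = u' i ∧ lam i • (r.val *ᵥ v i) = v' i := by
    intro i
    by_cases hi : i ∈ D
    · have hl : lam i ≠ 0 := by simp only [lam, if_pos hi]; exact div_ne_zero (hne' i hi) (hne i hi)
      obtain ⟨r, hr, hru, hrv⟩ := exists_isom_pair hM.symp (b := v i) (b' := (lam i)⁻¹ • v' i) (h0 i).1 (h0' i)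
        (by
          have := hne i hi; have := hne' i hi
          simp only [lam, if_pos hi, map_smul, smul_eq_mul]
          field_simp)
        (Or.inl (hne i hi))
      exact ⟨r, hr, hru, by rw [hrv, smul_inv_smul₀ hl]⟩
    · obtain ⟨r, hr, hru⟩ := exists_isom_map hM.symp (h0 i).1 (h0' i)
      exact ⟨r, hr, hru, by simp only [lam, if_neg hi, one_smul]; rw [← heq i hi, hru, heq' i hi]⟩
  choose r hr hru hrv using hr
  obtain ⟨g, hg, hgp⟩ := kron_fix hM hQ hr
  have h1 := (base (c * ∏ i, lam i)).conj hQ hQu (by rw [map_smul, horth u v (heq o ho), smul_zero]) hg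
    (matGroup_le hM hQ hg)
  rw [hgp, show (fun i => (r i).val *ᵥ u i) = u' from funext hru, mulVec_smul, hgp, mul_smul,
    ← pv_smul_all, funext hrv] at h1
  exact h1

/-- Patterns move with even permutations. -/
lemma PatIn.perm {D : Finset (Fin t)} (hD : ∃ o, o ∉ D) (h : PatIn f Q (matGroup M) D)
    {σ : Equiv.Perm (Fin t)} (hσ : σ ∈ alternatingGroup (Fin t)) :
    PatIn f Q (matGroup M) (D.map σ.toEmbedding) := by
  intro u v heq hne h0 c
  obtain ⟨g, hg⟩ := toE_surjective (permE (F := F) (m := k) σ)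
  have hgM : g ∈ matGroup M := Subgroup.mem_comap.2 (by rw [hg]; exact perm_even hM hσ)
  have hm : ∀ i, σ i ∈ D.map σ.toEmbedding ↔ i ∈ D := fun i => by simp
  obtain ⟨o, ho⟩ := hD
  have h1 := (h (fun i => u (σ i)) (fun i => v (σ i)) (fun i hi => heq _ (mt (hm i).1 hi))
    (fun i hi => hne _ ((hm i).2 hi)) (fun i => h0 _) c).conj hQ (hM.q_pure _)
    (by
      rw [map_smul, bform_eq hM hQ, tform_pv, Finset.prod_eq_zero (Finset.mem_univ o), smul_zero]
      rw [heq (σ o) (mt (hm o).1 ho), hM.symp.alt])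
    hgM (matGroup_le hM hQ hgM)
  rw [← toE_apply, ← toE_apply, hg, map_smul, permE_pv, permE_pv] at h1
  simpa using h1

variable [Finite F] (w : Fin k → F)

/-- The vectors whose root elements at the pure power of `w` lie in the group. -/
def rootSpace : Submodule F (TV F k t) where
  carrier := {W | bform hQ (pv fun _ => w) W = 0 ∧ ∀ c : F, EIn Q (matGroup M) (pv fun _ => w) (c • W)}
  zero_mem' := ⟨map_zero _, fun c => ⟨1, Subgroup.one_mem _, Matrix.ext_of_mulVec_single fun p => by
    rw [eichlerMat_mulVec hQ, smul_zero, Units.val_one, one_mulVec]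
    simp [OrthGeo.q_zero hQ]⟩⟩
  add_mem' := by
    rintro a b ⟨ha, ha'⟩ ⟨hb, hb'⟩
    refine ⟨by rw [map_add, ha, hb, add_zero], fun c => ?_⟩
    rw [smul_add]
    exact (ha' c).add hQ (hb' c) (hM.q_pure _) (by rw [map_smul, ha, smul_zero])
      (by rw [map_smul, hb, smul_zero])
  smul_mem' := by
    rintro d a ⟨ha, ha'⟩
    refine ⟨by rw [map_smul, ha, smul_zero], fun c => ?_⟩
    rw [smul_smul]
    exact ha' _

variable {w}

/-- Displacement by a root element fixing the pure power of `w`. -/
lemma step {D : Finset (Fin t)} (hP : PatIn f Q (matGroup M) D) {x y z : Fin t → Fin k → F}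
    (hx : pv x ∈ rootSpace hM hQ w) (h0 : ∀ p, y p ≠ 0)
    (hout : ∀ p ∉ D, z p = y p ∧ f (x p) (y p) ≠ 0)
    {d : Fin t} (hd : d ∈ D) (hxy : f (x d) (y d) = 0)
    (hin : ∀ p ∈ D, f (y p) (z p) ≠ 0 ∧ f (x p) (z p) ≠ 0)
    {o : Fin t} (ho : o ∉ D) {m : Fin t} (hm : f w (y m) = 0) (hm' : f w (z m) = 0) :
    pv y ∈ rootSpace hM hQ w := by
  set U : TV F k t := pv fun _ => w
  have hUY : bform hQ U (pv y) = 0 := by
    rw [bform_eq hM hQ, tform_pv]; exact Finset.prod_eq_zero (Finset.mem_univ m) hm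
  have hUZ : bform hQ U (pv z) = 0 := by
    rw [bform_eq hM hQ, tform_pv]; exact Finset.prod_eq_zero (Finset.mem_univ m) hm'
  have hYX : bform hQ (pv y) (pv x) = 0 := by
    rw [b_symm hQ, bform_eq hM hQ, tform_pv]; exact Finset.prod_eq_zero (Finset.mem_univ d) hxy
  have hYZ : bform hQ (pv y) (pv z) = 0 := by
    rw [bform_eq hM hQ, tform_pv]
    exact Finset.prod_eq_zero (Finset.mem_univ o) (by rw [(hout o ho).1, hM.symp.alt])
  have hXZ : bform hQ (pv z) (pv x) ≠ 0 := by
    rw [b_symm hQ, bform_eq hM hQ, tform_pv]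
    refine Finset.prod_ne_zero_iff.2 fun p _ => ?_
    by_cases hp : p ∈ D
    · exact (hin p hp).2
    · rw [(hout p hp).1]; exact (hout p hp).2
  refine ⟨hUY, fun a => ?_⟩
  obtain ⟨g, hg, hgv⟩ := hP y z (fun p hp => ((hout p hp).1).symm) (fun p hp => (hin p hp).1) h0
    (a / bform hQ (pv z) (pv x))
  have hfix : (g : Matrix (Fin t → Fin k) (Fin t → Fin k) F) *ᵥ U = U := by
    rw [hgv, eichlerMat_mulVec hQ, q_smul hQ, hM.q_pure, map_smul, LinearMap.smul_apply,
      b_symm hQ (pv z) U, hUZ, b_symm hQ (pv y) U, hUY]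
    simp
  have h1 := (hx.2 1).displacement hQ (hM.q_pure _) (by rw [map_smul, hx.1, smul_zero]) hg
    (matGroup_le hM hQ hg) hfix
  rw [one_smul, hgv, eichlerMat_mulVec hQ, q_smul hQ, hM.q_pure, hYX, map_smul, LinearMap.smul_apply,
    smul_eq_mul, div_mul_cancel₀ a hXZ] at h1
  simpa using h1

/-- Vectors off hyperplanes suffice in each factor. -/
lemma extend (S : Finset (Fin t)) {a : Fin t → Fin k → F} (ha : ∀ p ∈ S, a p ≠ 0)
    {x : Fin t → Fin k → F}
    (h : ∀ x', (∀ p ∉ S, x' p = x p) → (∀ p ∈ S, f (a p) (x' p) ≠ 0) →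
      pv x' ∈ rootSpace hM hQ w) : pv x ∈ rootSpace hM hQ w := by
  suffices ∀ T ⊆ S, ∀ x', (∀ p ∉ S, x' p = x p) → (∀ p ∈ S, p ∉ T → f (a p) (x' p) ≠ 0) →
      pv x' ∈ rootSpace hM hQ w from
    this S subset_rfl x (fun p _ => rfl) fun p hp hp' => absurd hp hp'
  intro T
  induction T using Finset.induction_on with
  | empty => exact fun _ x' e h' => h x' e fun p hp => h' p hp (Finset.notMem_empty p)
  | @insert j T hj ih =>
    intro hTS x' e h'
    have hjS : j ∈ S := hTS (Finset.mem_insert_self j T)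
    have hTS' : T ⊆ S := (Finset.subset_insert j T).trans hTS
    have hgood : ∀ v, f (a j) v ≠ 0 → pv (update x' j v) ∈ rootSpace hM hQ w := fun v hv =>
      ih hTS' _ (fun p hp => by rw [update_of_ne (fun (e' : p = j) => hp (e' ▸ hjS)), e p hp])
        fun p hp hpT => by
          rcases eq_or_ne p j with rfl | hne
          · simpa using hv
          · simpa [hne] using h' p hp (by simp [hne, hpT])
    rcases eq_or_ne (f (a j) (x' j)) 0 with h0 | h0
    swap
    · simpa using hgood _ h0
    obtain ⟨z, hz⟩ := hM.symp.exists_one (ha j hjS)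
    have e1 : pv x' = pv (update x' j (x' j + z)) + (-1 : F) • pv (update x' j z) := by
      rw [pv_update_add, update_eq_self]; module
    rw [e1]
    exact add_mem (hgood _ (by simp [h0, hz])) (Submodule.smul_mem _ _ (hgood _ (by simp [hz])))

/-- The initial vectors. -/
lemma start {D : Finset (Fin t)} (hP : PatIn f Q (matGroup M) D) {o : Fin t} (ho : o ∉ D) (hw : w ≠ 0)
    {x : Fin t → Fin k → F} (hx : ∀ p ∉ D, x p = w) : pv x ∈ rootSpace hM hQ w := by
  refine extend hM hQ D (a := fun _ => w) (fun _ _ => hw) fun x' e h' => ⟨?_, ?_⟩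
  · rw [bform_eq hM hQ, tform_pv]
    exact Finset.prod_eq_zero (Finset.mem_univ o) (by rw [e o ho, hx o ho, hM.symp.alt])
  · exact hP _ _ (fun p hp => by rw [e p hp, hx p hp]) h' (fun _ => hw)

/-- Everything orthogonal in a factor, `k ≥ 4`. -/
lemma slot_orth_four (hk : 4 ≤ k) {D : Finset (Fin t)} (hP : PatIn f Q (matGroup M) D)
    (hD : D.Nonempty) {o : Fin t} (ho : o ∉ D) (hw : w ≠ 0) {y : Fin t → Fin k → F} {m : Fin t}
    (hm : f w (y m) = 0) : pv y ∈ rootSpace hM hQ w := by
  classical
  have hf := hM.symp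
  have first : ∀ d ∈ D, ∀ y : Fin t → Fin k → F, f w (y d) = 0 →
      y d ∉ Submodule.span F ({w} : Set (Fin k → F)) → pv y ∈ rootSpace hM hQ w := by
    intro d hd y hyd hyw
    refine extend hM hQ Dᶜ (a := fun _ => w) (fun _ _ => hw) fun y' e h' => ?_
    by_cases h0 : ∃ p, y' p = 0
    · obtain ⟨p, hp⟩ := h0
      rw [pv_zero_slot _ p hp]
      exact zero_mem _
    push Not at h0
    have hy'd : y' d = y d := e d (by simpa using hd)
    obtain ⟨zd, hzd, hzd'⟩ := exists_orth_pair_ne hf hw hyw
    choose q hq using fun p => hf.exists_one (h0 p)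
    let x : Fin t → Fin k → F := fun p => if p = d then y' d else if p ∈ D then q p else w
    let z : Fin t → Fin k → F := fun p => if p = d then zd else if p ∈ D then y' p + q p else y' p
    refine step hM hQ hP (x := x) (z := z) (d := d) (o := o) (m := d)
      (start hM hQ hP ho hw fun p hp => by
        simp [x, hp, show p ≠ d from fun e => hp (e ▸ hd)])
      h0 (fun p hp => ?_) hd (by simp [x, hf.alt]) (fun p hp => ?_) ho (by rw [hy'd, hyd]) (by simp [z, hzd])
    · have hpd : p ≠ d := fun e => hp (e ▸ hd)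
      simp only [x, z, if_neg hpd, if_neg hp, true_and]
      exact h' p (by simpa using hp)
    · rcases eq_or_ne p d with rfl | hpd
      · simp [x, z, hy'd, hzd']
      · simp only [x, z, if_neg hpd, if_pos hp, map_add, hf.alt, hq p, add_zero, zero_add]
        exact ⟨one_ne_zero, by rw [hf.skew, hq p]; simp⟩
  have second : ∀ d ∈ D, ∀ y : Fin t → Fin k → F, f w (y d) = 0 → pv y ∈ rootSpace hM hQ w := by
    intro d hd y hyd
    by_cases h : y d ∈ Submodule.span F ({w} : Set (Fin k → F))
    swap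
    · exact first d hd y hyd h
    obtain ⟨b, hb, hb'⟩ := exists_orth_off (f := f) (by omega) w
    have e1 : pv y = pv (update y d (y d + b)) + (-1 : F) • pv (update y d b) := by
      rw [pv_update_add, update_eq_self]; module
    rw [e1]
    refine add_mem (first d hd _ (by simp [hyd, hb]) ?_)
      (Submodule.smul_mem _ _ (first d hd _ (by simp [hb]) (by simpa using hb')))
    rw [update_self]
    exact fun h' => hb' (by simpa using Submodule.sub_mem _ h' h)
  by_cases hmD : m ∈ D
  · exact second m hmD y hm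
  obtain ⟨d, hd⟩ := hD
  by_cases h0 : ∃ p, y p = 0
  · obtain ⟨p, hp⟩ := h0
    rw [pv_zero_slot _ p hp]
    exact zero_mem _
  push Not at h0
  choose q hq using fun p => hf.exists_one (h0 p)
  obtain ⟨xd, hxw, hxy, hx0⟩ := exists_orth_two (f := f) (by omega) w (y d)
  obtain ⟨zd, hzy, hzx⟩ := exists_common_ne hf (h0 d) hx0
  let x : Fin t → Fin k → F := fun p => if p = d then xd else q p
  let z : Fin t → Fin k → F := fun p => if p = d then zd else if p ∈ D then y p + q p else y p
  refine step hM hQ hP (x := x) (z := z) (d := d) (o := o) (m := m) (second d hd x (by simp [x, hxw]))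
    h0 (fun p hp => ?_) hd (by simp [x, hf.skew (y d) xd, hxy]) (fun p hp => ?_) ho hm ?_
  · have hpd : p ≠ d := fun e => hp (e ▸ hd)
    simp only [x, z, if_neg hpd, if_neg hp, true_and]
    rw [hf.skew, hq p]
    simp
  · rcases eq_or_ne p d with rfl | hpd
    · simp [x, z, hzy, hzx]
    · simp only [x, z, if_neg hpd, if_pos hp, map_add, hf.alt, hq p, add_zero, zero_add]
      exact ⟨one_ne_zero, by rw [hf.skew, hq p]; simp⟩
  · simp [z, hmD, show m ≠ d from fun e => hmD (e ▸ hd), hm]

/-- Everything orthogonal in a factor, `k = 2`. -/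
lemma slot_orth_two (hk : k = 2) (ht : 4 ≤ t) (hP : ∀ d : Fin t, PatIn f Q (matGroup M) {d}) (hw : w ≠ 0)
    {y : Fin t → Fin k → F} {m : Fin t} (hm : f w (y m) = 0) : pv y ∈ rootSpace hM hQ w := by
  classical
  have hf := hM.symp
  obtain ⟨z₀, hz₀⟩ := hf.exists_one hw
  have pair : ∀ m d : Fin t, m ≠ d → ∀ x : Fin t → Fin k → F, x m = w → x d = w →
      pv x ∈ rootSpace hM hQ w := by
    intro m d hmd x hxm hxd
    refine extend hM hQ ({m, d} : Finset (Fin t))ᶜ (a := fun _ => w) (fun _ _ => hw) fun y' e h' => ?_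
    have em : y' m = w := by rw [e m (by simp), hxm]
    have ed : y' d = w := by rw [e d (by simp), hxd]
    have h0 : ∀ p, y' p ≠ 0 := fun p hp => by
      by_cases hp' : p = m ∨ p = d
      · rcases hp' with rfl | rfl
        · exact hw (em.symm.trans hp)
        · exact hw (ed.symm.trans hp)
      · exact h' p (by simpa using hp') (by rw [hp, map_zero])
    refine step hM hQ (hP d) (x := update (fun _ => w) m z₀) (z := update y' d z₀) (d := d) (o := m)
      (m := m)
      (start hM hQ (hP m) (o := d) (by simpa using hmd.symm) hw fun p hp => by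
        rw [update_of_ne (by simpa using hp)])
      h0 (fun p hp => ?_) (Finset.mem_singleton_self d) (by simp [hmd.symm, ed, hf.alt]) (fun p hp => ?_)
      (by simpa using hmd) (by rw [em, hf.alt]) (by rw [update_of_ne hmd, em, hf.alt])
    · have hpd : p ≠ d := by simpa using hp
      refine ⟨update_of_ne hpd _ _, ?_⟩
      rcases eq_or_ne p m with rfl | hpm
      · simp [em, hf.skew w z₀, hz₀]
      · simpa [hpm] using h' p (by simp [hpm, hpd])
    · rw [Finset.mem_singleton.1 hp]
      simp [hmd.symm, ed, hz₀]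
  obtain ⟨a, b, c, ha, hb, hc, hab, hac, hbc⟩ : ∃ a b c : Fin t,
      a ≠ m ∧ b ≠ m ∧ c ≠ m ∧ a ≠ b ∧ a ≠ c ∧ b ≠ c := by
    obtain ⟨a, ha, b, hb, hab⟩ := Finset.one_lt_card.1
      (show 1 < (({m} : Finset (Fin t))ᶜ).card by
        rw [Finset.card_compl, Fintype.card_fin, Finset.card_singleton]; omega)
    obtain ⟨c, hc⟩ := Finset.card_pos.1
      (show 0 < (({m, a, b} : Finset (Fin t))ᶜ).card by
        rw [Finset.card_compl, Fintype.card_fin]
        have := Finset.card_le_three (a := m) (b := a) (c := b)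
        omega)
    simp only [Finset.mem_compl, Finset.mem_insert, Finset.mem_singleton, not_or] at ha hb hc
    exact ⟨a, b, c, ha, hb, hc.1, hab, Ne.symm hc.2.1, Ne.symm hc.2.2⟩
  refine extend hM hQ ({a, b} : Finset (Fin t)) (a := fun _ => w) (fun _ _ => hw) fun y' e h' => ?_
  by_cases h0 : ∃ p, y' p = 0
  · obtain ⟨p, hp⟩ := h0
    rw [pv_zero_slot _ p hp]
    exact zero_mem _
  push Not at h0
  choose q hq using fun p => hf.exists_one (h0 p)
  have em : y' m = y m := e m (by simp [ha.symm, hb.symm])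
  let x : Fin t → Fin k → F := fun p => if p = a ∨ p = b then w else if p = c then y' c else q p
  let z : Fin t → Fin k → F := update y' c (q c)
  refine step hM hQ (hP c) (x := x) (z := z) (d := c) (o := m) (m := m)
    (pair a b hab x (by simp [x]) (by simp [x])) h0 (fun p hp => ?_) (Finset.mem_singleton_self c)
    (by simp [x, hac.symm, hbc.symm, hf.alt]) (fun p hp => ?_) (by simpa using hc.symm)
    (by rw [em, hm]) (by simp [z, hc.symm, em, hm])
  · have hpc : p ≠ c := by simpa using hp
    refine ⟨update_of_ne hpc _ _, ?_⟩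
    by_cases hp' : p = a ∨ p = b
    · simp only [x, if_pos hp']
      exact h' p (by simpa using hp')
    · simp only [x, if_neg hp', if_neg hpc]
      rw [hf.skew, hq p]
      simp
  · rw [Finset.mem_singleton.1 hp]
    simp [x, z, hac.symm, hbc.symm, hq c]

/-- The pure tensors orthogonal in a factor span the orthogonal of the pure power. -/
lemma mem_rootSpace (hw : w ≠ 0)
    (h : ∀ (x : Fin t → Fin k → F) (m : Fin t), f w (x m) = 0 → pv x ∈ rootSpace hM hQ w)
    {W : TV F k t} (hW : bform hQ (pv fun _ => w) W = 0) : W ∈ rootSpace hM hQ w := by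
  classical
  obtain ⟨z, hz⟩ := hM.symp.exists_one hw
  have key : ∀ (x : Fin t → Fin k → F) (J : Finset (Fin t)),
      pv x - (∏ i ∈ J, f w (x i)) • pv (J.piecewise (fun _ => z) x) ∈ rootSpace hM hQ w := by
    intro x J
    induction J using Finset.induction_on with
    | empty => simp
    | @insert j J hj ih =>
      rw [Finset.piecewise_insert, Finset.prod_insert hj, mul_comm]
      set y := J.piecewise (fun _ => z) x with hy
      have hyj : y j = x j := Finset.piecewise_eq_of_notMem _ _ _ hj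
      have h1 := h (update y j (x j + (-f w (x j)) • z)) j (by simp [hz])
      rw [pv_update_add, pv_update_smul, ← hyj, update_eq_self, hyj] at h1
      convert add_mem ih ((rootSpace hM hQ w).smul_mem (∏ i ∈ J, f w (x i)) h1) using 1
      module
  set U : TV F k t := pv fun _ => w
  let π : TV F k t →ₗ[F] TV F k t :=
    LinearMap.id - (LinearMap.toSpanSingleton F _ (pv fun _ : Fin t => z)).comp (bform hQ U)
  have hπ : ∀ p, π (Pi.single p 1) ∈ rootSpace hM hQ w := fun p => by
    have := key (fun i => Pi.single (p i) 1) Finset.univ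
    rw [Finset.piecewise_univ, ← tform_pv (fun _ => w) (fun i => Pi.single (p i) (1 : F)),
      ← bform_eq hM hQ, pv_single] at this
    simpa [π] using this
  have h2 : π W ∈ rootSpace hM hQ w := by
    rw [pi_eq_sum_univ' W, map_sum]
    refine Submodule.sum_mem _ fun p _ => ?_
    rw [map_smul]
    exact Submodule.smul_mem _ _ (hπ p)
  simpa [π, hW] using h2

/-- A long root element at two pure tensors gives `Ω`. -/
theorem omega_le_of_rootPat {D : Finset (Fin t)} {u v : Fin t → Fin k → F}
    (h : RootPat f M D u v) (ht : 2 ≤ t) (htwo : k = 2 → 4 ≤ t) (hn : 5 ≤ k ^ t)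
    (hsingle : k = 2 → D.card = 1) : Cfsg.Geo.omegaGL Q ≤ matGroup M := by
  classical
  have hf := hM.symp
  have hP := patIn_of_rootPat hM hQ h
  obtain ⟨hD, ⟨o, ho⟩, -, -, h0, -⟩ := h
  set w := u o
  have hw : w ≠ 0 := (h0 o).1
  have hall : ∀ (x : Fin t → Fin k → F) (m : Fin t), f w (x m) = 0 → pv x ∈ rootSpace hM hQ w := by
    intro x m hm
    rcases Nat.lt_or_ge k 4 with hk | hk
    swap
    · exact slot_orth_four hM hQ hk hP hD ho hw hm
    have hk2 : k = 2 := by rcases hM.small with ⟨e, -⟩ | ⟨e, -⟩ <;> omega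
    refine slot_orth_two hM hQ hk2 (htwo hk2) (fun d => ?_) hw hm
    obtain ⟨d₀, rfl⟩ := Finset.card_eq_one.1 (hsingle hk2)
    rcases eq_or_ne d d₀ with rfl | hd
    · exact hP
    obtain ⟨a, ha, b, hb, hab⟩ := Finset.one_lt_card.1
      (show 1 < (({d₀, d} : Finset (Fin t))ᶜ).card by
        rw [Finset.card_compl, Fintype.card_fin, Finset.card_pair hd.symm]
        have := htwo hk2; omega)
    simp only [Finset.mem_compl, Finset.mem_insert, Finset.mem_singleton, not_or] at ha hb
    have := hP.perm hM hQ ⟨a, by simpa using ha.1⟩ (σ := Equiv.swap d₀ d * Equiv.swap a b) (by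
      rw [Equiv.Perm.mem_alternatingGroup, map_mul, Equiv.Perm.sign_swap hd.symm, Equiv.Perm.sign_swap hab]
      decide)
    simpa [Equiv.swap_apply_of_ne_of_ne (Ne.symm ha.1) (Ne.symm hb.1)] using this
  refine omega_le_of_root_vectors hQ (by simpa using hn) (matGroup_le hM hQ)
    {Z | ∃ x : Fin t → Fin k → F, (∀ i, x i ≠ 0) ∧ pv x = Z} ?_ fun u hu hu0 => ?_
  · rintro _ ⟨x, hx, rfl⟩
    refine ⟨hM.q_pure x, fun W hW => ?_⟩
    choose r hr hrw using fun i => exists_isom_map hf hw (hx i)
    obtain ⟨g, hg, hgp⟩ := kron_fix hM hQ hr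
    have e : pv x = (g : Matrix (Fin t → Fin k) (Fin t → Fin k) F) *ᵥ pv fun _ => w := by
      rw [hgp]; exact congrArg pv (funext fun i => (hrw i).symm)
    have hgI := matGroup_le hM hQ hg
    obtain ⟨W, rfl⟩ : ∃ W', W = (g : Matrix (Fin t → Fin k) (Fin t → Fin k) F) *ᵥ W' :=
      ⟨_, (OrthGeo.mulVec_inv_cancel g W).symm⟩
    rw [e, OrthGeo.isometry_b hQ hgI] at hW
    rw [e]
    have hWE := mem_rootSpace hM hQ hw hall hW
    have := hWE.2 1
    rw [one_smul] at this
    exact this.conj hQ (hM.q_pure _) hW hg hgI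
  · obtain ⟨x, hx⟩ : ∃ x : Fin t → Fin k → F, bform hQ (pv x) u ≠ 0 := by
      by_contra! h
      obtain ⟨-, v', hv'⟩ := hQ.nondegenerate u hu0
      rw [← bform_apply hQ] at hv'
      refine hv' ?_
      have : bform hQ u = 0 := linearMap_ext_pv fun x => by rw [b_symm hQ, h x]; rfl
      rw [this]; rfl
    have hx0 : ∀ i, x i ≠ 0 := fun i h => hx (by rw [pv_zero_slot x i h, map_zero]; rfl)
    choose y hy using fun i => hf.exists_one (hx0 i)
    refine ⟨pv x, ⟨x, hx0, rfl⟩, pv y, ⟨y, fun i h => by have := hy i; simp [h] at this, rfl⟩, ?_, hx⟩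
    rw [bform_eq hM hQ, tform_pv]
    simp [hy]

end CfsgLib.OPlusWreath94
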