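import Cfsg.Agent.OPlusWreath94.NonScalar
import Cfsg.Agent.WreathTensor14.Final
import Cfsg.Agent.SympWreath17.Quadratic
import Cfsg.Agent.Classical.AltFormTransv
import Cfsg.Agent.Classical.Orth.Index

/-!
The passage from the coordinates of the tensor power to the orthogonal group: maximality of the tensor
wreath product in `Ω` follows once the groups with only scalar coefficients are monomial.
-/

set_option autoImplicit false
set_option linter.unusedSectionVars false

namespace CfsgLib.OPlusWreath94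

open Matrix Module Function
open CfsgLib.SympWreath17 (IsSymp Isom nmat tform tform_pv tform_apply exists_isom_map isom_one kronE_sim
  permE_sim)
open CfsgLib.WreathTensor14 (TV pv pv_single toE toE_apply toE_injective monoGroup krGL kronE kronE_pv
  permE permE_pv map_toE_tensorWreathStandard kronE_mem_mono permE_mem_mono linearMap_ext_pv)
open Cfsg.Geo (omegaGL IsNondegenerateQuadraticForm)

/-! ### The commutator subgroup of an isometry group -/

section omega

variable {ι : Type} [Fintype ι] [DecidableEq ι] {F : Type*} [Field F] {Q : (ι → F) → F}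

lemma omegaGL_eq_commutator (Q : (ι → F) → F) :
    omegaGL Q = ⁅Cfsg.isometryGroup F Q, Cfsg.isometryGroup F Q⁆ := by
  change (commutator (Cfsg.isometryGroup F Q)).map (Cfsg.isometryGroup F Q).subtype = _
  rw [commutator_def, Subgroup.map_commutator, ← MonoidHom.range_eq_map, Subgroup.range_subtype]

variable [Finite F] (hQ : IsNondegenerateQuadraticForm Q) (hn : 5 ≤ Fintype.card ι)
include hQ hn

lemma mul_self_mem_omega {g : GL ι F} (hg : g ∈ Cfsg.isometryGroup F Q) : g * g ∈ omegaGL Q := by
  have hexc : ¬ (Nat.card F = 2 ∧ Fintype.card ι = 4) := fun h => by omega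
  have hsq : ∀ z : Multiplicative (ZMod 2) × Multiplicative (ZMod 2), z * z = 1 := by decide
  refine ⟨⟨g, hg⟩ * ⟨g, hg⟩, ?_, rfl⟩
  rw [SetLike.mem_coe, ← CfsgLib.Classical.Orth.ker_classHom hQ hexc, MonoidHom.mem_ker, map_mul, hsq]

/-- A homomorphism to an abelian group of exponent two with kernel `Ω`. -/
lemma exists_class : ∃ χ : Cfsg.isometryGroup F Q →* Multiplicative (ZMod 2) × Multiplicative (ZMod 2),
    ∀ g : Cfsg.isometryGroup F Q, χ g = 1 → (g : GL ι F) ∈ omegaGL Q := by
  have hexc : ¬ (Nat.card F = 2 ∧ Fintype.card ι = 4) := fun h => by omega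
  refine ⟨CfsgLib.Classical.Orth.classHom hQ hexc, fun g hg => ⟨g, ?_, rfl⟩⟩
  rw [SetLike.mem_coe, ← CfsgLib.Classical.Orth.ker_classHom hQ hexc, MonoidHom.mem_ker]
  exact hg

end omega

variable {F : Type*} [Field F] {k t : ℕ} {f : LinearMap.BilinForm F (Fin k → F)} {Q : TV F k t → F}

lemma exists_slot_zero_index (hf : IsSymp f) {x : Fin t → Fin k → F} {c : F} (i : Fin t) :
    c • pv x = pv (update x i (c • x i)) := by
  rw [pv_update_smul, update_eq_self]

/-- Monomial maps preserve purity. -/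
lemma exists_pure_image {g : TV F k t ≃ₗ[F] TV F k t} (hg : g ∈ monoGroup F k t) (x : Fin t → Fin k → F) :
    ∃ y, g (pv x) = pv y := by
  obtain ⟨σ, gs, rfl⟩ := hg
  exact ⟨_, by rw [LinearEquiv.mul_apply, permE_pv, kronE_pv]⟩

section standard

variable (hf : IsSymp f) (hQ : IsNondegenerateQuadraticForm Q)
  (hadd : ∀ u v, Q (u + v) = Q u + Q v + tform f t u v) (hpure : ∀ x, Q (pv x) = 0)
include hf hQ hadd hpure

/-- Maps preserving the polar form and purity are isometries. -/
lemma isometry_of_pure (i₀ : Fin t) {g : GL (Fin t → Fin k) F}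
    (hform : ∀ u v, tform f t (toE g u) (toE g v) = tform f t u v)
    (hp : ∀ x, ∃ y, toE g (pv x) = pv y) : g ∈ Cfsg.isometryGroup F Q := by
  refine OrthGeo.mem_isometryGroup.2 fun v => ?_
  rw [← toE_apply, pi_eq_sum_univ' v]
  refine Finset.sum_induction (fun p => v p • Pi.single p (1 : F)) (fun w => Q (toE g w) = Q w) ?_ ?_ ?_
  · intro a b ha hb
    rw [map_add, hadd, hadd, ha, hb, hform]
  · rw [map_zero]
  · intro p _
    obtain ⟨y, hy⟩ := hp fun i => Pi.single (p i) (1 : F)
    rw [← pv_single, map_smul, hy, exists_slot_zero_index hf i₀, exists_slot_zero_index hf i₀, hpure, hpure]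

lemma krGL_isometry (i₀ : Fin t) {gs : Fin t → GL (Fin k) F} (h : ∀ i, Isom f (gs i)) :
    krGL gs ∈ Cfsg.isometryGroup F Q :=
  isometry_of_pure hf hQ hadd hpure i₀ (fun u v => by
    have := kronE_sim (f := f) (gs := gs) (cs := fun _ => 1) (fun i x y => by rw [one_mul]; exact h i x y) u v
    rwa [Finset.prod_const_one, one_mul] at this)
    fun x => ⟨_, kronE_pv gs x⟩

variable [Finite F] (hn : 13 ≤ k ^ t)
include hn

/-- Transvections of one factor lie in `Ω`. -/
lemma transv_mem_omega (hsmall : (2 : F) = 0 → 6 ≤ k) (i : Fin t) {a : GL (Fin k) F} {c : F}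
    {w : Fin k → F} (ha : Isom f a) (hval : a.val = 1 + c • nmat f w) :
    krGL (Pi.mulSingle i a) ∈ omegaGL Q := by
  classical
  have := Fintype.ofFinite F
  have hcard : 5 ≤ Fintype.card (Fin t → Fin k) := by simp; omega
  have hiso : ∀ a : GL (Fin k) F, Isom f a → krGL (Pi.mulSingle i a) ∈ Cfsg.isometryGroup F Q :=
    fun a ha => krGL_isometry hf hQ hadd hpure i fun l => by
      rcases eq_or_ne l i with rfl | h
      · simpa using ha
      · simpa [h] using isom_one f
  by_cases h2 : (2 : F) = 0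
  swap
  · have : NeZero (2 : F) := ⟨h2⟩
    obtain ⟨b, hb, hbv, -, -⟩ := SympWreath17.exists_transvection hf (c / 2) w
    have e : a = b * b := Units.ext (by
      rw [Units.val_mul, hbv, hval]
      simp only [add_mul, mul_add, one_mul, mul_one, smul_mul_smul_comm, nmat_eq, rone_mul, hf.alt,
        zero_smul, smul_zero, add_zero]
      rw [add_assoc, ← add_smul, add_halves])
    rw [e, Pi.mulSingle_mul, map_mul]
    exact mul_self_mem_omega hQ hcard (hiso b hb)
  obtain ⟨χ, hχ⟩ := exists_class hQ hcard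
  choose T hT hTv hTz hTi using SympWreath17.exists_transvection hf (1 : F)
  let X : (Fin k → F) → Cfsg.isometryGroup F Q := fun w =>
    ⟨krGL (Pi.mulSingle i (T w)), hiso _ (hT w)⟩
  have hsq : ∀ z : Multiplicative (ZMod 2) × Multiplicative (ZMod 2), z * z = 1 := by decide
  have hconst : ∀ u v, u ≠ 0 → v ≠ 0 → χ (X u) = χ (X v) := by
    intro u v hu hv
    obtain ⟨r, hr, hrv⟩ := exists_isom_map hf hu hv
    let R : Cfsg.isometryGroup F Q := ⟨krGL (Pi.mulSingle i r), hiso _ hr⟩
    have e : X v = R * X u * R⁻¹ := Subtype.ext (by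
      simp only [X, R, Subgroup.coe_mul, Subgroup.coe_inv, ← map_inv, ← map_mul, ← Pi.mulSingle_inv,
        ← Pi.mulSingle_mul]
      congr 2
      refine Units.ext ?_
      simp only [Units.val_mul, hTv, one_smul, mul_add, add_mul, mul_one, nmat_eq, conj_rone hr, hrv,
        Units.mul_inv])
    rw [e, map_mul, map_mul, map_inv]
    simp
  have hone : ∀ u, u ≠ 0 → χ (X u) = 1 := by
    intro a ha
    obtain ⟨b, hab, hbF⟩ := exists_orth_off (f := f) (by have := hsmall h2; omega) a
    obtain ⟨c, hac, hbc, hcF⟩ : ∃ c, f a c = 0 ∧ f b c = 0 ∧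
        c ∉ Submodule.span F ({a, b} : Set (Fin k → F)) := by
      by_contra! h
      let L : (Fin k → F) →ₗ[F] F × F := (f a).prod (f b)
      have h1 := L.finrank_range_add_finrank_ker
      have h3 := Submodule.finrank_le (LinearMap.range L)
      have h4 : LinearMap.ker L ≤ Submodule.span F ({a, b} : Set (Fin k → F)) := fun c hc => by
        simp only [LinearMap.mem_ker, L, LinearMap.prod_apply, Function.prod, Prod.mk_eq_zero] at hc
        exact h c hc.1 hc.2
      have h5 := (Submodule.finrank_mono h4).trans (finrank_span_le_card _)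
      have h6 : ({a, b} : Set (Fin k → F)).toFinset.card ≤ 2 := by
        simp only [Set.toFinset_insert, Set.toFinset_singleton]
        exact Finset.card_le_two
      rw [finrank_prod, finrank_self] at h3
      rw [finrank_pi, Fintype.card_fin] at h1
      have := hsmall h2
      omega
    have hb0 : b ≠ 0 := fun e => hbF (e ▸ zero_mem _)
    have hc0 : c ≠ 0 := fun e => hcF (e ▸ zero_mem _)
    have ma : a ∈ Submodule.span F ({a, b} : Set (Fin k → F)) := Submodule.subset_span (by simp)
    have mb : b ∈ Submodule.span F ({a, b} : Set (Fin k → F)) := Submodule.subset_span (by simp)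
    have hab0 : a + b ≠ 0 := fun e => hbF (by
      rw [eq_neg_of_add_eq_zero_right e]
      exact Submodule.neg_mem _ (Submodule.mem_span_singleton_self a))
    have hac0 : a + c ≠ 0 := fun e => hcF (by
      rw [eq_neg_of_add_eq_zero_right e]; exact Submodule.neg_mem _ ma)
    have hbc0 : b + c ≠ 0 := fun e => hcF (by
      rw [eq_neg_of_add_eq_zero_right e]; exact Submodule.neg_mem _ mb)
    have habc0 : a + (b + c) ≠ 0 := fun e => hcF (by
      have : c = -a - b := by
        have h' : b + c = -a := eq_neg_of_add_eq_zero_right e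
        rw [← h']; abel
      rw [this]
      exact Submodule.sub_mem _ (Submodule.neg_mem _ ma) mb)
    have hba : f b a = 0 := by rw [hf.skew, hab, neg_zero]
    have hca : f c a = 0 := by rw [hf.skew, hac, neg_zero]
    have hcb : f c b = 0 := by rw [hf.skew, hbc, neg_zero]
    have hneg : ∀ Y : Matrix (Fin k) (Fin k) F, Y + Y = 0 := fun Y => by
      rw [← two_smul F Y, h2, zero_smul]
    have e : X a * X b * X (a + b) * (X a * X c * X (a + c)) = X a * X (b + c) * X (a + (b + c)) :=
      Subtype.ext (by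
        simp only [X, Subgroup.coe_mul, ← map_mul, ← Pi.mulSingle_mul]
        congr 2
        refine Units.ext ?_
        simp only [Units.val_mul, hTv, one_smul, nmat_eq, rone_add_left, rone_add_right, mul_add, add_mul,
          mul_one, one_mul, rone_mul, map_add, LinearMap.add_apply, hf.alt, hab, hba, hac, hca, hbc, hcb,
          zero_smul, add_zero, zero_add]
        rw [← sub_eq_zero]
        have k1 := hneg (rone f a a)
        have k2 := hneg (rone f b b)
        have k3 := hneg (rone f c c)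
        have k4 := hneg (rone f b c)
        have k5 := hneg (rone f c b)
        linear_combination (norm := module) k1 - k4 - k5)
    have := congrArg χ e
    simp only [map_mul, hconst b a hb0 ha, hconst c a hc0 ha, hconst (a + b) a hab0 ha,
      hconst (a + c) a hac0 ha, hconst (b + c) a hbc0 ha, hconst (a + (b + c)) a habc0 ha] at this
    rw [hsq] at this
    rw [hsq, one_mul] at this
    exact this.symm
  obtain ⟨d, rfl⟩ := FiniteField.isSquare_of_char_two (ringChar.eq_iff.2
    (CharTwo.of_one_ne_zero_of_two_eq_zero one_ne_zero h2)) c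
  rcases eq_or_ne (d • w) 0 with h0 | h0
  · have e : a = 1 := Units.ext (by
      rw [hval, nmat_eq, Units.val_one]
      rw [show (d * d) • rone f w w = rone f (d • w) (d • w) by
        rw [rone_smul_left, rone_smul_right, smul_smul], h0]
      simp [rone, vecMulVec, Matrix.ext_iff.symm])
    rw [e, Pi.mulSingle_one, map_one]
    exact one_mem _
  · have e : a = T (d • w) := Units.ext (by
      rw [hval, hTv, one_smul, nmat_eq, nmat_eq, rone_smul_left, rone_smul_right, smul_smul])
    rw [e]
    exact hχ (X (d • w)) (hone _ h0)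

/-- The products of isometries of the factors lie in `Ω`. -/
lemma krGL_mem_omega (hsmall : (2 : F) = 0 → 6 ≤ k) {gs : Fin t → GL (Fin k) F}
    (h : ∀ i, Isom f (gs i)) : krGL gs ∈ omegaGL Q := by
  classical
  have hS : Cfsg.Geo.IsSymplecticForm (fun x y => f x y) :=
    { bilinear := ⟨fun x y v => by simp, fun c x v => by simp, fun v x y => by simp,
        fun c v x => by simp⟩
      alternating := hf.alt
      skew := fun x y => hf.skew y x
      nondegenerate := fun v hv => by
        obtain ⟨y, hy⟩ := hf.exists_one hv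
        exact ⟨⟨y, show f y v ≠ 0 by rw [hf.skew v y, hy]; simp⟩, y, by simp [hy]⟩ }
  have hone : ∀ (i : Fin t) (a : GL (Fin k) F), Isom f a → krGL (Pi.mulSingle i a) ∈ omegaGL Q := by
    intro i a ha
    have := CfsgLib.AltFormTransv.mem_of_preserves hS
      ((omegaGL Q).comap (krGL.comp (MonoidHom.mulSingle (fun _ : Fin t => GL (Fin k) F) i)))
      (fun v c => ?_) a ha
    · exact this
    refine Subgroup.mem_comap.2 (transv_mem_omega hf hQ hadd hpure hn hsmall i (c := c) (w := v)
      (fun x y => CfsgLib.AltFormTransv.sympT_preserves hS v c x y)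
      (Matrix.ext_of_mulVec_single fun j => ?_))
    rw [CfsgLib.AltFormTransv.sympT_mulVec, add_mulVec, one_mulVec, smul_mulVec, nmat_eq, rone_mulVec,
      smul_smul]
  have key : ∀ J : Finset (Fin t), krGL (J.piecewise gs 1) ∈ omegaGL Q := by
    intro J
    induction J using Finset.induction_on with
    | empty => rw [Finset.piecewise_empty, map_one]; exact one_mem _
    | @insert j J hj ih =>
      rw [show (insert j J).piecewise gs 1 = Pi.mulSingle j (gs j) * J.piecewise gs 1 from funext fun l => by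
        rcases eq_or_ne l j with rfl | hl <;> simp [hj, *], map_mul]
      exact mul_mem (hone j _ (h j)) ih
  simpa [Finset.piecewise_univ] using key Finset.univ

/-- The permutations of order dividing three lie in `Ω`. -/
lemma perm_mem_omega (i₀ : Fin t) {σ : Equiv.Perm (Fin t)} (hσ : σ ^ 3 = 1) :
    ∃ g ∈ omegaGL Q, toE g = permE (F := F) (m := k) σ := by
  obtain ⟨g, -, -, hg⟩ := WreathTensor14.exists_perm_GL (F := F) (m := k) σ hσ
  obtain ⟨g2, -, -, hg2⟩ := WreathTensor14.exists_perm_GL (F := F) (m := k) (σ ^ 2)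
    (by rw [← pow_mul, pow_mul', hσ, one_pow])
  have hiso : g2 ∈ Cfsg.isometryGroup F Q :=
    isometry_of_pure hf hQ hadd hpure i₀ (by rw [hg2]; exact permE_sim (σ ^ 2))
      fun x => ⟨_, by rw [hg2, permE_pv]⟩
  refine ⟨g2 * g2, mul_self_mem_omega hQ (by simp; omega) hiso, ?_⟩
  rw [map_mul, hg2, ← map_mul, ← pow_add, show 2 + 2 = 3 + 1 from rfl, pow_succ, hσ, one_mul]

/-- `Ω` is not monomial. -/
lemma omega_not_le_mono (ht : 2 ≤ t) (hk : (k = 2 ∧ 3 ≤ t) ∨ 4 ≤ k) :
    ∃ g ∈ omegaGL Q, toE g ∉ monoGroup F k t := by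
  classical
  obtain ⟨e, e', z, hee, hez, hz, hzn, hsp⟩ :
      ∃ e e' z : Fin k → F, f e e' = 1 ∧ f e z = 0 ∧ z ∉ Submodule.span F ({e'} : Set (Fin k → F)) ∧
        z ≠ 0 ∧ (f z e' = 0 ∨ 3 ≤ t) := by
    rcases hk with ⟨hk, ht3⟩ | hk
    · have he : (Pi.single (⟨0, by omega⟩ : Fin k) (1 : F) : Fin k → F) ≠ 0 := by simp
      obtain ⟨e', he'⟩ := hf.exists_one he
      refine ⟨_, e', _, he', hf.alt _, fun h => ?_, he, Or.inr ht3⟩
      obtain ⟨c, hc⟩ := Submodule.mem_span_singleton.1 h
      rw [← hc, map_smul, LinearMap.smul_apply, hf.alt, smul_zero] at he'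
      exact zero_ne_one he'
    · obtain ⟨e, e', b, hee, heb, heb', hb⟩ := exists_triple hf hk
      refine ⟨e, e', b, hee, heb, fun h => ?_, hb, Or.inl (by rw [hf.skew e' b, heb', neg_zero])⟩
      obtain ⟨c, hc⟩ := Submodule.mem_span_singleton.1 h
      rw [← hc, map_smul, hee, smul_eq_mul, mul_one] at heb
      exact hb (by rw [← hc, heb, zero_smul])
  have he : e ≠ 0 := fun h => by simp [h] at hee
  have he' : e' ≠ 0 := fun h => by simp [h] at hee
  let i₀ : Fin t := ⟨0, by omega⟩
  let i₁ : Fin t := ⟨1, by omega⟩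
  let w : Fin t → Fin k → F := fun i => if i.val < 2 then z else e'
  have hb : ∀ x y, OrthGeo.bform hQ x y = tform f t x y := fun x y => by
    rw [OrthGeo.bform_apply, QuadraticMap.polar, hadd]; ring
  have hUW : OrthGeo.bform hQ (pv fun _ => e) (pv w) = 0 := by
    rw [hb, tform_pv]
    exact Finset.prod_eq_zero (Finset.mem_univ i₀) (by simp [w, i₀, hez])
  refine ⟨_, OrthGeo.eichler_mem_omega hQ (by simp; omega) (hpure fun _ => e) hUW, fun hm => ?_⟩
  obtain ⟨y, hy⟩ := exists_pure_image hm fun _ => e'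
  have hWx : OrthGeo.bform hQ (pv w) (pv fun _ => e') = 0 := by
    rw [hb, tform_pv]
    rcases hsp with h | h
    · exact Finset.prod_eq_zero (Finset.mem_univ i₀) (by simp [w, i₀, h])
    · exact Finset.prod_eq_zero (Finset.mem_univ ⟨2, h⟩) (by simp [w, hf.alt])
  have hUx : OrthGeo.bform hQ (pv fun _ => e) (pv fun _ : Fin t => e') = 1 := by
    rw [hb, tform_pv]; simp [hee]
  rw [toE_apply, show ((OrthGeo.eichler hQ (hpure fun _ => e) hUW : GL (Fin t → Fin k) F) :
      Matrix (Fin t → Fin k) (Fin t → Fin k) F) = OrthGeo.eichlerMat Q (pv fun _ => e) (pv w) from rfl,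
    OrthGeo.eichlerMat_mulVec hQ, hWx, hUx, hpure] at hy
  have h01 : i₀ ≠ i₁ := by simp [i₀, i₁]
  refine hz (?_ : z ∈ Submodule.span F ({e'} : Set (Fin k → F)))
  have := SympWreath17.differ_one (x := fun _ => e') (y := w) (z := y) (a := 1) (b := -1) one_ne_zero
    (by simp) (fun _ => he') (fun i => by dsimp only [w]; split_ifs <;> assumption)
    (by rw [← hy]; module) h01 (by simp [w, i₀, hz])
  simpa [w, i₁] using this

end standard

/-- The stabiliser of a symplectic tensor power in `Ω` is maximal, given that overgroups with only scalar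
coefficients are monomial. -/
theorem isMaximalIn_of_mono [Fintype F] {n : ℕ} (hn : 13 ≤ n) (heven : Even n) {Q : (Fin n → F) → F}
    (hQ : IsNondegenerateQuadraticForm Q) {s : ℕ} (hs : 1 ≤ s)
    (hqt : Odd (Fintype.card F) → Even (s + 1)) (hex1 : ¬ (Fintype.card F = 2 ∧ k = 2))
    (hex2 : ¬ (Fintype.card F = 3 ∧ k = 2)) (hex3 : ¬ Odd (Fintype.card F) → 6 ≤ k)
    (hmono : ∀ (f : LinearMap.BilinForm F (Fin k → F)) (Q : TV F k (s + 1) → F)
      (M : Subgroup (TV F k (s + 1) ≃ₗ[F] TV F k (s + 1))),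
      OBase f Q M → SympWreath17.OnlyScal f M → ∀ g ∈ M, g ∈ monoGroup F k (s + 1))
    (e : Fin n ≃ (Fin (s + 1) → Fin k)) (P : GL (Fin n) F)
    {f₁ : (Fin k → F) → (Fin k → F) → F} (hf₁ : Cfsg.Geo.IsSymplecticForm f₁)
    (hT : Cfsg.Geo.IsTensorPowerFormStructure id (QuadraticMap.polar Q) f₁ e P)
    (hpure : ∀ xs : Fin (s + 1) → (Fin k → F), Q (Matrix.mulVec (P : Matrix (Fin n) (Fin n) F)
      ((fun a : Fin (s + 1) → Fin k => ∏ i, xs i (a i)) ∘ e)) = 0) :
    Cfsg.Geo.IsMaximalIn (omegaGL Q) (Cfsg.Geo.tensorWreathSubgroup k (s + 1) e P ⊓ omegaGL Q) := by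
  classical
  obtain ⟨c, hc, hcT⟩ := hT
  let f : LinearMap.BilinForm F (Fin k → F) := LinearMap.mk₂ F f₁ hf₁.bilinear.add_left
    hf₁.bilinear.smul_left (fun v x y => hf₁.bilinear.add_right v x y)
    (fun a v x => hf₁.bilinear.smul_right a v x)
  have hf : IsSymp f := ⟨hf₁.alternating, fun x h => by
    by_contra hx
    obtain ⟨y, hy⟩ := (hf₁.nondegenerate x hx).2
    exact hy (h y)⟩
  let φ : TV F k (s + 1) →ₗ[F] (Fin n → F) :=
    (P : Matrix (Fin n) (Fin n) F).mulVecLin ∘ₗ LinearMap.funLeft F F e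
  have hφ : ∀ x, φ x = (P : Matrix (Fin n) (Fin n) F) *ᵥ (x ∘ e) := fun x => rfl
  have hform : ∀ x y, QuadraticMap.polar Q (φ x) (φ y) = c * tform f (s + 1) x y := fun x y => by
    rw [hφ, hφ, hcT, tform_apply]
    rfl
  have hsurj : Surjective φ := fun v =>
    ⟨(((P⁻¹ : GL (Fin n) F) : Matrix (Fin n) (Fin n) F) *ᵥ v) ∘ e.symm, by
      simp [hφ, Function.comp_assoc, Matrix.mulVec_mulVec]⟩
  have hinj : Injective φ := fun x y hxy => by
    have := congrArg (fun w => ((P⁻¹ : GL (Fin n) F) : Matrix (Fin n) (Fin n) F) *ᵥ w) hxy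
    simp only [hφ, Matrix.mulVec_mulVec, ← Units.val_mul, inv_mul_cancel, Units.val_one,
      one_mulVec] at this
    exact e.surjective.injective_comp_right this
  set ψ : GL (Fin (s + 1) → Fin k) F ≃* GL (Fin n) F :=
    (Cfsg.Geo.glReindex e.symm).trans (MulAut.conj P)
  have hψ : ∀ g u, (ψ g : Matrix (Fin n) (Fin n) F) *ᵥ φ u = φ (toE g u) := fun g u => by
    change ((P : Matrix (Fin n) (Fin n) F) * Matrix.reindex e.symm e.symm g.val
      * ((P⁻¹ : GL (Fin n) F) : Matrix (Fin n) (Fin n) F)) *ᵥ _ = _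
    simp only [hφ, ← Matrix.mulVec_mulVec]
    rw [Matrix.mulVec_mulVec (M := ((P⁻¹ : GL (Fin n) F) : Matrix (Fin n) (Fin n) F)),
      ← Units.val_mul, inv_mul_cancel, Units.val_one, one_mulVec, Matrix.reindex_apply,
      Matrix.submatrix_mulVec_equiv]
    simp [Function.comp_assoc]
  -- the form in tensor coordinates
  set Q' : TV F k (s + 1) → F := fun v => c⁻¹ * Q (φ v) with hQ'def
  have hpolar : ∀ x y, QuadraticMap.polar Q' x y = tform f (s + 1) x y := fun x y => by
    have h := hform x y
    simp only [QuadraticMap.polar] at h ⊢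
    simp only [hQ'def, map_add]
    rw [← mul_sub, ← mul_sub, h, inv_mul_cancel_left₀ hc]
  have hadd : ∀ u v, Q' (u + v) = Q' u + Q' v + tform f (s + 1) u v := fun u v => by
    rw [← hpolar, QuadraticMap.polar]; ring
  have hpure' : ∀ x, Q' (pv x) = 0 := fun x => by
    rw [hQ'def]; exact mul_eq_zero_of_right _ (hpure x)
  have hQ' : IsNondegenerateQuadraticForm Q' := by
    refine ⟨fun a v => ?_, ⟨fun x y v => ?_, fun a x v => ?_, fun v x y => ?_, fun a v x => ?_⟩,
      fun v hv => ?_⟩
    · simp only [hQ'def, map_smul, hQ.smul]; ring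
    · simp [hpolar]
    · simp [hpolar]
    · simp [hpolar]
    · simp [hpolar]
    · obtain ⟨⟨x, hx⟩, y, hy⟩ := hQ.nondegenerate (φ v) (fun h0 => hv (hinj (h0.trans (map_zero φ).symm)))
      obtain ⟨x, rfl⟩ := hsurj x
      obtain ⟨y, rfl⟩ := hsurj y
      rw [hform] at hx hy
      exact ⟨⟨x, by rw [hpolar]; exact right_ne_zero_of_mul hx⟩,
        y, by rw [hpolar]; exact right_ne_zero_of_mul hy⟩
  have hiso : (Cfsg.isometryGroup F Q').map ψ.toMonoidHom = Cfsg.isometryGroup F Q := by
    ext g
    obtain ⟨g, rfl⟩ := ψ.surjective g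
    rw [show ψ g = ψ.toMonoidHom g from rfl, Subgroup.mem_map_iff_mem (f := ψ.toMonoidHom) ψ.injective,
      OrthGeo.mem_isometryGroup, OrthGeo.mem_isometryGroup]
    refine ⟨fun h v => ?_, fun h v => ?_⟩
    · obtain ⟨u, rfl⟩ := hsurj v
      have h1 := h u
      rw [← toE_apply] at h1
      change Q ((ψ g : Matrix (Fin n) (Fin n) F) *ᵥ φ u) = _
      rw [hψ]
      exact mul_left_cancel₀ (inv_ne_zero hc) h1
    · have h1 : Q ((ψ g : Matrix (Fin n) (Fin n) F) *ᵥ φ v) = Q (φ v) := h (φ v)
      rw [← toE_apply]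
      rw [hψ] at h1
      simp only [hQ'def, h1]
  have hΩ : (omegaGL Q').map ψ.toMonoidHom = omegaGL Q := by
    rw [omegaGL_eq_commutator, omegaGL_eq_commutator, Subgroup.map_commutator, hiso]
  have hW : (Cfsg.Geo.tensorWreathStandard k (s + 1) F).map ψ.toMonoidHom
      = Cfsg.Geo.tensorWreathSubgroup k (s + 1) e P := by
    rw [Cfsg.Geo.tensorWreathSubgroup, Subgroup.map_map]
    rfl
  -- the numerical conditions
  have hcard : n = k ^ (s + 1) := by simpa using Fintype.card_congr e
  have hk0 : k ≠ 0 := by rintro rfl; simp at hcard; omega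
  have hkeven : Even k := (Nat.even_pow.1 (hcard ▸ heven)).1
  have h2odd : (2 : F) ≠ 0 ↔ Odd (Fintype.card F) := by
    refine ⟨fun h => Nat.odd_iff.2 (FiniteField.odd_card_of_char_ne_two fun h' => h ?_), fun h h' => ?_⟩
    · have := ringChar.charP F
      rw [h'] at this
      exact CharTwo.two_eq_zero
    · exact Nat.not_even_iff_odd.2 h (Nat.even_iff.2 (FiniteField.even_card_iff_char_two.1
        (CharP.ringChar_of_prime_eq_zero Nat.prime_two (by exact_mod_cast h'))))
  have h6 : (2 : F) = 0 → 6 ≤ k := fun h => hex3 fun h' => h2odd.2 h' h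
  have hsmall : (k = 2 ∧ (2 : F) ≠ 0 ∧ ∃ r : F, r ≠ 0 ∧ r ^ 2 ≠ 1) ∨ (4 ≤ k ∧ ((2 : F) = 0 → 6 ≤ k)) := by
    rcases eq_or_ne k 2 with hk | hk
    · have h2 : (2 : F) ≠ 0 := fun h => by have := h6 h; omega
      refine Or.inl ⟨hk, h2, ?_⟩
      by_contra! hr
      have hle : Finset.univ ⊆ ({0, 1, -1} : Finset F) := fun r _ => by
        rcases eq_or_ne r 0 with h | h
        · simp [h]
        · rcases sq_eq_one_iff.1 (hr r h) with h' | h' <;> simp [h']
      have hcard := (Finset.card_le_card hle).trans Finset.card_le_three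
      rw [Finset.card_univ] at hcard
      obtain ⟨r, hr⟩ := h2odd.1 h2
      have : 1 < Fintype.card F := Fintype.one_lt_card
      exact hex2 ⟨by omega, hk⟩
    · obtain ⟨r, hr⟩ := hkeven
      exact Or.inr ⟨by omega, h6⟩
  have hbig : 13 ≤ k ^ (s + 1) := hcard ▸ hn
  have hkt : (k = 2 ∧ 3 ≤ s + 1) ∨ 4 ≤ k := by
    rcases hsmall with ⟨hk, -⟩ | ⟨hk, -⟩
    · refine Or.inl ⟨hk, ?_⟩
      by_contra h
      have : s + 1 = 2 := by omega
      rw [this, hk] at hbig
      norm_num at hbig
    · exact Or.inr hk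
  -- maximality in tensor coordinates
  have hstd : Cfsg.Geo.IsMaximalIn (omegaGL Q')
      (Cfsg.Geo.tensorWreathStandard k (s + 1) F ⊓ omegaGL Q') := by
    refine ⟨lt_of_le_of_ne inf_le_right fun h => ?_, fun M hle hMle => ?_⟩
    · obtain ⟨g, hg, hg'⟩ := omega_not_le_mono hf hQ' hadd hpure' hbig (by omega) hkt
      refine hg' ?_
      rw [← map_toE_tensorWreathStandard]
      exact Subgroup.mem_map_of_mem _ (h.ge hg).1
    set M' : Subgroup (TV F k (s + 1) ≃ₗ[F] TV F k (s + 1)) := M.map toE
    have hlift : ∀ {g}, toE g ∈ monoGroup F k (s + 1) → g ∈ omegaGL Q' → toE g ∈ M' := fun {g} hm hg => by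
      rw [← map_toE_tensorWreathStandard] at hm
      exact Subgroup.mem_map_of_mem _ (hle ⟨(Subgroup.mem_map_iff_mem toE_injective).1 hm, hg⟩)
    have hI : omegaGL Q' ≤ Cfsg.isometryGroup F Q' := by
      rintro _ ⟨g, -, rfl⟩
      exact g.2
    have hB : OBase f Q' M' :=
      { symp := hf
        even_t := fun h => hqt (h2odd.1 h)
        small := hsmall
        q_add := hadd
        q_pure := hpure'
        iso := by
          rintro _ ⟨g, hg, rfl⟩ v
          rw [toE_apply]
          exact OrthGeo.mem_isometryGroup.1 (hI (hMle hg)) v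
        kron_mem := fun gs h => hlift (g := krGL gs) (kronE_mem_mono gs)
          (krGL_mem_omega hf hQ' hadd hpure' hbig h6 h)
        perm_mem := fun σ hσ => by
          obtain ⟨g, hg, hgσ⟩ := perm_mem_omega hf hQ' hadd hpure' hbig ⟨0, by omega⟩ hσ
          rw [← hgσ]
          exact hlift (by rw [hgσ]; exact permE_mem_mono σ) hg }
    by_cases hsc : SympWreath17.OnlyScal f M'
    · refine Or.inl (le_antisymm (le_inf (fun g hg => ?_) hMle) hle)
      have := hmono f Q' M' hB hsc _ (Subgroup.mem_map_of_mem _ hg)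
      rw [← map_toE_tensorWreathStandard] at this
      exact (Subgroup.mem_map_iff_mem toE_injective).1 this
    · refine Or.inr (le_antisymm hMle ((omega_le_of_not_onlyScal hB hQ' hbig hsc).trans ?_))
      exact (Subgroup.comap_map_eq_self_of_injective toE_injective M).le
  obtain ⟨hlt, hmax⟩ := hstd
  rw [← hW, ← hΩ, ← Subgroup.map_inf _ _ _ ψ.injective]
  refine ⟨(Subgroup.map_lt_map_iff_of_injective ψ.injective).2 hlt, fun M h1 h2 => ?_⟩
  have hM : M = (M.comap ψ.toMonoidHom).map ψ.toMonoidHom :=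
    (Subgroup.map_comap_eq_self_of_surjective ψ.surjective M).symm
  rcases hmax (M.comap ψ.toMonoidHom) (Subgroup.map_le_iff_le_comap.1 h1)
    ((Subgroup.comap_mono h2).trans (Subgroup.comap_map_eq_self_of_injective ψ.injective _).le)
    with h | h
  · exact Or.inl (by rw [hM, h])
  · exact Or.inr (by rw [hM, h])

end CfsgLib.OPlusWreath94
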